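import Cfsg.Agent.Lib.H63.TCJ1s.Chk
set_option Elab.async false
set_option autoImplicit false
set_option maxRecDepth 100000
set_option linter.all false
namespace H63.TCJ1s
open H35.TC
theorem r_36 : allB chkP 9 18432 = true := by decide +kernel
theorem r_37 : allB chkP 9 18944 = true := by decide +kernel
theorem r_38 : allB chkP 9 19456 = true := by decide +kernel
theorem r_39 : allB chkP 9 19968 = true := by decide +kernel
theorem r_40 : allB chkP 9 20480 = true := by decide +kernel
theorem r_41 : allB chkP 9 20992 = true := by decide +kernel
theorem r_42 : allB chkP 9 21504 = true := by decide +kernel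
theorem r_43 : allB chkP 9 22016 = true := by decide +kernel
theorem r_44 : allB chkP 9 22528 = true := by decide +kernel
theorem r_45 : allB chkP 9 23040 = true := by decide +kernel
theorem r_46 : allB chkP 9 23552 = true := by decide +kernel
theorem r_47 : allB chkP 9 24064 = true := by decide +kernel
end H63.TCJ1s
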