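import Cfsg.Agent.Lib.H63.TCJ1s.Chk
set_option Elab.async false
set_option autoImplicit false
set_option maxRecDepth 100000
set_option linter.all false
namespace H63.TCJ1s
open H35.TC
theorem r_48 : allB chkP 9 24576 = true := by decide +kernel
theorem r_49 : allB chkP 9 25088 = true := by decide +kernel
theorem r_50 : allB chkP 9 25600 = true := by decide +kernel
end H63.TCJ1s
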