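import Cfsg.Agent.Lib.H63.TCJ1s.Chk
set_option autoImplicit false
set_option maxRecDepth 100000
set_option linter.all false
namespace H63.TCJ1s
open H35.TC
section
variable {G : Type} [Group G] {g : Lt → G} {H : Subgroup G}
/-- the points of the nodes -/
noncomputable def cP (g : Lt → G) (H : Subgroup G) : ℕ → G ⧸ H := cc (fa g) lt P ((1 : G) : G ⧸ H)
theorem dp_a_0_s (hinv : ∀ x, g (inv x) = (g x)⁻¹) (hr : ∀ r ∈ rels, (r.map g).prod = 1) (hH : ∀ r ∈ subs, (r.map g).prod ∈ H)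
    (j u : ℕ) (hu : u < M) (h : dp_a_0 j u = true) : Good (fa g) T MG M (cP g H) Lt.a u := by
  unfold dp_a_0 at h
  rcases brec_true h with h | h
  · exact lS_good (T := T) (x := Lt.a) (by decide) hu [Lt.a] (hole_rel hinv hr (by decide +kernel)) h
  · exact lS_good (T := T) (x := Lt.a) (by decide) hu [Lt.bi, Lt.a, Lt.bi, Lt.a, Lt.bi, Lt.a, Lt.bi, Lt.a, Lt.bi, Lt.a, Lt.bi, Lt.a, Lt.bi] (hole_rel hinv hr (by decide +kernel)) h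
theorem dp_a_1_s (hinv : ∀ x, g (inv x) = (g x)⁻¹) (hr : ∀ r ∈ rels, (r.map g).prod = 1) (hH : ∀ r ∈ subs, (r.map g).prod ∈ H)
    (j u : ℕ) (hu : u < M) (h : dp_a_1 j u = true) : Good (fa g) T MG M (cP g H) Lt.a u := by
  unfold dp_a_1 at h
  rcases brec_true h with h | h
  · exact lS_good (T := T) (x := Lt.a) (by decide) hu [Lt.b, Lt.a, Lt.b, Lt.a, Lt.b, Lt.a, Lt.b, Lt.a, Lt.b, Lt.a, Lt.b, Lt.a, Lt.b] (hole_rel hinv hr (by decide +kernel)) h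
  · exact dp_a_0_s hinv hr hH j u hu h
theorem dp_a_2_s (hinv : ∀ x, g (inv x) = (g x)⁻¹) (hr : ∀ r ∈ rels, (r.map g).prod = 1) (hH : ∀ r ∈ subs, (r.map g).prod ∈ H)
    (j u : ℕ) (hu : u < M) (h : dp_a_2 j u = true) : Good (fa g) T MG M (cP g H) Lt.a u := by
  unfold dp_a_2 at h
  rcases brec_true h with h | h
  · exact lF_good (T := T) (x := Lt.a) (by decide) [Lt.bi, Lt.a, Lt.b, Lt.a, Lt.bi, Lt.a, Lt.bi, Lt.a, Lt.b, Lt.a, Lt.b, Lt.a, Lt.bi, Lt.a, Lt.bi, Lt.a, Lt.b, Lt.a, Lt.bi, Lt.a, Lt.b, Lt.a, Lt.bi, Lt.a, Lt.b, Lt.a, Lt.bi, Lt.a, Lt.b, Lt.a, Lt.bi, Lt.a, Lt.b, Lt.a, Lt.bi, Lt.a, Lt.b, Lt.a, Lt.bi, Lt.a, Lt.bi, Lt.a, Lt.b, Lt.a, Lt.b, Lt.a, Lt.bi, Lt.a, Lt.bi, Lt.a, Lt.b, Lt.a, Lt.bi, Lt.a, Lt.b, Lt.a, Lt.bi, Lt.a, Lt.b, Lt.a,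 Lt.bi, Lt.a, Lt.b, Lt.a, Lt.bi, Lt.a, Lt.b] (hole_rel hinv hr (by decide +kernel)) h
  · exact lF_good (T := T) (x := Lt.a) (by decide) [Lt.b, Lt.a, Lt.bi, Lt.a, Lt.b, Lt.a, Lt.bi, Lt.a, Lt.b, Lt.a, Lt.bi, Lt.a, Lt.b, Lt.a, Lt.bi, Lt.a, Lt.b, Lt.a, Lt.bi, Lt.a, Lt.bi, Lt.a, Lt.b, Lt.a, Lt.b, Lt.a, Lt.bi, Lt.a, Lt.bi, Lt.a, Lt.b, Lt.a, Lt.bi, Lt.a, Lt.b, Lt.a, Lt.bi, Lt.a, Lt.b, Lt.a, Lt.bi, Lt.a, Lt.b, Lt.a, Lt.bi, Lt.a, Lt.b, Lt.a, Lt.bi, Lt.a, Lt.b, Lt.a, Lt.bi, Lt.a, Lt.bi, Lt.a, Lt.b, Lt.a, Lt.b, Lt.a, Lt.bi, Lt.a, Lt.bi, Lt.a, Lt.b, Lt.a, Lt.bi] (hole_rel hinv hr (by decide +kernel)) h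
theorem dp_a_3_s (hinv : ∀ x, g (inv x) = (g x)⁻¹) (hr : ∀ r ∈ rels, (r.map g).prod = 1) (hH : ∀ r ∈ subs, (r.map g).prod ∈ H)
    (j u : ℕ) (hu : u < M) (h : dp_a_3 j u = true) : Good (fa g) T MG M (cP g H) Lt.a u := by
  unfold dp_a_3 at h
  rcases brec_true h with h | h
  · exact lF_good (T := T) (x := Lt.a) (by decide) [Lt.bi, Lt.a, Lt.b, Lt.a, Lt.bi, Lt.a, Lt.b, Lt.a, Lt.bi, Lt.a, Lt.b, Lt.a, Lt.bi, Lt.a, Lt.b, Lt.a, Lt.b, Lt.a, Lt.bi, Lt.a, Lt.bi, Lt.a, Lt.b, Lt.a, Lt.b, Lt.a, Lt.bi, Lt.a, Lt.b, Lt.a, Lt.bi, Lt.a, Lt.b, Lt.a, Lt.bi, Lt.a, Lt.b, Lt.a, Lt.bi, Lt.a, Lt.b, Lt.a, Lt.bi, Lt.a, Lt.b, Lt.a, Lt.bi, Lt.a, Lt.b, Lt.a, Lt.b, Lt.a, Lt.bi, Lt.a, Lt.bi, Lt.a, Lt.b, Lt.a, Lt.b, Lt.a, Lt.bi, Lt.a, Lt.b, Lt.a, Lt.bi, Lt.a,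 Lt.b] (hole_rel hinv hr (by decide +kernel)) h
  · exact lF_good (T := T) (x := Lt.a) (by decide) [Lt.b, Lt.a, Lt.bi, Lt.a, Lt.b, Lt.a, Lt.bi, Lt.a, Lt.bi, Lt.a, Lt.b, Lt.a, Lt.b, Lt.a, Lt.bi, Lt.a, Lt.bi, Lt.a, Lt.b, Lt.a, Lt.bi, Lt.a, Lt.b, Lt.a, Lt.bi, Lt.a, Lt.b, Lt.a, Lt.bi, Lt.a, Lt.b, Lt.a, Lt.bi, Lt.a, Lt.b, Lt.a, Lt.bi, Lt.a, Lt.b, Lt.a, Lt.bi, Lt.a, Lt.bi, Lt.a, Lt.b, Lt.a, Lt.b, Lt.a, Lt.bi, Lt.a, Lt.bi, Lt.a, Lt.b, Lt.a, Lt.bi, Lt.a, Lt.b, Lt.a, Lt.bi, Lt.a, Lt.b, Lt.a, Lt.bi, Lt.a, Lt.b, Lt.a, Lt.bi] (hole_rel hinv hr (by decide +kernel)) h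
theorem dp_a_4_s (hinv : ∀ x, g (inv x) = (g x)⁻¹) (hr : ∀ r ∈ rels, (r.map g).prod = 1) (hH : ∀ r ∈ subs, (r.map g).prod ∈ H)
    (j u : ℕ) (hu : u < M) (h : dp_a_4 j u = true) : Good (fa g) T MG M (cP g H) Lt.a u := by
  unfold dp_a_4 at h
  rcases brec_true h with h | h
  · exact dp_a_2_s hinv hr hH j u hu h
  · exact dp_a_3_s hinv hr hH j u hu h
theorem dp_a_5_s (hinv : ∀ x, g (inv x) = (g x)⁻¹) (hr : ∀ r ∈ rels, (r.map g).prod = 1) (hH : ∀ r ∈ subs, (r.map g).prod ∈ H)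
    (j u : ℕ) (hu : u < M) (h : dp_a_5 j u = true) : Good (fa g) T MG M (cP g H) Lt.a u := by
  unfold dp_a_5 at h
  rcases brec_true h with h | h
  · exact lF_good (T := T) (x := Lt.a) (by decide) [Lt.bi, Lt.a, Lt.b, Lt.a, Lt.bi, Lt.a, Lt.b, Lt.a, Lt.bi, Lt.a, Lt.b, Lt.a, Lt.bi, Lt.a, Lt.b, Lt.a, Lt.bi, Lt.a, Lt.b, Lt.a, Lt.bi, Lt.a, Lt.b, Lt.a, Lt.b, Lt.a, Lt.bi, Lt.a, Lt.bi, Lt.a, Lt.b, Lt.a, Lt.b, Lt.a, Lt.bi, Lt.a, Lt.b, Lt.a, Lt.bi, Lt.a, Lt.b, Lt.a, Lt.bi, Lt.a, Lt.b, Lt.a, Lt.bi, Lt.a, Lt.b, Lt.a, Lt.bi, Lt.a, Lt.b, Lt.a, Lt.bi, Lt.a, Lt.b, Lt.a, Lt.b, Lt.a, Lt.bi, Lt.a, Lt.bi, Lt.a, Lt.b, Lt.a, Lt.b] (hole_rel hinv hr (by decide +kernel)) h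
  · exact lF_good (T := T) (x := Lt.a) (by decide) [Lt.b, Lt.a, Lt.bi, Lt.a, Lt.bi, Lt.a, Lt.b, Lt.a, Lt.b, Lt.a, Lt.bi, Lt.a, Lt.b, Lt.a, Lt.bi, Lt.a, Lt.b, Lt.a, Lt.bi, Lt.a, Lt.b, Lt.a, Lt.bi, Lt.a, Lt.b, Lt.a, Lt.bi, Lt.a, Lt.b, Lt.a, Lt.bi, Lt.a, Lt.b, Lt.a, Lt.b, Lt.a, Lt.bi, Lt.a, Lt.bi, Lt.a, Lt.b, Lt.a, Lt.b, Lt.a, Lt.bi, Lt.a, Lt.b, Lt.a, Lt.bi, Lt.a, Lt.b, Lt.a, Lt.bi, Lt.a, Lt.b, Lt.a, Lt.bi, Lt.a, Lt.b, Lt.a, Lt.bi, Lt.a, Lt.b, Lt.a, Lt.bi, Lt.a, Lt.b] (hole_rel hinv hr (by decide +kernel)) h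
theorem dp_a_6_s (hinv : ∀ x, g (inv x) = (g x)⁻¹) (hr : ∀ r ∈ rels, (r.map g).prod = 1) (hH : ∀ r ∈ subs, (r.map g).prod ∈ H)
    (j u : ℕ) (hu : u < M) (h : dp_a_6 j u = true) : Good (fa g) T MG M (cP g H) Lt.a u := by
  unfold dp_a_6 at h
  rcases brec_true h with h | h
  · exact lF_good (T := T) (x := Lt.a) (by decide) [Lt.b, Lt.a, Lt.bi, Lt.a, Lt.b, Lt.a, Lt.b, Lt.a, Lt.bi, Lt.a, Lt.bi, Lt.a, Lt.b, Lt.a, Lt.b, Lt.a, Lt.bi, Lt.a, Lt.b, Lt.a, Lt.bi, Lt.a, Lt.b, Lt.a, Lt.bi, Lt.a, Lt.b, Lt.a, Lt.bi, Lt.a, Lt.b, Lt.a, Lt.bi, Lt.a, Lt.b, Lt.a, Lt.bi, Lt.a, Lt.b, Lt.a, Lt.b, Lt.a, Lt.bi, Lt.a, Lt.bi, Lt.a, Lt.b, Lt.a, Lt.b, Lt.a, Lt.bi, Lt.a, Lt.b, Lt.a, Lt.bi, Lt.a, Lt.b, Lt.a, Lt.bi, Lt.a, Lt.b, Lt.a, Lt.bi, Lt.a, Lt.b, Lt.a,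 Lt.bi] (hole_rel hinv hr (by decide +kernel)) h
  · exact dp_a_5_s hinv hr hH j u hu h
theorem dp_a_7_s (hinv : ∀ x, g (inv x) = (g x)⁻¹) (hr : ∀ r ∈ rels, (r.map g).prod = 1) (hH : ∀ r ∈ subs, (r.map g).prod ∈ H)
    (j u : ℕ) (hu : u < M) (h : dp_a_7 j u = true) : Good (fa g) T MG M (cP g H) Lt.a u := by
  unfold dp_a_7 at h
  rcases brec_true h with h | h
  · exact lF_good (T := T) (x := Lt.a) (by decide) [Lt.bi, Lt.a, Lt.b, Lt.a, Lt.bi, Lt.a, Lt.b, Lt.a, Lt.bi, Lt.a, Lt.b, Lt.a, Lt.bi, Lt.a, Lt.b, Lt.a, Lt.bi, Lt.a, Lt.bi, Lt.a, Lt.b, Lt.a, Lt.b, Lt.a, Lt.bi, Lt.a, Lt.bi, Lt.a, Lt.b, Lt.a, Lt.bi, Lt.a, Lt.b, Lt.a, Lt.bi, Lt.a, Lt.b, Lt.a, Lt.bi, Lt.a, Lt.b, Lt.a, Lt.bi, Lt.a, Lt.b, Lt.a, Lt.bi, Lt.a, Lt.b, Lt.a, Lt.bi, Lt.a,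 Lt.bi, Lt.a, Lt.b, Lt.a, Lt.b, Lt.a, Lt.bi, Lt.a, Lt.bi, Lt.a, Lt.b, Lt.a, Lt.bi, Lt.a, Lt.b] (hole_rel hinv hr (by decide +kernel)) h
  · exact lS_good (T := T) (x := Lt.a) (by decide) hu [Lt.bi, Lt.a, Lt.bi, Lt.a, Lt.b, Lt.a, Lt.bi, Lt.a, Lt.b, Lt.a, Lt.bi, Lt.a, Lt.b, Lt.a, Lt.bi, Lt.a, Lt.b, Lt.a, Lt.bi, Lt.a, Lt.b, Lt.a, Lt.bi, Lt.a, Lt.b, Lt.a, Lt.bi, Lt.a, Lt.bi, Lt.a, Lt.b, Lt.a, Lt.b, Lt.a, Lt.bi, Lt.a, Lt.bi, Lt.a, Lt.b, Lt.a, Lt.bi, Lt.a, Lt.b, Lt.a, Lt.bi, Lt.a, Lt.b, Lt.a, Lt.bi, Lt.a, Lt.b, Lt.a, Lt.bi, Lt.a, Lt.b, Lt.a, Lt.bi, Lt.a, Lt.b, Lt.a, Lt.bi, Lt.a, Lt.bi, Lt.a, Lt.b, Lt.a, Lt.b] (hole_rel hinv hr (by decide +kernel)) h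
theorem dp_a_8_s (hinv : ∀ x, g (inv x) = (g x)⁻¹) (hr : ∀ r ∈ rels, (r.map g).prod = 1) (hH : ∀ r ∈ subs, (r.map g).prod ∈ H)
    (j u : ℕ) (hu : u < M) (h : dp_a_8 j u = true) : Good (fa g) T MG M (cP g H) Lt.a u := by
  unfold dp_a_8 at h
  rcases brec_true h with h | h
  · exact lF_good (T := T) (x := Lt.a) (by decide) [Lt.bi, Lt.a, Lt.b, Lt.a, Lt.bi, Lt.a, Lt.b, Lt.a, Lt.bi, Lt.a, Lt.b, Lt.a, Lt.bi, Lt.a, Lt.b, Lt.a, Lt.bi, Lt.a, Lt.b, Lt.a, Lt.b, Lt.a, Lt.bi, Lt.a, Lt.bi, Lt.a, Lt.b, Lt.a, Lt.b, Lt.a, Lt.bi, Lt.a, Lt.b, Lt.a, Lt.bi, Lt.a, Lt.b, Lt.a, Lt.bi, Lt.a, Lt.b, Lt.a, Lt.bi, Lt.a, Lt.b, Lt.a, Lt.bi, Lt.a, Lt.b, Lt.a, Lt.bi, Lt.a, Lt.b, Lt.a, Lt.b, Lt.a, Lt.bi, Lt.a, Lt.bi, Lt.a, Lt.b, Lt.a, Lt.b, Lt.a, Lt.bi, Lt.a,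 Lt.b] (hole_rel hinv hr (by decide +kernel)) h
  · exact dp_a_7_s hinv hr hH j u hu h
theorem dp_a_9_s (hinv : ∀ x, g (inv x) = (g x)⁻¹) (hr : ∀ r ∈ rels, (r.map g).prod = 1) (hH : ∀ r ∈ subs, (r.map g).prod ∈ H)
    (j u : ℕ) (hu : u < M) (h : dp_a_9 j u = true) : Good (fa g) T MG M (cP g H) Lt.a u := by
  unfold dp_a_9 at h
  rcases brec_true h with h | h
  · exact dp_a_6_s hinv hr hH j u hu h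
  · exact dp_a_8_s hinv hr hH j u hu h
theorem dp_a_10_s (hinv : ∀ x, g (inv x) = (g x)⁻¹) (hr : ∀ r ∈ rels, (r.map g).prod = 1) (hH : ∀ r ∈ subs, (r.map g).prod ∈ H)
    (j u : ℕ) (hu : u < M) (h : dp_a_10 j u = true) : Good (fa g) T MG M (cP g H) Lt.a u := by
  unfold dp_a_10 at h
  rcases brec_true h with h | h
  · exact dp_a_4_s hinv hr hH j u hu h
  · exact dp_a_9_s hinv hr hH j u hu h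
theorem dp_a_11_s (hinv : ∀ x, g (inv x) = (g x)⁻¹) (hr : ∀ r ∈ rels, (r.map g).prod = 1) (hH : ∀ r ∈ subs, (r.map g).prod ∈ H)
    (j u : ℕ) (hu : u < M) (h : dp_a_11 j u = true) : Good (fa g) T MG M (cP g H) Lt.a u := by
  unfold dp_a_11 at h
  rcases brec_true h with h | h
  · exact dp_a_1_s hinv hr hH j u hu h
  · exact dp_a_10_s hinv hr hH j u hu h
theorem dp_a_12_s (hinv : ∀ x, g (inv x) = (g x)⁻¹) (hr : ∀ r ∈ rels, (r.map g).prod = 1) (hH : ∀ r ∈ subs, (r.map g).prod ∈ H)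
    (j u : ℕ) (hu : u < M) (h : dp_a_12 j u = true) : Good (fa g) T MG M (cP g H) Lt.a u := by
  unfold dp_a_12 at h
  rcases brec_true h with h | h
  · exact lF_good (T := T) (x := Lt.a) (by decide) [Lt.b, Lt.a, Lt.bi, Lt.a, Lt.b, Lt.a, Lt.bi, Lt.a, Lt.b, Lt.a, Lt.bi, Lt.a, Lt.b, Lt.a, Lt.bi, Lt.a, Lt.b, Lt.a, Lt.bi, Lt.a, Lt.b, Lt.a, Lt.bi, Lt.a, Lt.b, Lt.a, Lt.b, Lt.a, Lt.bi, Lt.a, Lt.bi, Lt.a, Lt.b, Lt.a, Lt.b, Lt.a, Lt.bi, Lt.a, Lt.b, Lt.a, Lt.bi, Lt.a, Lt.b, Lt.a, Lt.bi, Lt.a, Lt.b, Lt.a, Lt.bi, Lt.a, Lt.b, Lt.a, Lt.bi, Lt.a, Lt.b, Lt.a, Lt.bi, Lt.a, Lt.b, Lt.a, Lt.b, Lt.a, Lt.bi, Lt.a, Lt.bi, Lt.a, Lt.b] (hole_rel hinv hr (by decide +kernel)) h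
  · exact lF_good (T := T) (x := Lt.a) (by decide) [Lt.b, Lt.a, Lt.bi, Lt.a, Lt.b, Lt.a, Lt.bi, Lt.a, Lt.b, Lt.a, Lt.bi, Lt.a, Lt.bi, Lt.a, Lt.b, Lt.a, Lt.b, Lt.a, Lt.bi, Lt.a, Lt.bi, Lt.a, Lt.b, Lt.a, Lt.bi, Lt.a, Lt.b, Lt.a, Lt.bi, Lt.a, Lt.b, Lt.a, Lt.bi, Lt.a, Lt.b, Lt.a, Lt.bi, Lt.a, Lt.b, Lt.a, Lt.bi, Lt.a, Lt.b, Lt.a, Lt.bi, Lt.a, Lt.bi, Lt.a, Lt.b, Lt.a, Lt.b, Lt.a, Lt.bi, Lt.a, Lt.bi, Lt.a, Lt.b, Lt.a, Lt.bi, Lt.a, Lt.b, Lt.a, Lt.bi, Lt.a, Lt.b, Lt.a, Lt.bi] (hole_rel hinv hr (by decide +kernel)) h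
theorem dp_a_13_s (hinv : ∀ x, g (inv x) = (g x)⁻¹) (hr : ∀ r ∈ rels, (r.map g).prod = 1) (hH : ∀ r ∈ subs, (r.map g).prod ∈ H)
    (j u : ℕ) (hu : u < M) (h : dp_a_13 j u = true) : Good (fa g) T MG M (cP g H) Lt.a u := by
  unfold dp_a_13 at h
  rcases brec_true h with h | h
  · exact lF_good (T := T) (x := Lt.a) (by decide) [Lt.b, Lt.a, Lt.bi, Lt.a, Lt.b, Lt.a, Lt.bi, Lt.a, Lt.b, Lt.a, Lt.bi, Lt.a, Lt.b, Lt.a, Lt.bi, Lt.a, Lt.b, Lt.a, Lt.b, Lt.a, Lt.bi, Lt.a, Lt.bi, Lt.a, Lt.b, Lt.a, Lt.b, Lt.a, Lt.bi, Lt.a, Lt.b, Lt.a, Lt.bi, Lt.a, Lt.b, Lt.a, Lt.bi, Lt.a, Lt.b, Lt.a, Lt.bi, Lt.a, Lt.b, Lt.a, Lt.bi, Lt.a, Lt.b, Lt.a, Lt.bi, Lt.a, Lt.b, Lt.a, Lt.b, Lt.a, Lt.bi, Lt.a, Lt.bi, Lt.a, Lt.b, Lt.a, Lt.b, Lt.a, Lt.bi, Lt.a, Lt.b, Lt.a,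 Lt.bi] (hole_rel hinv hr (by decide +kernel)) h
  · exact lF_good (T := T) (x := Lt.a) (by decide) [Lt.b, Lt.a, Lt.bi, Lt.a, Lt.b, Lt.a, Lt.bi, Lt.a, Lt.b, Lt.a, Lt.b, Lt.a, Lt.bi, Lt.a, Lt.bi, Lt.a, Lt.b, Lt.a, Lt.b, Lt.a, Lt.bi, Lt.a, Lt.b, Lt.a, Lt.bi, Lt.a, Lt.b, Lt.a, Lt.bi, Lt.a, Lt.b, Lt.a, Lt.bi, Lt.a, Lt.b, Lt.a, Lt.bi, Lt.a, Lt.b, Lt.a, Lt.bi, Lt.a, Lt.b, Lt.a, Lt.b, Lt.a, Lt.bi, Lt.a, Lt.bi, Lt.a, Lt.b, Lt.a, Lt.b, Lt.a, Lt.bi, Lt.a, Lt.b, Lt.a, Lt.bi, Lt.a, Lt.b, Lt.a, Lt.bi, Lt.a, Lt.b, Lt.a, Lt.bi] (hole_rel hinv hr (by decide +kernel)) h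
theorem dp_a_14_s (hinv : ∀ x, g (inv x) = (g x)⁻¹) (hr : ∀ r ∈ rels, (r.map g).prod = 1) (hH : ∀ r ∈ subs, (r.map g).prod ∈ H)
    (j u : ℕ) (hu : u < M) (h : dp_a_14 j u = true) : Good (fa g) T MG M (cP g H) Lt.a u := by
  unfold dp_a_14 at h
  rcases brec_true h with h | h
  · exact dp_a_12_s hinv hr hH j u hu h
  · exact dp_a_13_s hinv hr hH j u hu h
theorem dp_a_15_s (hinv : ∀ x, g (inv x) = (g x)⁻¹) (hr : ∀ r ∈ rels, (r.map g).prod = 1) (hH : ∀ r ∈ subs, (r.map g).prod ∈ H)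
    (j u : ℕ) (hu : u < M) (h : dp_a_15 j u = true) : Good (fa g) T MG M (cP g H) Lt.a u := by
  unfold dp_a_15 at h
  rcases brec_true h with h | h
  · exact lS_good (T := T) (x := Lt.a) (by decide) hu [Lt.b, Lt.a, Lt.bi, Lt.a, Lt.bi, Lt.a, Lt.b, Lt.a, Lt.b, Lt.a, Lt.bi, Lt.a, Lt.b, Lt.a, Lt.bi, Lt.a, Lt.b, Lt.a, Lt.bi, Lt.a, Lt.b, Lt.a, Lt.bi, Lt.a, Lt.b, Lt.a, Lt.bi, Lt.a, Lt.b, Lt.a, Lt.bi, Lt.a, Lt.b, Lt.a, Lt.b, Lt.a, Lt.bi, Lt.a, Lt.bi, Lt.a, Lt.b, Lt.a, Lt.b, Lt.a, Lt.bi, Lt.a, Lt.b, Lt.a, Lt.bi, Lt.a, Lt.b, Lt.a, Lt.bi, Lt.a, Lt.b, Lt.a, Lt.bi, Lt.a, Lt.b, Lt.a, Lt.bi, Lt.a, Lt.b, Lt.a, Lt.bi, Lt.a, Lt.b] (hole_rel hinv hr (by decide +kernel)) h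
  · exact lS_good (T := T) (x := Lt.a) (by decide) hu [Lt.bi, Lt.a, Lt.b, Lt.a, Lt.bi, Lt.a, Lt.b, Lt.a, Lt.bi, Lt.a, Lt.b, Lt.a, Lt.bi, Lt.a, Lt.b, Lt.a, Lt.bi, Lt.a, Lt.b, Lt.a, Lt.bi, Lt.a, Lt.bi, Lt.a, Lt.b, Lt.a, Lt.b, Lt.a, Lt.bi, Lt.a, Lt.bi, Lt.a, Lt.b, Lt.a, Lt.bi, Lt.a, Lt.b, Lt.a, Lt.bi, Lt.a, Lt.b, Lt.a, Lt.bi, Lt.a, Lt.b, Lt.a, Lt.bi, Lt.a, Lt.b, Lt.a, Lt.bi, Lt.a, Lt.b, Lt.a, Lt.bi, Lt.a, Lt.bi, Lt.a, Lt.b, Lt.a, Lt.b, Lt.a, Lt.bi, Lt.a, Lt.bi, Lt.a, Lt.b] (hole_rel hinv hr (by decide +kernel)) h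
theorem dp_a_16_s (hinv : ∀ x, g (inv x) = (g x)⁻¹) (hr : ∀ r ∈ rels, (r.map g).prod = 1) (hH : ∀ r ∈ subs, (r.map g).prod ∈ H)
    (j u : ℕ) (hu : u < M) (h : dp_a_16 j u = true) : Good (fa g) T MG M (cP g H) Lt.a u := by
  unfold dp_a_16 at h
  rcases brec_true h with h | h
  · exact lF_good (T := T) (x := Lt.a) (by decide) [Lt.bi, Lt.a, Lt.bi, Lt.a, Lt.b, Lt.a, Lt.b, Lt.a, Lt.bi, Lt.a, Lt.b, Lt.a, Lt.bi, Lt.a, Lt.b, Lt.a, Lt.bi, Lt.a, Lt.b, Lt.a, Lt.bi, Lt.a, Lt.b, Lt.a, Lt.bi, Lt.a, Lt.b, Lt.a, Lt.bi, Lt.a, Lt.b, Lt.a, Lt.b, Lt.a, Lt.bi, Lt.a, Lt.bi, Lt.a, Lt.b, Lt.a, Lt.b, Lt.a, Lt.bi, Lt.a, Lt.b, Lt.a, Lt.bi, Lt.a, Lt.b, Lt.a, Lt.bi, Lt.a, Lt.b, Lt.a, Lt.bi, Lt.a, Lt.b, Lt.a, Lt.bi, Lt.a, Lt.b, Lt.a, Lt.bi, Lt.a, Lt.b, Lt.a,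 Lt.b] (hole_rel hinv hr (by decide +kernel)) h
  · exact lF_good (T := T) (x := Lt.a) (by decide) [Lt.bi, Lt.a, Lt.bi, Lt.a, Lt.b, Lt.a, Lt.bi, Lt.a, Lt.b, Lt.a, Lt.bi, Lt.a, Lt.b, Lt.a, Lt.bi, Lt.a, Lt.b, Lt.a, Lt.bi, Lt.a, Lt.b, Lt.a, Lt.bi, Lt.a, Lt.b, Lt.a, Lt.bi, Lt.a, Lt.bi, Lt.a, Lt.b, Lt.a, Lt.b, Lt.a, Lt.bi, Lt.a, Lt.bi, Lt.a, Lt.b, Lt.a, Lt.bi, Lt.a, Lt.b, Lt.a, Lt.bi, Lt.a, Lt.b, Lt.a, Lt.bi, Lt.a, Lt.b, Lt.a, Lt.bi, Lt.a, Lt.b, Lt.a, Lt.bi, Lt.a, Lt.b, Lt.a, Lt.bi, Lt.a, Lt.bi, Lt.a, Lt.b, Lt.a, Lt.b] (hole_rel hinv hr (by decide +kernel)) h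
theorem dp_a_17_s (hinv : ∀ x, g (inv x) = (g x)⁻¹) (hr : ∀ r ∈ rels, (r.map g).prod = 1) (hH : ∀ r ∈ subs, (r.map g).prod ∈ H)
    (j u : ℕ) (hu : u < M) (h : dp_a_17 j u = true) : Good (fa g) T MG M (cP g H) Lt.a u := by
  unfold dp_a_17 at h
  rcases brec_true h with h | h
  · exact dp_a_15_s hinv hr hH j u hu h
  · exact dp_a_16_s hinv hr hH j u hu h
theorem dp_a_18_s (hinv : ∀ x, g (inv x) = (g x)⁻¹) (hr : ∀ r ∈ rels, (r.map g).prod = 1) (hH : ∀ r ∈ subs, (r.map g).prod ∈ H)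
    (j u : ℕ) (hu : u < M) (h : dp_a_18 j u = true) : Good (fa g) T MG M (cP g H) Lt.a u := by
  unfold dp_a_18 at h
  rcases brec_true h with h | h
  · exact dp_a_14_s hinv hr hH j u hu h
  · exact dp_a_17_s hinv hr hH j u hu h
theorem dp_a_19_s (hinv : ∀ x, g (inv x) = (g x)⁻¹) (hr : ∀ r ∈ rels, (r.map g).prod = 1) (hH : ∀ r ∈ subs, (r.map g).prod ∈ H)
    (j u : ℕ) (hu : u < M) (h : dp_a_19 j u = true) : Good (fa g) T MG M (cP g H) Lt.a u := by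
  unfold dp_a_19 at h
  rcases brec_true h with h | h
  · exact lF_good (T := T) (x := Lt.a) (by decide) [Lt.bi, Lt.a, Lt.b, Lt.a, Lt.bi, Lt.a, Lt.b, Lt.a, Lt.bi, Lt.a, Lt.b, Lt.a, Lt.b, Lt.a, Lt.bi, Lt.a, Lt.bi, Lt.a, Lt.b, Lt.a, Lt.b, Lt.a, Lt.bi, Lt.a, Lt.b, Lt.a, Lt.bi, Lt.a, Lt.b, Lt.a, Lt.bi, Lt.a, Lt.b, Lt.a, Lt.bi, Lt.a, Lt.b, Lt.a, Lt.bi, Lt.a, Lt.b, Lt.a, Lt.bi, Lt.a, Lt.b, Lt.a, Lt.b, Lt.a, Lt.bi, Lt.a, Lt.bi, Lt.a, Lt.b, Lt.a, Lt.b, Lt.a, Lt.bi, Lt.a, Lt.b, Lt.a, Lt.bi, Lt.a, Lt.b, Lt.a, Lt.bi, Lt.a, Lt.b] (hole_rel hinv hr (by decide +kernel)) h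
  · exact lF_good (T := T) (x := Lt.a) (by decide) [Lt.bi, Lt.a, Lt.b, Lt.a, Lt.bi, Lt.a, Lt.b, Lt.a, Lt.b, Lt.a, Lt.bi, Lt.a, Lt.bi, Lt.a, Lt.b, Lt.a, Lt.b, Lt.a, Lt.bi, Lt.a, Lt.b, Lt.a, Lt.bi, Lt.a, Lt.b, Lt.a, Lt.bi, Lt.a, Lt.b, Lt.a, Lt.bi, Lt.a, Lt.b, Lt.a, Lt.bi, Lt.a, Lt.b, Lt.a, Lt.bi, Lt.a, Lt.b, Lt.a, Lt.b, Lt.a, Lt.bi, Lt.a, Lt.bi, Lt.a, Lt.b, Lt.a, Lt.b, Lt.a, Lt.bi, Lt.a, Lt.b, Lt.a, Lt.bi, Lt.a, Lt.b, Lt.a, Lt.bi, Lt.a, Lt.b, Lt.a, Lt.bi, Lt.a, Lt.b] (hole_rel hinv hr (by decide +kernel)) h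
theorem dp_a_20_s (hinv : ∀ x, g (inv x) = (g x)⁻¹) (hr : ∀ r ∈ rels, (r.map g).prod = 1) (hH : ∀ r ∈ subs, (r.map g).prod ∈ H)
    (j u : ℕ) (hu : u < M) (h : dp_a_20 j u = true) : Good (fa g) T MG M (cP g H) Lt.a u := by
  unfold dp_a_20 at h
  rcases brec_true h with h | h
  · exact lF_good (T := T) (x := Lt.a) (by decide) [Lt.bi, Lt.a, Lt.b, Lt.a, Lt.b, Lt.a, Lt.bi, Lt.a, Lt.bi, Lt.a, Lt.b, Lt.a, Lt.b, Lt.a, Lt.bi, Lt.a, Lt.b, Lt.a, Lt.bi, Lt.a, Lt.b, Lt.a, Lt.bi, Lt.a, Lt.b, Lt.a, Lt.bi, Lt.a, Lt.b, Lt.a, Lt.bi, Lt.a, Lt.b, Lt.a, Lt.bi, Lt.a, Lt.b, Lt.a, Lt.b, Lt.a, Lt.bi, Lt.a, Lt.bi, Lt.a, Lt.b, Lt.a, Lt.b, Lt.a, Lt.bi, Lt.a, Lt.b, Lt.a, Lt.bi, Lt.a, Lt.b, Lt.a, Lt.bi, Lt.a, Lt.b, Lt.a, Lt.bi, Lt.a, Lt.b, Lt.a, Lt.bi, Lt.a,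 Lt.b] (hole_rel hinv hr (by decide +kernel)) h
  · exact lF_good (T := T) (x := Lt.a) (by decide) [Lt.b, Lt.a, Lt.bi, Lt.a, Lt.b, Lt.a, Lt.bi, Lt.a, Lt.b, Lt.a, Lt.bi, Lt.a, Lt.b, Lt.a, Lt.bi, Lt.a, Lt.bi, Lt.a, Lt.b, Lt.a, Lt.b, Lt.a, Lt.bi, Lt.a, Lt.bi, Lt.a, Lt.b, Lt.a, Lt.bi, Lt.a, Lt.b, Lt.a, Lt.bi, Lt.a, Lt.b, Lt.a, Lt.bi, Lt.a, Lt.b, Lt.a, Lt.bi, Lt.a, Lt.b, Lt.a, Lt.bi, Lt.a, Lt.b, Lt.a, Lt.bi, Lt.a, Lt.bi, Lt.a, Lt.b, Lt.a, Lt.b, Lt.a, Lt.bi, Lt.a, Lt.bi, Lt.a, Lt.b, Lt.a, Lt.bi, Lt.a, Lt.b, Lt.a, Lt.bi] (hole_rel hinv hr (by decide +kernel)) h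
theorem dp_a_21_s (hinv : ∀ x, g (inv x) = (g x)⁻¹) (hr : ∀ r ∈ rels, (r.map g).prod = 1) (hH : ∀ r ∈ subs, (r.map g).prod ∈ H)
    (j u : ℕ) (hu : u < M) (h : dp_a_21 j u = true) : Good (fa g) T MG M (cP g H) Lt.a u := by
  unfold dp_a_21 at h
  rcases brec_true h with h | h
  · exact lF_good (T := T) (x := Lt.a) (by decide) [Lt.b, Lt.a, Lt.bi, Lt.a, Lt.b, Lt.a, Lt.bi, Lt.a, Lt.b, Lt.a, Lt.bi, Lt.a, Lt.b, Lt.a, Lt.bi, Lt.a, Lt.b, Lt.a, Lt.bi, Lt.a, Lt.b, Lt.a, Lt.b, Lt.a, Lt.bi, Lt.a, Lt.bi, Lt.a, Lt.b, Lt.a, Lt.b, Lt.a, Lt.bi, Lt.a, Lt.b, Lt.a, Lt.bi, Lt.a, Lt.b, Lt.a, Lt.bi, Lt.a, Lt.b, Lt.a, Lt.bi, Lt.a, Lt.b, Lt.a, Lt.bi, Lt.a, Lt.b, Lt.a, Lt.bi, Lt.a, Lt.b, Lt.a, Lt.b, Lt.a, Lt.bi, Lt.a, Lt.bi, Lt.a, Lt.b, Lt.a, Lt.b, Lt.a,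 Lt.bi] (hole_rel hinv hr (by decide +kernel)) h
  · exact dp_a_20_s hinv hr hH j u hu h
theorem dp_a_22_s (hinv : ∀ x, g (inv x) = (g x)⁻¹) (hr : ∀ r ∈ rels, (r.map g).prod = 1) (hH : ∀ r ∈ subs, (r.map g).prod ∈ H)
    (j u : ℕ) (hu : u < M) (h : dp_a_22 j u = true) : Good (fa g) T MG M (cP g H) Lt.a u := by
  unfold dp_a_22 at h
  rcases brec_true h with h | h
  · exact dp_a_19_s hinv hr hH j u hu h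
  · exact dp_a_21_s hinv hr hH j u hu h
theorem dp_a_23_s (hinv : ∀ x, g (inv x) = (g x)⁻¹) (hr : ∀ r ∈ rels, (r.map g).prod = 1) (hH : ∀ r ∈ subs, (r.map g).prod ∈ H)
    (j u : ℕ) (hu : u < M) (h : dp_a_23 j u = true) : Good (fa g) T MG M (cP g H) Lt.a u := by
  unfold dp_a_23 at h
  rcases brec_true h with h | h
  · exact lS_good (T := T) (x := Lt.a) (by decide) hu [Lt.b, Lt.a, Lt.bi, Lt.a, Lt.b, Lt.a, Lt.bi, Lt.a, Lt.b, Lt.a, Lt.bi, Lt.a, Lt.b, Lt.a, Lt.bi, Lt.a, Lt.b, Lt.a, Lt.bi, Lt.a, Lt.bi, Lt.a, Lt.b, Lt.a, Lt.b, Lt.a, Lt.bi, Lt.a, Lt.bi, Lt.a, Lt.b, Lt.a, Lt.bi, Lt.a, Lt.b, Lt.a, Lt.bi, Lt.a, Lt.b, Lt.a, Lt.bi, Lt.a, Lt.b, Lt.a, Lt.bi, Lt.a, Lt.b, Lt.a, Lt.bi, Lt.a, Lt.b, Lt.a, Lt.bi, Lt.a, Lt.bi, Lt.a, Lt.b, Lt.a, Lt.b,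 Lt.a, Lt.bi, Lt.a, Lt.bi, Lt.a, Lt.b, Lt.a, Lt.bi] (hole_rel hinv hr (by decide +kernel)) h
  · exact lF_good (T := T) (x := Lt.a) (by decide) [Lt.b, Lt.a, Lt.bi, Lt.a, Lt.bi, Lt.a, Lt.b, Lt.a, Lt.b, Lt.a, Lt.bi, Lt.a, Lt.bi, Lt.a, Lt.b, Lt.a, Lt.bi, Lt.a, Lt.b, Lt.a, Lt.bi, Lt.a, Lt.b, Lt.a, Lt.bi, Lt.a, Lt.b, Lt.a, Lt.bi, Lt.a, Lt.b, Lt.a, Lt.bi, Lt.a, Lt.b, Lt.a, Lt.bi, Lt.a, Lt.bi, Lt.a, Lt.b, Lt.a, Lt.b, Lt.a, Lt.bi, Lt.a, Lt.bi, Lt.a, Lt.b, Lt.a, Lt.bi, Lt.a, Lt.b, Lt.a, Lt.bi, Lt.a, Lt.b, Lt.a, Lt.bi, Lt.a, Lt.b, Lt.a, Lt.bi, Lt.a, Lt.b, Lt.a, Lt.bi] (hole_rel hinv hr (by decide +kernel)) h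
theorem dp_a_24_s (hinv : ∀ x, g (inv x) = (g x)⁻¹) (hr : ∀ r ∈ rels, (r.map g).prod = 1) (hH : ∀ r ∈ subs, (r.map g).prod ∈ H)
    (j u : ℕ) (hu : u < M) (h : dp_a_24 j u = true) : Good (fa g) T MG M (cP g H) Lt.a u := by
  unfold dp_a_24 at h
  rcases brec_true h with h | h
  · exact lS_good (T := T) (x := Lt.a) (by decide) hu [Lt.bi, Lt.a, Lt.b, Lt.a, Lt.b, Lt.a, Lt.bi, Lt.a, Lt.bi, Lt.a, Lt.b, Lt.a, Lt.bi, Lt.a, Lt.b, Lt.a, Lt.bi, Lt.a, Lt.b, Lt.a, Lt.bi, Lt.a, Lt.b, Lt.a, Lt.bi, Lt.a, Lt.b, Lt.a, Lt.bi, Lt.a, Lt.b, Lt.a, Lt.bi, Lt.a, Lt.bi, Lt.a, Lt.b, Lt.a, Lt.b, Lt.a, Lt.bi, Lt.a, Lt.bi, Lt.a, Lt.b, Lt.a, Lt.bi, Lt.a, Lt.b, Lt.a, Lt.bi, Lt.a, Lt.b, Lt.a, Lt.bi, Lt.a, Lt.b, Lt.a, Lt.bi, Lt.a, Lt.b, Lt.a, Lt.bi, Lt.a, Lt.b,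 Lt.a, Lt.bi] (hole_rel hinv hr (by decide +kernel)) h
  · exact dp_a_23_s hinv hr hH j u hu h
theorem dp_a_25_s (hinv : ∀ x, g (inv x) = (g x)⁻¹) (hr : ∀ r ∈ rels, (r.map g).prod = 1) (hH : ∀ r ∈ subs, (r.map g).prod ∈ H)
    (j u : ℕ) (hu : u < M) (h : dp_a_25 j u = true) : Good (fa g) T MG M (cP g H) Lt.a u := by
  unfold dp_a_25 at h
  rcases brec_true h with h | h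
  · exact lS_good (T := T) (x := Lt.a) (by decide) hu [Lt.b, Lt.a, Lt.bi, Lt.a, Lt.b, Lt.a, Lt.bi, Lt.a, Lt.bi, Lt.a, Lt.b, Lt.a, Lt.b, Lt.a, Lt.bi, Lt.a, Lt.bi, Lt.a, Lt.b, Lt.a, Lt.bi, Lt.a, Lt.b, Lt.a, Lt.bi, Lt.a, Lt.b, Lt.a, Lt.bi, Lt.a, Lt.b, Lt.a, Lt.bi, Lt.a, Lt.b, Lt.a, Lt.bi, Lt.a, Lt.b, Lt.a, Lt.bi, Lt.a, Lt.bi, Lt.a, Lt.b, Lt.a, Lt.b, Lt.a, Lt.bi, Lt.a, Lt.bi, Lt.a, Lt.b, Lt.a, Lt.bi, Lt.a, Lt.b, Lt.a, Lt.bi, Lt.a, Lt.b, Lt.a, Lt.bi, Lt.a, Lt.b, Lt.a, Lt.bi] (hole_rel hinv hr (by decide +kernel)) h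
  · exact lS_good (T := T) (x := Lt.a) (by decide) hu [Lt.b, Lt.a, Lt.b, Lt.a, Lt.bi, Lt.a, Lt.bi, Lt.a, Lt.b, Lt.a, Lt.bi, Lt.a, Lt.b, Lt.a, Lt.bi, Lt.a, Lt.b, Lt.a, Lt.bi, Lt.a, Lt.b, Lt.a, Lt.bi, Lt.a, Lt.b, Lt.a, Lt.bi, Lt.a, Lt.b, Lt.a, Lt.bi, Lt.a, Lt.bi, Lt.a, Lt.b, Lt.a, Lt.b, Lt.a, Lt.bi, Lt.a, Lt.bi, Lt.a, Lt.b, Lt.a, Lt.bi, Lt.a, Lt.b, Lt.a, Lt.bi, Lt.a, Lt.b, Lt.a, Lt.bi, Lt.a, Lt.b, Lt.a, Lt.bi, Lt.a, Lt.b, Lt.a, Lt.bi, Lt.a, Lt.b, Lt.a, Lt.bi, Lt.a, Lt.bi] (hole_rel hinv hr (by decide +kernel)) h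
theorem dp_a_26_s (hinv : ∀ x, g (inv x) = (g x)⁻¹) (hr : ∀ r ∈ rels, (r.map g).prod = 1) (hH : ∀ r ∈ subs, (r.map g).prod ∈ H)
    (j u : ℕ) (hu : u < M) (h : dp_a_26 j u = true) : Good (fa g) T MG M (cP g H) Lt.a u := by
  unfold dp_a_26 at h
  rcases brec_true h with h | h
  · exact lS_good (T := T) (x := Lt.a) (by decide) hu [Lt.b, Lt.a, Lt.bi, Lt.a, Lt.b, Lt.a, Lt.bi, Lt.a, Lt.b, Lt.a, Lt.bi, Lt.a, Lt.b, Lt.a, Lt.bi, Lt.a, Lt.b, Lt.a, Lt.bi, Lt.a, Lt.b, Lt.a, Lt.bi, Lt.a, Lt.b, Lt.a, Lt.b, Lt.a, Lt.bi, Lt.a, Lt.bi, Lt.a, Lt.b, Lt.a, Lt.b, Lt.a, Lt.bi, Lt.a, Lt.b, Lt.a, Lt.bi, Lt.a, Lt.b, Lt.a, Lt.bi, Lt.a, Lt.b, Lt.a, Lt.bi, Lt.a, Lt.b, Lt.a, Lt.bi, Lt.a, Lt.b, Lt.a, Lt.bi, Lt.a, Lt.b, Lt.a, Lt.b, Lt.a, Lt.bi, Lt.a, Lt.bi,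 Lt.a, Lt.b] (hole_rel hinv hr (by decide +kernel)) h
  · exact dp_a_25_s hinv hr hH j u hu h
theorem dp_a_27_s (hinv : ∀ x, g (inv x) = (g x)⁻¹) (hr : ∀ r ∈ rels, (r.map g).prod = 1) (hH : ∀ r ∈ subs, (r.map g).prod ∈ H)
    (j u : ℕ) (hu : u < M) (h : dp_a_27 j u = true) : Good (fa g) T MG M (cP g H) Lt.a u := by
  unfold dp_a_27 at h
  rcases brec_true h with h | h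
  · exact dp_a_24_s hinv hr hH j u hu h
  · exact dp_a_26_s hinv hr hH j u hu h
theorem dp_a_28_s (hinv : ∀ x, g (inv x) = (g x)⁻¹) (hr : ∀ r ∈ rels, (r.map g).prod = 1) (hH : ∀ r ∈ subs, (r.map g).prod ∈ H)
    (j u : ℕ) (hu : u < M) (h : dp_a_28 j u = true) : Good (fa g) T MG M (cP g H) Lt.a u := by
  unfold dp_a_28 at h
  rcases brec_true h with h | h
  · exact dp_a_22_s hinv hr hH j u hu h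
  · exact dp_a_27_s hinv hr hH j u hu h
theorem dp_a_29_s (hinv : ∀ x, g (inv x) = (g x)⁻¹) (hr : ∀ r ∈ rels, (r.map g).prod = 1) (hH : ∀ r ∈ subs, (r.map g).prod ∈ H)
    (j u : ℕ) (hu : u < M) (h : dp_a_29 j u = true) : Good (fa g) T MG M (cP g H) Lt.a u := by
  unfold dp_a_29 at h
  rcases brec_true h with h | h
  · exact dp_a_18_s hinv hr hH j u hu h
  · exact dp_a_28_s hinv hr hH j u hu h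
theorem dp_a_30_s (hinv : ∀ x, g (inv x) = (g x)⁻¹) (hr : ∀ r ∈ rels, (r.map g).prod = 1) (hH : ∀ r ∈ subs, (r.map g).prod ∈ H)
    (j u : ℕ) (hu : u < M) (h : dp_a_30 j u = true) : Good (fa g) T MG M (cP g H) Lt.a u := by
  unfold dp_a_30 at h
  rcases brec_true h with h | h
  · exact lS_good (T := T) (x := Lt.a) (by decide) hu [Lt.bi, Lt.a, Lt.b, Lt.a, Lt.b, Lt.a, Lt.bi, Lt.a, Lt.bi, Lt.a, Lt.b, Lt.a, Lt.b, Lt.a, Lt.bi, Lt.a, Lt.b, Lt.a, Lt.bi, Lt.a, Lt.b, Lt.a, Lt.bi, Lt.a, Lt.b, Lt.a, Lt.bi, Lt.a, Lt.b, Lt.a, Lt.bi, Lt.a, Lt.b, Lt.a, Lt.bi, Lt.a, Lt.b, Lt.a, Lt.b, Lt.a, Lt.bi, Lt.a, Lt.bi, Lt.a, Lt.b, Lt.a, Lt.b, Lt.a, Lt.bi, Lt.a, Lt.b, Lt.a, Lt.bi, Lt.a, Lt.b, Lt.a, Lt.bi, Lt.a, Lt.b, Lt.a, Lt.bi, Lt.a, Lt.b, Lt.a, Lt.bi,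 Lt.a, Lt.b] (hole_rel hinv hr (by decide +kernel)) h
  · exact lF_good (T := T) (x := Lt.a) (by decide) [Lt.bi, Lt.a, Lt.b, Lt.a, Lt.bi, Lt.a, Lt.b, Lt.a, Lt.bi, Lt.a, Lt.bi, Lt.a, Lt.b, Lt.a, Lt.b, Lt.a, Lt.bi, Lt.a, Lt.bi, Lt.a, Lt.b, Lt.a, Lt.bi, Lt.a, Lt.b, Lt.a, Lt.bi, Lt.a, Lt.b, Lt.a, Lt.bi, Lt.a, Lt.b, Lt.a, Lt.bi, Lt.a, Lt.b, Lt.a, Lt.bi, Lt.a, Lt.b, Lt.a, Lt.bi, Lt.a, Lt.bi, Lt.a, Lt.b, Lt.a, Lt.b, Lt.a, Lt.bi, Lt.a, Lt.bi, Lt.a, Lt.b, Lt.a, Lt.bi, Lt.a, Lt.b, Lt.a, Lt.bi, Lt.a, Lt.b, Lt.a, Lt.bi, Lt.a, Lt.b] (hole_rel hinv hr (by decide +kernel)) h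
theorem dp_a_31_s (hinv : ∀ x, g (inv x) = (g x)⁻¹) (hr : ∀ r ∈ rels, (r.map g).prod = 1) (hH : ∀ r ∈ subs, (r.map g).prod ∈ H)
    (j u : ℕ) (hu : u < M) (h : dp_a_31 j u = true) : Good (fa g) T MG M (cP g H) Lt.a u := by
  unfold dp_a_31 at h
  rcases brec_true h with h | h
  · exact lF_good (T := T) (x := Lt.a) (by decide) [Lt.b, Lt.a, Lt.b, Lt.a, Lt.bi, Lt.a, Lt.bi, Lt.a, Lt.b, Lt.a, Lt.b, Lt.a, Lt.bi, Lt.a, Lt.b, Lt.a, Lt.bi, Lt.a, Lt.b, Lt.a, Lt.bi, Lt.a, Lt.b, Lt.a, Lt.bi, Lt.a, Lt.b, Lt.a, Lt.bi, Lt.a, Lt.b, Lt.a, Lt.bi, Lt.a, Lt.b, Lt.a, Lt.b, Lt.a, Lt.bi, Lt.a, Lt.bi, Lt.a, Lt.b, Lt.a, Lt.b, Lt.a, Lt.bi, Lt.a, Lt.b, Lt.a, Lt.bi, Lt.a, Lt.b, Lt.a, Lt.bi, Lt.a, Lt.b, Lt.a, Lt.bi, Lt.a, Lt.b, Lt.a, Lt.bi, Lt.a, Lt.b, Lt.a,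 Lt.bi] (hole_rel hinv hr (by decide +kernel)) h
  · exact dp_a_30_s hinv hr hH j u hu h
theorem dp_a_32_s (hinv : ∀ x, g (inv x) = (g x)⁻¹) (hr : ∀ r ∈ rels, (r.map g).prod = 1) (hH : ∀ r ∈ subs, (r.map g).prod ∈ H)
    (j u : ℕ) (hu : u < M) (h : dp_a_32 j u = true) : Good (fa g) T MG M (cP g H) Lt.a u := by
  unfold dp_a_32 at h
  rcases brec_true h with h | h
  · exact lS_good (T := T) (x := Lt.a) (by decide) hu [Lt.bi, Lt.a, Lt.b, Lt.a, Lt.bi, Lt.a, Lt.b, Lt.a, Lt.bi, Lt.a, Lt.bi, Lt.a, Lt.b, Lt.a, Lt.b, Lt.a, Lt.bi, Lt.a, Lt.bi, Lt.a, Lt.b, Lt.a, Lt.bi, Lt.a, Lt.b, Lt.a, Lt.bi, Lt.a, Lt.b, Lt.a, Lt.bi, Lt.a, Lt.b, Lt.a, Lt.bi, Lt.a, Lt.b, Lt.a, Lt.bi, Lt.a, Lt.b, Lt.a, Lt.bi, Lt.a, Lt.bi, Lt.a, Lt.b, Lt.a, Lt.b, Lt.a, Lt.bi,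 Lt.a, Lt.bi, Lt.a, Lt.b, Lt.a, Lt.bi, Lt.a, Lt.b, Lt.a, Lt.bi, Lt.a, Lt.b, Lt.a, Lt.bi, Lt.a, Lt.b] (hole_rel hinv hr (by decide +kernel)) h
  · exact lF_good (T := T) (x := Lt.a) (by decide) [Lt.b, Lt.a, Lt.b, Lt.a, Lt.bi, Lt.a, Lt.bi, Lt.a, Lt.b, Lt.a, Lt.bi, Lt.a, Lt.b, Lt.a, Lt.bi, Lt.a, Lt.b, Lt.a, Lt.bi, Lt.a, Lt.b, Lt.a, Lt.bi, Lt.a, Lt.b, Lt.a, Lt.bi, Lt.a, Lt.b, Lt.a, Lt.bi, Lt.a, Lt.bi, Lt.a, Lt.b, Lt.a, Lt.b, Lt.a, Lt.bi, Lt.a, Lt.bi, Lt.a, Lt.b, Lt.a, Lt.bi, Lt.a, Lt.b, Lt.a, Lt.bi, Lt.a, Lt.b, Lt.a, Lt.bi, Lt.a, Lt.b, Lt.a, Lt.bi, Lt.a, Lt.b, Lt.a, Lt.bi, Lt.a, Lt.b, Lt.a, Lt.bi, Lt.a, Lt.bi] (hole_rel hinv hr (by decide +kernel)) h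
theorem dp_a_33_s (hinv : ∀ x, g (inv x) = (g x)⁻¹) (hr : ∀ r ∈ rels, (r.map g).prod = 1) (hH : ∀ r ∈ subs, (r.map g).prod ∈ H)
    (j u : ℕ) (hu : u < M) (h : dp_a_33 j u = true) : Good (fa g) T MG M (cP g H) Lt.a u := by
  unfold dp_a_33 at h
  rcases brec_true h with h | h
  · exact lS_good (T := T) (x := Lt.a) (by decide) hu [Lt.b, Lt.a, Lt.bi, Lt.a, Lt.b, Lt.a, Lt.bi, Lt.a, Lt.b, Lt.a, Lt.b, Lt.a, Lt.bi, Lt.a, Lt.bi, Lt.a, Lt.b, Lt.a, Lt.b, Lt.a, Lt.bi, Lt.a, Lt.b, Lt.a, Lt.bi, Lt.a, Lt.b, Lt.a, Lt.bi, Lt.a, Lt.b, Lt.a, Lt.bi, Lt.a, Lt.b, Lt.a, Lt.bi, Lt.a, Lt.b, Lt.a, Lt.bi, Lt.a, Lt.b, Lt.a, Lt.b, Lt.a, Lt.bi, Lt.a, Lt.bi, Lt.a, Lt.b, Lt.a, Lt.b, Lt.a, Lt.bi, Lt.a, Lt.b, Lt.a, Lt.bi, Lt.a, Lt.b, Lt.a, Lt.bi, Lt.a, Lt.b,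 Lt.a, Lt.bi] (hole_rel hinv hr (by decide +kernel)) h
  · exact lS_good (T := T) (x := Lt.a) (by decide) hu [Lt.bi, Lt.a, Lt.b, Lt.a, Lt.bi, Lt.a, Lt.b, Lt.a, Lt.bi, Lt.a, Lt.b, Lt.a, Lt.bi, Lt.a, Lt.b, Lt.a, Lt.bi, Lt.a, Lt.b, Lt.a, Lt.bi, Lt.a, Lt.b, Lt.a, Lt.bi, Lt.a, Lt.bi, Lt.a, Lt.b, Lt.a, Lt.b, Lt.a, Lt.bi, Lt.a, Lt.bi, Lt.a, Lt.b, Lt.a, Lt.bi, Lt.a, Lt.b, Lt.a, Lt.bi, Lt.a, Lt.b, Lt.a, Lt.bi, Lt.a, Lt.b, Lt.a, Lt.bi, Lt.a, Lt.b, Lt.a, Lt.bi, Lt.a, Lt.b, Lt.a, Lt.bi, Lt.a, Lt.bi, Lt.a, Lt.b, Lt.a, Lt.b, Lt.a, Lt.bi] (hole_rel hinv hr (by decide +kernel)) h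
theorem dp_a_34_s (hinv : ∀ x, g (inv x) = (g x)⁻¹) (hr : ∀ r ∈ rels, (r.map g).prod = 1) (hH : ∀ r ∈ subs, (r.map g).prod ∈ H)
    (j u : ℕ) (hu : u < M) (h : dp_a_34 j u = true) : Good (fa g) T MG M (cP g H) Lt.a u := by
  unfold dp_a_34 at h
  rcases brec_true h with h | h
  · exact dp_a_32_s hinv hr hH j u hu h
  · exact dp_a_33_s hinv hr hH j u hu h
theorem dp_a_35_s (hinv : ∀ x, g (inv x) = (g x)⁻¹) (hr : ∀ r ∈ rels, (r.map g).prod = 1) (hH : ∀ r ∈ subs, (r.map g).prod ∈ H)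
    (j u : ℕ) (hu : u < M) (h : dp_a_35 j u = true) : Good (fa g) T MG M (cP g H) Lt.a u := by
  unfold dp_a_35 at h
  rcases brec_true h with h | h
  · exact dp_a_31_s hinv hr hH j u hu h
  · exact dp_a_34_s hinv hr hH j u hu h
theorem dp_a_36_s (hinv : ∀ x, g (inv x) = (g x)⁻¹) (hr : ∀ r ∈ rels, (r.map g).prod = 1) (hH : ∀ r ∈ subs, (r.map g).prod ∈ H)
    (j u : ℕ) (hu : u < M) (h : dp_a_36 j u = true) : Good (fa g) T MG M (cP g H) Lt.a u := by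
  unfold dp_a_36 at h
  rcases brec_true h with h | h
  · exact lS_good (T := T) (x := Lt.a) (by decide) hu [Lt.bi, Lt.a, Lt.b, Lt.a, Lt.bi, Lt.a, Lt.bi, Lt.a, Lt.b, Lt.a, Lt.b, Lt.a, Lt.bi, Lt.a, Lt.bi, Lt.a, Lt.b, Lt.a, Lt.bi, Lt.a, Lt.b, Lt.a, Lt.bi, Lt.a, Lt.b, Lt.a, Lt.bi, Lt.a, Lt.b, Lt.a, Lt.bi, Lt.a, Lt.b, Lt.a, Lt.bi, Lt.a, Lt.b, Lt.a, Lt.bi, Lt.a, Lt.bi, Lt.a, Lt.b, Lt.a, Lt.b, Lt.a, Lt.bi, Lt.a, Lt.bi, Lt.a, Lt.b, Lt.a, Lt.bi, Lt.a, Lt.b, Lt.a, Lt.bi, Lt.a, Lt.b, Lt.a, Lt.bi, Lt.a, Lt.b, Lt.a, Lt.bi, Lt.a, Lt.b] (hole_rel hinv hr (by decide +kernel)) h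
  · exact lS_good (T := T) (x := Lt.a) (by decide) hu [Lt.bi, Lt.a, Lt.b, Lt.a, Lt.bi, Lt.a, Lt.b, Lt.a, Lt.bi, Lt.a, Lt.b, Lt.a, Lt.bi, Lt.a, Lt.b, Lt.a, Lt.b, Lt.a, Lt.bi, Lt.a, Lt.bi, Lt.a, Lt.b, Lt.a, Lt.b, Lt.a, Lt.bi, Lt.a, Lt.b, Lt.a, Lt.bi, Lt.a, Lt.b, Lt.a, Lt.bi, Lt.a, Lt.b, Lt.a, Lt.bi, Lt.a, Lt.b, Lt.a, Lt.bi, Lt.a, Lt.b, Lt.a, Lt.bi, Lt.a, Lt.b, Lt.a, Lt.b, Lt.a, Lt.bi, Lt.a, Lt.bi, Lt.a, Lt.b, Lt.a, Lt.b, Lt.a, Lt.bi, Lt.a, Lt.b, Lt.a, Lt.bi, Lt.a, Lt.b] (hole_rel hinv hr (by decide +kernel)) h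
theorem dp_a_37_s (hinv : ∀ x, g (inv x) = (g x)⁻¹) (hr : ∀ r ∈ rels, (r.map g).prod = 1) (hH : ∀ r ∈ subs, (r.map g).prod ∈ H)
    (j u : ℕ) (hu : u < M) (h : dp_a_37 j u = true) : Good (fa g) T MG M (cP g H) Lt.a u := by
  unfold dp_a_37 at h
  rcases brec_true h with h | h
  · exact lF_good (T := T) (x := Lt.a) (by decide) [Lt.bi, Lt.a, Lt.b, Lt.a, Lt.bi, Lt.a, Lt.b, Lt.a, Lt.bi, Lt.a, Lt.b, Lt.a, Lt.bi, Lt.a, Lt.b, Lt.a, Lt.bi, Lt.a, Lt.b, Lt.a, Lt.bi, Lt.a, Lt.bi, Lt.a, Lt.b, Lt.a, Lt.b, Lt.a, Lt.bi, Lt.a, Lt.bi, Lt.a, Lt.b, Lt.a, Lt.bi, Lt.a, Lt.b, Lt.a, Lt.bi, Lt.a, Lt.b, Lt.a, Lt.bi, Lt.a, Lt.b, Lt.a, Lt.bi, Lt.a, Lt.b, Lt.a, Lt.bi, Lt.a, Lt.b, Lt.a, Lt.bi, Lt.a, Lt.bi, Lt.a, Lt.b, Lt.a, Lt.b, Lt.a, Lt.bi, Lt.a, Lt.bi,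 Lt.a, Lt.b] (hole_rel hinv hr (by decide +kernel)) h
  · exact lS_good (T := T) (x := Lt.a) (by decide) hu [Lt.bi, Lt.a, Lt.b, Lt.a, Lt.bi, Lt.a, Lt.b, Lt.a, Lt.b, Lt.a, Lt.bi, Lt.a, Lt.bi, Lt.a, Lt.b, Lt.a, Lt.b, Lt.a, Lt.bi, Lt.a, Lt.b, Lt.a, Lt.bi, Lt.a, Lt.b, Lt.a, Lt.bi, Lt.a, Lt.b, Lt.a, Lt.bi, Lt.a, Lt.b, Lt.a, Lt.bi, Lt.a, Lt.b, Lt.a, Lt.bi, Lt.a, Lt.b, Lt.a, Lt.b, Lt.a, Lt.bi, Lt.a, Lt.bi, Lt.a, Lt.b, Lt.a, Lt.b, Lt.a, Lt.bi, Lt.a, Lt.b, Lt.a, Lt.bi, Lt.a, Lt.b, Lt.a, Lt.bi, Lt.a, Lt.b, Lt.a, Lt.bi, Lt.a, Lt.b] (hole_rel hinv hr (by decide +kernel)) h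
theorem dp_a_38_s (hinv : ∀ x, g (inv x) = (g x)⁻¹) (hr : ∀ r ∈ rels, (r.map g).prod = 1) (hH : ∀ r ∈ subs, (r.map g).prod ∈ H)
    (j u : ℕ) (hu : u < M) (h : dp_a_38 j u = true) : Good (fa g) T MG M (cP g H) Lt.a u := by
  unfold dp_a_38 at h
  rcases brec_true h with h | h
  · exact dp_a_36_s hinv hr hH j u hu h
  · exact dp_a_37_s hinv hr hH j u hu h
theorem dp_a_39_s (hinv : ∀ x, g (inv x) = (g x)⁻¹) (hr : ∀ r ∈ rels, (r.map g).prod = 1) (hH : ∀ r ∈ subs, (r.map g).prod ∈ H)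
    (j u : ℕ) (hu : u < M) (h : dp_a_39 j u = true) : Good (fa g) T MG M (cP g H) Lt.a u := by
  unfold dp_a_39 at h
  rcases brec_true h with h | h
  · exact lF_good (T := T) (x := Lt.a) (by decide) [Lt.b, Lt.a, Lt.bi, Lt.a, Lt.b, Lt.a, Lt.bi, Lt.a, Lt.b, Lt.a, Lt.bi, Lt.a, Lt.b, Lt.a, Lt.b, Lt.a, Lt.bi, Lt.a, Lt.bi, Lt.a, Lt.b, Lt.a, Lt.b, Lt.a, Lt.bi, Lt.a, Lt.b, Lt.a, Lt.bi, Lt.a, Lt.b, Lt.a, Lt.bi, Lt.a, Lt.b, Lt.a, Lt.bi, Lt.a, Lt.b, Lt.a, Lt.bi, Lt.a, Lt.b, Lt.a, Lt.bi, Lt.a, Lt.b, Lt.a, Lt.b, Lt.a, Lt.bi, Lt.a, Lt.bi, Lt.a, Lt.b, Lt.a, Lt.b, Lt.a, Lt.bi, Lt.a, Lt.b, Lt.a, Lt.bi, Lt.a, Lt.b, Lt.a, Lt.bi] (hole_rel hinv hr (by decide +kernel)) h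
  · exact lS_good (T := T) (x := Lt.a) (by decide) hu [Lt.b, Lt.a, Lt.bi, Lt.a, Lt.bi, Lt.a, Lt.b, Lt.a, Lt.b, Lt.a, Lt.bi, Lt.a, Lt.bi, Lt.a, Lt.b, Lt.a, Lt.bi, Lt.a, Lt.b, Lt.a, Lt.bi, Lt.a, Lt.b, Lt.a, Lt.bi, Lt.a, Lt.b, Lt.a, Lt.bi, Lt.a, Lt.b, Lt.a, Lt.bi, Lt.a, Lt.b, Lt.a, Lt.bi, Lt.a, Lt.bi, Lt.a, Lt.b, Lt.a, Lt.b, Lt.a, Lt.bi, Lt.a, Lt.bi, Lt.a, Lt.b, Lt.a, Lt.bi, Lt.a, Lt.b, Lt.a, Lt.bi, Lt.a, Lt.b, Lt.a, Lt.bi, Lt.a, Lt.b, Lt.a, Lt.bi, Lt.a, Lt.b, Lt.a, Lt.bi] (hole_rel hinv hr (by decide +kernel)) h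
theorem dp_a_40_s (hinv : ∀ x, g (inv x) = (g x)⁻¹) (hr : ∀ r ∈ rels, (r.map g).prod = 1) (hH : ∀ r ∈ subs, (r.map g).prod ∈ H)
    (j u : ℕ) (hu : u < M) (h : dp_a_40 j u = true) : Good (fa g) T MG M (cP g H) Lt.a u := by
  unfold dp_a_40 at h
  rcases brec_true h with h | h
  · exact lS_good (T := T) (x := Lt.a) (by decide) hu [Lt.bi, Lt.a, Lt.b, Lt.a, Lt.bi, Lt.a, Lt.b, Lt.a, Lt.bi, Lt.a, Lt.b, Lt.a, Lt.bi, Lt.a, Lt.b, Lt.a, Lt.bi, Lt.a, Lt.b, Lt.a, Lt.bi, Lt.a, Lt.b, Lt.a, Lt.b, Lt.a, Lt.bi, Lt.a, Lt.bi, Lt.a, Lt.b, Lt.a, Lt.b, Lt.a, Lt.bi, Lt.a, Lt.b, Lt.a, Lt.bi, Lt.a, Lt.b, Lt.a, Lt.bi, Lt.a, Lt.b, Lt.a, Lt.bi, Lt.a, Lt.b, Lt.a, Lt.bi, Lt.a, Lt.b, Lt.a, Lt.bi, Lt.a, Lt.b, Lt.a, Lt.b, Lt.a, Lt.bi, Lt.a, Lt.bi, Lt.a, Lt.b,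 Lt.a, Lt.b] (hole_rel hinv hr (by decide +kernel)) h
  · exact lF_good (T := T) (x := Lt.a) (by decide) [Lt.b, Lt.a, Lt.b, Lt.a, Lt.bi, Lt.a, Lt.b, Lt.a, Lt.bi, Lt.a, Lt.b, Lt.a, Lt.bi, Lt.a, Lt.b, Lt.a, Lt.bi, Lt.a, Lt.b, Lt.a, Lt.bi, Lt.a, Lt.b, Lt.a, Lt.bi, Lt.a, Lt.b, Lt.a, Lt.b, Lt.a, Lt.bi, Lt.a, Lt.bi, Lt.a, Lt.b, Lt.a, Lt.b, Lt.a, Lt.bi, Lt.a, Lt.b, Lt.a, Lt.bi, Lt.a, Lt.b, Lt.a, Lt.bi, Lt.a, Lt.b, Lt.a, Lt.bi, Lt.a, Lt.b, Lt.a, Lt.bi, Lt.a, Lt.b, Lt.a, Lt.bi, Lt.a, Lt.b, Lt.a, Lt.b, Lt.a, Lt.bi, Lt.a, Lt.bi] (hole_rel hinv hr (by decide +kernel)) h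
theorem dp_a_41_s (hinv : ∀ x, g (inv x) = (g x)⁻¹) (hr : ∀ r ∈ rels, (r.map g).prod = 1) (hH : ∀ r ∈ subs, (r.map g).prod ∈ H)
    (j u : ℕ) (hu : u < M) (h : dp_a_41 j u = true) : Good (fa g) T MG M (cP g H) Lt.a u := by
  unfold dp_a_41 at h
  rcases brec_true h with h | h
  · exact dp_a_39_s hinv hr hH j u hu h
  · exact dp_a_40_s hinv hr hH j u hu h
theorem dp_a_42_s (hinv : ∀ x, g (inv x) = (g x)⁻¹) (hr : ∀ r ∈ rels, (r.map g).prod = 1) (hH : ∀ r ∈ subs, (r.map g).prod ∈ H)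
    (j u : ℕ) (hu : u < M) (h : dp_a_42 j u = true) : Good (fa g) T MG M (cP g H) Lt.a u := by
  unfold dp_a_42 at h
  rcases brec_true h with h | h
  · exact dp_a_38_s hinv hr hH j u hu h
  · exact dp_a_41_s hinv hr hH j u hu h
theorem dp_a_43_s (hinv : ∀ x, g (inv x) = (g x)⁻¹) (hr : ∀ r ∈ rels, (r.map g).prod = 1) (hH : ∀ r ∈ subs, (r.map g).prod ∈ H)
    (j u : ℕ) (hu : u < M) (h : dp_a_43 j u = true) : Good (fa g) T MG M (cP g H) Lt.a u := by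
  unfold dp_a_43 at h
  rcases brec_true h with h | h
  · exact dp_a_35_s hinv hr hH j u hu h
  · exact dp_a_42_s hinv hr hH j u hu h
theorem dp_a_44_s (hinv : ∀ x, g (inv x) = (g x)⁻¹) (hr : ∀ r ∈ rels, (r.map g).prod = 1) (hH : ∀ r ∈ subs, (r.map g).prod ∈ H)
    (j u : ℕ) (hu : u < M) (h : dp_a_44 j u = true) : Good (fa g) T MG M (cP g H) Lt.a u := by
  unfold dp_a_44 at h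
  rcases brec_true h with h | h
  · exact lF_good (T := T) (x := Lt.a) (by decide) [Lt.bi, Lt.a, Lt.b, Lt.a, Lt.b, Lt.a, Lt.bi, Lt.a, Lt.b, Lt.a, Lt.bi, Lt.a, Lt.b, Lt.a, Lt.bi, Lt.a, Lt.b, Lt.a, Lt.bi, Lt.a, Lt.b, Lt.a, Lt.bi, Lt.a, Lt.b, Lt.a, Lt.bi, Lt.a, Lt.b, Lt.a, Lt.b, Lt.a, Lt.bi, Lt.a, Lt.bi, Lt.a, Lt.b, Lt.a, Lt.b, Lt.a, Lt.bi, Lt.a, Lt.b, Lt.a, Lt.bi, Lt.a, Lt.b, Lt.a, Lt.bi, Lt.a, Lt.b, Lt.a, Lt.bi, Lt.a, Lt.b, Lt.a, Lt.bi, Lt.a, Lt.b, Lt.a, Lt.bi, Lt.a, Lt.b, Lt.a, Lt.b, Lt.a, Lt.bi] (hole_rel hinv hr (by decide +kernel)) h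
  · exact lF_good (T := T) (x := Lt.a) (by decide) [Lt.bi, Lt.a, Lt.b, Lt.a, Lt.bi, Lt.a, Lt.b, Lt.a, Lt.bi, Lt.a, Lt.b, Lt.a, Lt.bi, Lt.a, Lt.bi, Lt.a, Lt.b, Lt.a, Lt.bi, Lt.a, Lt.b, Lt.a, Lt.bi, Lt.a, Lt.b, Lt.a, Lt.bi, Lt.a, Lt.bi, Lt.a, Lt.b, Lt.a, Lt.bi, Lt.a, Lt.b, Lt.a, Lt.bi, Lt.a, Lt.b, Lt.a, Lt.bi, Lt.a, Lt.bi, Lt.a, Lt.b, Lt.a, Lt.bi, Lt.a, Lt.b, Lt.a, Lt.bi, Lt.a, Lt.b, Lt.a, Lt.bi, Lt.a, Lt.bi, Lt.a, Lt.b, Lt.a, Lt.bi, Lt.a, Lt.b, Lt.a, Lt.bi, Lt.a, Lt.b, Lt.a, Lt.bi] (hole_rel hinv hr (by decide +kernel)) h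
theorem dp_a_45_s (hinv : ∀ x, g (inv x) = (g x)⁻¹) (hr : ∀ r ∈ rels, (r.map g).prod = 1) (hH : ∀ r ∈ subs, (r.map g).prod ∈ H)
    (j u : ℕ) (hu : u < M) (h : dp_a_45 j u = true) : Good (fa g) T MG M (cP g H) Lt.a u := by
  unfold dp_a_45 at h
  rcases brec_true h with h | h
  · exact lF_good (T := T) (x := Lt.a) (by decide) [Lt.b, Lt.a, Lt.bi, Lt.a, Lt.b, Lt.a, Lt.bi, Lt.a, Lt.bi, Lt.a, Lt.b, Lt.a, Lt.bi, Lt.a, Lt.b, Lt.a, Lt.bi, Lt.a, Lt.b, Lt.a, Lt.bi, Lt.a, Lt.bi, Lt.a, Lt.b, Lt.a, Lt.bi, Lt.a, Lt.b, Lt.a, Lt.bi, Lt.a, Lt.b, Lt.a, Lt.bi, Lt.a, Lt.bi, Lt.a, Lt.b, Lt.a, Lt.bi, Lt.a, Lt.b, Lt.a, Lt.bi, Lt.a, Lt.b, Lt.a, Lt.bi, Lt.a, Lt.bi, Lt.a, Lt.b, Lt.a, Lt.bi, Lt.a, Lt.b, Lt.a, Lt.bi, Lt.a, Lt.b, Lt.a, Lt.bi, Lt.a, Lt.bi,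 Lt.a, Lt.b, Lt.a, Lt.bi] (hole_rel hinv hr (by decide +kernel)) h
  · exact lS_good (T := T) (x := Lt.a) (by decide) hu [Lt.b, Lt.a, Lt.bi, Lt.a, Lt.b, Lt.a, Lt.bi, Lt.a, Lt.b, Lt.a, Lt.bi, Lt.a, Lt.bi, Lt.a, Lt.b, Lt.a, Lt.b, Lt.a, Lt.bi, Lt.a, Lt.bi, Lt.a, Lt.b, Lt.a, Lt.bi, Lt.a, Lt.b, Lt.a, Lt.bi, Lt.a, Lt.b, Lt.a, Lt.bi, Lt.a, Lt.b, Lt.a, Lt.bi, Lt.a, Lt.b, Lt.a, Lt.bi, Lt.a, Lt.b, Lt.a, Lt.bi, Lt.a, Lt.bi, Lt.a, Lt.b, Lt.a, Lt.b, Lt.a, Lt.bi, Lt.a, Lt.bi, Lt.a, Lt.b, Lt.a, Lt.bi, Lt.a, Lt.b, Lt.a, Lt.bi, Lt.a, Lt.b, Lt.a, Lt.bi] (hole_rel hinv hr (by decide +kernel)) h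
theorem dp_a_46_s (hinv : ∀ x, g (inv x) = (g x)⁻¹) (hr : ∀ r ∈ rels, (r.map g).prod = 1) (hH : ∀ r ∈ subs, (r.map g).prod ∈ H)
    (j u : ℕ) (hu : u < M) (h : dp_a_46 j u = true) : Good (fa g) T MG M (cP g H) Lt.a u := by
  unfold dp_a_46 at h
  rcases brec_true h with h | h
  · exact lF_good (T := T) (x := Lt.a) (by decide) [Lt.bi, Lt.a, Lt.b, Lt.a, Lt.bi, Lt.a, Lt.b, Lt.a, Lt.bi, Lt.a, Lt.b, Lt.a, Lt.bi, Lt.a, Lt.bi, Lt.a, Lt.b, Lt.a, Lt.b, Lt.a, Lt.bi, Lt.a, Lt.bi, Lt.a, Lt.b, Lt.a, Lt.bi, Lt.a, Lt.b, Lt.a, Lt.bi, Lt.a, Lt.b, Lt.a, Lt.bi, Lt.a, Lt.b, Lt.a, Lt.bi, Lt.a, Lt.b, Lt.a, Lt.bi, Lt.a, Lt.b, Lt.a, Lt.bi, Lt.a, Lt.bi, Lt.a, Lt.b, Lt.a, Lt.b, Lt.a, Lt.bi, Lt.a, Lt.bi, Lt.a, Lt.b, Lt.a, Lt.bi, Lt.a, Lt.b, Lt.a, Lt.bi,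 Lt.a, Lt.b] (hole_rel hinv hr (by decide +kernel)) h
  · exact dp_a_45_s hinv hr hH j u hu h
theorem dp_a_47_s (hinv : ∀ x, g (inv x) = (g x)⁻¹) (hr : ∀ r ∈ rels, (r.map g).prod = 1) (hH : ∀ r ∈ subs, (r.map g).prod ∈ H)
    (j u : ℕ) (hu : u < M) (h : dp_a_47 j u = true) : Good (fa g) T MG M (cP g H) Lt.a u := by
  unfold dp_a_47 at h
  rcases brec_true h with h | h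
  · exact dp_a_44_s hinv hr hH j u hu h
  · exact dp_a_46_s hinv hr hH j u hu h
theorem dp_a_48_s (hinv : ∀ x, g (inv x) = (g x)⁻¹) (hr : ∀ r ∈ rels, (r.map g).prod = 1) (hH : ∀ r ∈ subs, (r.map g).prod ∈ H)
    (j u : ℕ) (hu : u < M) (h : dp_a_48 j u = true) : Good (fa g) T MG M (cP g H) Lt.a u := by
  unfold dp_a_48 at h
  rcases brec_true h with h | h
  · exact lS_good (T := T) (x := Lt.a) (by decide) hu [Lt.b, Lt.a, Lt.bi, Lt.a, Lt.b, Lt.a, Lt.bi, Lt.a, Lt.b, Lt.a, Lt.bi, Lt.a, Lt.b, Lt.a, Lt.bi, Lt.a, Lt.b, Lt.a, Lt.b, Lt.a, Lt.bi, Lt.a, Lt.bi, Lt.a, Lt.b, Lt.a, Lt.b, Lt.a, Lt.bi, Lt.a, Lt.b, Lt.a, Lt.bi, Lt.a, Lt.b, Lt.a, Lt.bi, Lt.a, Lt.b, Lt.a, Lt.bi, Lt.a, Lt.b, Lt.a, Lt.bi, Lt.a, Lt.b, Lt.a, Lt.bi, Lt.a, Lt.b, Lt.a, Lt.b,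 Lt.a, Lt.bi, Lt.a, Lt.bi, Lt.a, Lt.b, Lt.a, Lt.b, Lt.a, Lt.bi, Lt.a, Lt.b, Lt.a, Lt.bi] (hole_rel hinv hr (by decide +kernel)) h
  · exact lF_good (T := T) (x := Lt.a) (by decide) [Lt.b, Lt.a, Lt.bi, Lt.a, Lt.b, Lt.a, Lt.bi, Lt.a, Lt.b, Lt.a, Lt.bi, Lt.a, Lt.b, Lt.a, Lt.bi, Lt.a, Lt.b, Lt.a, Lt.bi, Lt.a, Lt.b, Lt.a, Lt.bi, Lt.a, Lt.bi, Lt.a, Lt.b, Lt.a, Lt.b, Lt.a, Lt.bi, Lt.a, Lt.bi, Lt.a, Lt.b, Lt.a, Lt.bi, Lt.a, Lt.b, Lt.a, Lt.bi, Lt.a, Lt.b, Lt.a, Lt.bi, Lt.a, Lt.b, Lt.a, Lt.bi, Lt.a, Lt.b, Lt.a, Lt.bi, Lt.a, Lt.b, Lt.a, Lt.bi, Lt.a, Lt.bi, Lt.a, Lt.b, Lt.a, Lt.b, Lt.a, Lt.bi, Lt.a, Lt.bi] (hole_rel hinv hr (by decide +kernel)) h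
theorem dp_a_49_s (hinv : ∀ x, g (inv x) = (g x)⁻¹) (hr : ∀ r ∈ rels, (r.map g).prod = 1) (hH : ∀ r ∈ subs, (r.map g).prod ∈ H)
    (j u : ℕ) (hu : u < M) (h : dp_a_49 j u = true) : Good (fa g) T MG M (cP g H) Lt.a u := by
  unfold dp_a_49 at h
  rcases brec_true h with h | h
  · exact lF_good (T := T) (x := Lt.a) (by decide) [Lt.bi, Lt.a, Lt.bi, Lt.a, Lt.b, Lt.a, Lt.b, Lt.a, Lt.bi, Lt.a, Lt.bi, Lt.a, Lt.b, Lt.a, Lt.bi, Lt.a, Lt.b, Lt.a, Lt.bi, Lt.a, Lt.b, Lt.a, Lt.bi, Lt.a, Lt.b, Lt.a, Lt.bi, Lt.a, Lt.b, Lt.a, Lt.bi, Lt.a, Lt.b, Lt.a, Lt.bi, Lt.a, Lt.bi, Lt.a, Lt.b, Lt.a, Lt.b, Lt.a, Lt.bi, Lt.a, Lt.bi, Lt.a, Lt.b, Lt.a, Lt.bi, Lt.a, Lt.b, Lt.a, Lt.bi, Lt.a, Lt.b, Lt.a, Lt.bi, Lt.a, Lt.b, Lt.a, Lt.bi, Lt.a, Lt.b, Lt.a, Lt.bi,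 Lt.a, Lt.b] (hole_rel hinv hr (by decide +kernel)) h
  · exact dp_a_48_s hinv hr hH j u hu h
theorem dp_a_50_s (hinv : ∀ x, g (inv x) = (g x)⁻¹) (hr : ∀ r ∈ rels, (r.map g).prod = 1) (hH : ∀ r ∈ subs, (r.map g).prod ∈ H)
    (j u : ℕ) (hu : u < M) (h : dp_a_50 j u = true) : Good (fa g) T MG M (cP g H) Lt.a u := by
  unfold dp_a_50 at h
  rcases brec_true h with h | h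
  · exact lS_good (T := T) (x := Lt.a) (by decide) hu [Lt.b, Lt.a, Lt.bi, Lt.a, Lt.b, Lt.a, Lt.b, Lt.a, Lt.bi, Lt.a, Lt.bi, Lt.a, Lt.b, Lt.a, Lt.b, Lt.a, Lt.bi, Lt.a, Lt.b, Lt.a, Lt.bi, Lt.a, Lt.b, Lt.a, Lt.bi, Lt.a, Lt.b, Lt.a, Lt.bi, Lt.a, Lt.b, Lt.a, Lt.bi, Lt.a, Lt.b, Lt.a, Lt.bi, Lt.a, Lt.b, Lt.a, Lt.b, Lt.a, Lt.bi, Lt.a, Lt.bi, Lt.a, Lt.b, Lt.a, Lt.b, Lt.a, Lt.bi, Lt.a, Lt.b, Lt.a, Lt.bi, Lt.a, Lt.b, Lt.a, Lt.bi, Lt.a, Lt.b, Lt.a, Lt.bi, Lt.a, Lt.b, Lt.a, Lt.bi] (hole_rel hinv hr (by decide +kernel)) h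
  · exact lS_good (T := T) (x := Lt.a) (by decide) hu [Lt.b, Lt.a, Lt.b, Lt.a, Lt.bi, Lt.a, Lt.b, Lt.a, Lt.bi, Lt.a, Lt.b, Lt.a, Lt.bi, Lt.a, Lt.b, Lt.a, Lt.bi, Lt.a, Lt.b, Lt.a, Lt.bi, Lt.a, Lt.b, Lt.a, Lt.bi, Lt.a, Lt.b, Lt.a, Lt.b, Lt.a, Lt.bi, Lt.a, Lt.bi, Lt.a, Lt.b, Lt.a, Lt.b, Lt.a, Lt.bi, Lt.a, Lt.b, Lt.a, Lt.bi, Lt.a, Lt.b, Lt.a, Lt.bi, Lt.a, Lt.b, Lt.a, Lt.bi, Lt.a, Lt.b, Lt.a, Lt.bi, Lt.a, Lt.b, Lt.a, Lt.bi, Lt.a, Lt.b, Lt.a, Lt.b, Lt.a, Lt.bi, Lt.a, Lt.bi] (hole_rel hinv hr (by decide +kernel)) h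
theorem dp_a_51_s (hinv : ∀ x, g (inv x) = (g x)⁻¹) (hr : ∀ r ∈ rels, (r.map g).prod = 1) (hH : ∀ r ∈ subs, (r.map g).prod ∈ H)
    (j u : ℕ) (hu : u < M) (h : dp_a_51 j u = true) : Good (fa g) T MG M (cP g H) Lt.a u := by
  unfold dp_a_51 at h
  rcases brec_true h with h | h
  · exact lF_good (T := T) (x := Lt.a) (by decide) [Lt.bi, Lt.a, Lt.b, Lt.a, Lt.b, Lt.a, Lt.bi, Lt.a, Lt.bi, Lt.a, Lt.b, Lt.a, Lt.bi, Lt.a, Lt.b, Lt.a, Lt.bi, Lt.a, Lt.b, Lt.a, Lt.bi, Lt.a, Lt.b, Lt.a, Lt.bi, Lt.a, Lt.b, Lt.a, Lt.bi, Lt.a, Lt.b, Lt.a, Lt.bi, Lt.a, Lt.bi, Lt.a, Lt.b, Lt.a, Lt.b, Lt.a, Lt.bi, Lt.a, Lt.bi, Lt.a, Lt.b, Lt.a, Lt.bi, Lt.a, Lt.b, Lt.a, Lt.bi, Lt.a, Lt.b, Lt.a, Lt.bi, Lt.a, Lt.b, Lt.a, Lt.bi, Lt.a, Lt.b, Lt.a, Lt.bi, Lt.a, Lt.b, Lt.a,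 Lt.bi] (hole_rel hinv hr (by decide +kernel)) h
  · exact dp_a_50_s hinv hr hH j u hu h
theorem dp_a_52_s (hinv : ∀ x, g (inv x) = (g x)⁻¹) (hr : ∀ r ∈ rels, (r.map g).prod = 1) (hH : ∀ r ∈ subs, (r.map g).prod ∈ H)
    (j u : ℕ) (hu : u < M) (h : dp_a_52 j u = true) : Good (fa g) T MG M (cP g H) Lt.a u := by
  unfold dp_a_52 at h
  rcases brec_true h with h | h
  · exact dp_a_49_s hinv hr hH j u hu h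
  · exact dp_a_51_s hinv hr hH j u hu h
theorem dp_a_53_s (hinv : ∀ x, g (inv x) = (g x)⁻¹) (hr : ∀ r ∈ rels, (r.map g).prod = 1) (hH : ∀ r ∈ subs, (r.map g).prod ∈ H)
    (j u : ℕ) (hu : u < M) (h : dp_a_53 j u = true) : Good (fa g) T MG M (cP g H) Lt.a u := by
  unfold dp_a_53 at h
  rcases brec_true h with h | h
  · exact dp_a_47_s hinv hr hH j u hu h
  · exact dp_a_52_s hinv hr hH j u hu h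
theorem dp_a_54_s (hinv : ∀ x, g (inv x) = (g x)⁻¹) (hr : ∀ r ∈ rels, (r.map g).prod = 1) (hH : ∀ r ∈ subs, (r.map g).prod ∈ H)
    (j u : ℕ) (hu : u < M) (h : dp_a_54 j u = true) : Good (fa g) T MG M (cP g H) Lt.a u := by
  unfold dp_a_54 at h
  rcases brec_true h with h | h
  · exact lF_good (T := T) (x := Lt.a) (by decide) [Lt.bi, Lt.a, Lt.b, Lt.a, Lt.bi, Lt.a, Lt.b, Lt.a, Lt.bi, Lt.a, Lt.b, Lt.a, Lt.bi, Lt.a, Lt.b, Lt.a, Lt.bi, Lt.a, Lt.b, Lt.a, Lt.bi, Lt.a, Lt.b, Lt.a, Lt.bi, Lt.a, Lt.bi, Lt.a, Lt.b, Lt.a, Lt.b, Lt.a, Lt.bi, Lt.a, Lt.bi, Lt.a, Lt.b, Lt.a, Lt.bi, Lt.a, Lt.b, Lt.a, Lt.bi, Lt.a, Lt.b, Lt.a, Lt.bi, Lt.a, Lt.b, Lt.a, Lt.bi, Lt.a, Lt.b, Lt.a, Lt.bi, Lt.a, Lt.b, Lt.a, Lt.bi, Lt.a, Lt.bi, Lt.a, Lt.b, Lt.a, Lt.b, Lt.a,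 Lt.bi] (hole_rel hinv hr (by decide +kernel)) h
  · exact lS_good (T := T) (x := Lt.a) (by decide) hu [Lt.bi, Lt.a, Lt.b, Lt.a, Lt.bi, Lt.a, Lt.b, Lt.a, Lt.bi, Lt.a, Lt.b, Lt.a, Lt.bi, Lt.a, Lt.b, Lt.a, Lt.bi, Lt.a, Lt.b, Lt.a, Lt.b, Lt.a, Lt.bi, Lt.a, Lt.bi, Lt.a, Lt.b, Lt.a, Lt.b, Lt.a, Lt.bi, Lt.a, Lt.b, Lt.a, Lt.bi, Lt.a, Lt.b, Lt.a, Lt.bi, Lt.a, Lt.b, Lt.a, Lt.bi, Lt.a, Lt.b, Lt.a, Lt.bi, Lt.a, Lt.b, Lt.a, Lt.bi, Lt.a, Lt.b, Lt.a, Lt.b, Lt.a, Lt.bi, Lt.a, Lt.bi, Lt.a, Lt.b, Lt.a, Lt.b, Lt.a, Lt.bi, Lt.a, Lt.b] (hole_rel hinv hr (by decide +kernel)) h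
theorem dp_a_55_s (hinv : ∀ x, g (inv x) = (g x)⁻¹) (hr : ∀ r ∈ rels, (r.map g).prod = 1) (hH : ∀ r ∈ subs, (r.map g).prod ∈ H)
    (j u : ℕ) (hu : u < M) (h : dp_a_55 j u = true) : Good (fa g) T MG M (cP g H) Lt.a u := by
  unfold dp_a_55 at h
  rcases brec_true h with h | h
  · exact lS_good (T := T) (x := Lt.a) (by decide) hu [Lt.bi, Lt.a, Lt.b, Lt.a, Lt.bi, Lt.a, Lt.b, Lt.a, Lt.bi, Lt.a, Lt.b, Lt.a, Lt.bi, Lt.a, Lt.b, Lt.a, Lt.bi, Lt.a, Lt.bi, Lt.a, Lt.b, Lt.a, Lt.b, Lt.a, Lt.bi, Lt.a, Lt.bi, Lt.a, Lt.b, Lt.a, Lt.bi, Lt.a, Lt.b, Lt.a, Lt.bi, Lt.a, Lt.b, Lt.a, Lt.bi, Lt.a, Lt.b, Lt.a, Lt.bi, Lt.a, Lt.b, Lt.a, Lt.bi, Lt.a, Lt.b, Lt.a, Lt.bi, Lt.a, Lt.bi, Lt.a, Lt.b, Lt.a, Lt.b, Lt.a, Lt.bi, Lt.a, Lt.bi, Lt.a, Lt.b, Lt.a, Lt.bi,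 Lt.a, Lt.b] (hole_rel hinv hr (by decide +kernel)) h
  · exact dp_a_54_s hinv hr hH j u hu h
theorem dp_a_56_s (hinv : ∀ x, g (inv x) = (g x)⁻¹) (hr : ∀ r ∈ rels, (r.map g).prod = 1) (hH : ∀ r ∈ subs, (r.map g).prod ∈ H)
    (j u : ℕ) (hu : u < M) (h : dp_a_56 j u = true) : Good (fa g) T MG M (cP g H) Lt.a u := by
  unfold dp_a_56 at h
  rcases brec_true h with h | h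
  · exact lF_good (T := T) (x := Lt.a) (by decide) [Lt.b, Lt.a, Lt.bi, Lt.a, Lt.bi, Lt.a, Lt.b, Lt.a, Lt.bi, Lt.a, Lt.b, Lt.a, Lt.bi, Lt.a, Lt.b, Lt.a, Lt.bi, Lt.a, Lt.b, Lt.a, Lt.bi, Lt.a, Lt.b, Lt.a, Lt.bi, Lt.a, Lt.b, Lt.a, Lt.bi, Lt.a, Lt.bi, Lt.a, Lt.b, Lt.a, Lt.b, Lt.a, Lt.bi, Lt.a, Lt.bi, Lt.a, Lt.b, Lt.a, Lt.bi, Lt.a, Lt.b, Lt.a, Lt.bi, Lt.a, Lt.b, Lt.a, Lt.bi, Lt.a, Lt.b, Lt.a, Lt.bi, Lt.a, Lt.b, Lt.a, Lt.bi, Lt.a, Lt.b, Lt.a, Lt.bi, Lt.a, Lt.bi, Lt.a, Lt.b] (hole_rel hinv hr (by decide +kernel)) h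
  · exact lF_good (T := T) (x := Lt.a) (by decide) [Lt.bi, Lt.a, Lt.b, Lt.a, Lt.bi, Lt.a, Lt.b, Lt.a, Lt.bi, Lt.a, Lt.b, Lt.a, Lt.b, Lt.a, Lt.bi, Lt.a, Lt.b, Lt.a, Lt.bi, Lt.a, Lt.b, Lt.a, Lt.bi, Lt.a, Lt.b, Lt.a, Lt.b, Lt.a, Lt.bi, Lt.a, Lt.b, Lt.a, Lt.bi, Lt.a, Lt.b, Lt.a, Lt.bi, Lt.a, Lt.b, Lt.a, Lt.b, Lt.a, Lt.bi, Lt.a, Lt.b, Lt.a, Lt.bi, Lt.a, Lt.b, Lt.a, Lt.bi, Lt.a, Lt.b, Lt.a, Lt.b, Lt.a, Lt.bi, Lt.a, Lt.b, Lt.a, Lt.bi, Lt.a, Lt.b, Lt.a, Lt.bi, Lt.a, Lt.b, Lt.a, Lt.b] (hole_rel hinv hr (by decide +kernel)) h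
theorem dp_a_57_s (hinv : ∀ x, g (inv x) = (g x)⁻¹) (hr : ∀ r ∈ rels, (r.map g).prod = 1) (hH : ∀ r ∈ subs, (r.map g).prod ∈ H)
    (j u : ℕ) (hu : u < M) (h : dp_a_57 j u = true) : Good (fa g) T MG M (cP g H) Lt.a u := by
  unfold dp_a_57 at h
  rcases brec_true h with h | h
  · exact lF_good (T := T) (x := Lt.a) (by decide) [Lt.b, Lt.a, Lt.bi, Lt.a, Lt.bi, Lt.a, Lt.b, Lt.a, Lt.bi, Lt.a, Lt.b, Lt.a, Lt.bi, Lt.a, Lt.b, Lt.a, Lt.bi, Lt.a, Lt.bi, Lt.a, Lt.b, Lt.a, Lt.bi, Lt.a, Lt.b, Lt.a, Lt.bi, Lt.a, Lt.b, Lt.a, Lt.bi, Lt.a, Lt.bi, Lt.a, Lt.b, Lt.a, Lt.bi, Lt.a, Lt.b, Lt.a, Lt.bi, Lt.a, Lt.b, Lt.a, Lt.bi, Lt.a, Lt.bi, Lt.a, Lt.b, Lt.a, Lt.bi, Lt.a, Lt.b, Lt.a, Lt.bi, Lt.a, Lt.b, Lt.a, Lt.bi, Lt.a, Lt.bi, Lt.a, Lt.b, Lt.a, Lt.bi,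 Lt.a, Lt.b, Lt.a, Lt.bi] (hole_rel hinv hr (by decide +kernel)) h
  · exact lF_good (T := T) (x := Lt.a) (by decide) [Lt.bi, Lt.a, Lt.b, Lt.a, Lt.bi, Lt.a, Lt.b, Lt.a, Lt.bi, Lt.a, Lt.bi, Lt.a, Lt.b, Lt.a, Lt.bi, Lt.a, Lt.b, Lt.a, Lt.bi, Lt.a, Lt.b, Lt.a, Lt.bi, Lt.a, Lt.bi, Lt.a, Lt.b, Lt.a, Lt.bi, Lt.a, Lt.b, Lt.a, Lt.bi, Lt.a, Lt.b, Lt.a, Lt.bi, Lt.a, Lt.bi, Lt.a, Lt.b, Lt.a, Lt.bi, Lt.a, Lt.b, Lt.a, Lt.bi, Lt.a, Lt.b, Lt.a, Lt.bi, Lt.a, Lt.bi, Lt.a, Lt.b, Lt.a, Lt.bi, Lt.a, Lt.b, Lt.a, Lt.bi, Lt.a, Lt.b, Lt.a, Lt.bi, Lt.a, Lt.bi, Lt.a, Lt.b] (hole_rel hinv hr (by decide +kernel)) h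
theorem dp_a_58_s (hinv : ∀ x, g (inv x) = (g x)⁻¹) (hr : ∀ r ∈ rels, (r.map g).prod = 1) (hH : ∀ r ∈ subs, (r.map g).prod ∈ H)
    (j u : ℕ) (hu : u < M) (h : dp_a_58 j u = true) : Good (fa g) T MG M (cP g H) Lt.a u := by
  unfold dp_a_58 at h
  rcases brec_true h with h | h
  · exact lF_good (T := T) (x := Lt.a) (by decide) [Lt.b, Lt.a, Lt.b, Lt.a, Lt.bi, Lt.a, Lt.b, Lt.a, Lt.bi, Lt.a, Lt.b, Lt.a, Lt.bi, Lt.a, Lt.b, Lt.a, Lt.b, Lt.a, Lt.bi, Lt.a, Lt.b, Lt.a, Lt.bi, Lt.a, Lt.b, Lt.a, Lt.bi, Lt.a, Lt.b, Lt.a, Lt.b, Lt.a, Lt.bi, Lt.a, Lt.b, Lt.a, Lt.bi, Lt.a, Lt.b, Lt.a, Lt.bi, Lt.a, Lt.b, Lt.a, Lt.b, Lt.a, Lt.bi, Lt.a, Lt.b, Lt.a, Lt.bi, Lt.a, Lt.b, Lt.a, Lt.bi, Lt.a, Lt.b, Lt.a, Lt.b, Lt.a, Lt.bi, Lt.a, Lt.b, Lt.a, Lt.bi, Lt.a,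 Lt.b, Lt.a, Lt.bi] (hole_rel hinv hr (by decide +kernel)) h
  · exact dp_a_57_s hinv hr hH j u hu h
theorem dp_a_59_s (hinv : ∀ x, g (inv x) = (g x)⁻¹) (hr : ∀ r ∈ rels, (r.map g).prod = 1) (hH : ∀ r ∈ subs, (r.map g).prod ∈ H)
    (j u : ℕ) (hu : u < M) (h : dp_a_59 j u = true) : Good (fa g) T MG M (cP g H) Lt.a u := by
  unfold dp_a_59 at h
  rcases brec_true h with h | h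
  · exact dp_a_56_s hinv hr hH j u hu h
  · exact dp_a_58_s hinv hr hH j u hu h
theorem dp_a_60_s (hinv : ∀ x, g (inv x) = (g x)⁻¹) (hr : ∀ r ∈ rels, (r.map g).prod = 1) (hH : ∀ r ∈ subs, (r.map g).prod ∈ H)
    (j u : ℕ) (hu : u < M) (h : dp_a_60 j u = true) : Good (fa g) T MG M (cP g H) Lt.a u := by
  unfold dp_a_60 at h
  rcases brec_true h with h | h
  · exact dp_a_55_s hinv hr hH j u hu h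
  · exact dp_a_59_s hinv hr hH j u hu h
theorem dp_a_61_s (hinv : ∀ x, g (inv x) = (g x)⁻¹) (hr : ∀ r ∈ rels, (r.map g).prod = 1) (hH : ∀ r ∈ subs, (r.map g).prod ∈ H)
    (j u : ℕ) (hu : u < M) (h : dp_a_61 j u = true) : Good (fa g) T MG M (cP g H) Lt.a u := by
  unfold dp_a_61 at h
  rcases brec_true h with h | h
  · exact lF_good (T := T) (x := Lt.a) (by decide) [Lt.bi, Lt.a, Lt.b, Lt.a, Lt.bi, Lt.a, Lt.b, Lt.a, Lt.b, Lt.a, Lt.bi, Lt.a, Lt.b, Lt.a, Lt.bi, Lt.a, Lt.b, Lt.a, Lt.bi, Lt.a, Lt.b, Lt.a, Lt.b, Lt.a, Lt.bi, Lt.a, Lt.b, Lt.a, Lt.bi, Lt.a, Lt.b, Lt.a, Lt.bi, Lt.a, Lt.b, Lt.a, Lt.b, Lt.a, Lt.bi, Lt.a, Lt.b, Lt.a, Lt.bi, Lt.a, Lt.b, Lt.a, Lt.bi, Lt.a, Lt.b, Lt.a, Lt.b, Lt.a, Lt.bi, Lt.a, Lt.b, Lt.a, Lt.bi, Lt.a, Lt.b, Lt.a,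 Lt.bi, Lt.a, Lt.b, Lt.a, Lt.b, Lt.a, Lt.bi, Lt.a, Lt.b] (hole_rel hinv hr (by decide +kernel)) h
  · exact lF_good (T := T) (x := Lt.a) (by decide) [Lt.b, Lt.a, Lt.bi, Lt.a, Lt.b, Lt.a, Lt.bi, Lt.a, Lt.b, Lt.a, Lt.bi, Lt.a, Lt.b, Lt.a, Lt.b, Lt.a, Lt.bi, Lt.a, Lt.b, Lt.a, Lt.bi, Lt.a, Lt.b, Lt.a, Lt.bi, Lt.a, Lt.b, Lt.a, Lt.b, Lt.a, Lt.bi, Lt.a, Lt.b, Lt.a, Lt.bi, Lt.a, Lt.b, Lt.a, Lt.bi, Lt.a, Lt.b, Lt.a, Lt.b, Lt.a, Lt.bi, Lt.a, Lt.b, Lt.a, Lt.bi, Lt.a, Lt.b, Lt.a, Lt.bi, Lt.a, Lt.b, Lt.a, Lt.b, Lt.a, Lt.bi, Lt.a, Lt.b, Lt.a, Lt.bi, Lt.a, Lt.b, Lt.a, Lt.bi, Lt.a, Lt.b] (hole_rel hinv hr (by decide +kernel)) h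
theorem dp_a_62_s (hinv : ∀ x, g (inv x) = (g x)⁻¹) (hr : ∀ r ∈ rels, (r.map g).prod = 1) (hH : ∀ r ∈ subs, (r.map g).prod ∈ H)
    (j u : ℕ) (hu : u < M) (h : dp_a_62 j u = true) : Good (fa g) T MG M (cP g H) Lt.a u := by
  unfold dp_a_62 at h
  rcases brec_true h with h | h
  · exact lF_good (T := T) (x := Lt.a) (by decide) [Lt.b, Lt.a, Lt.bi, Lt.a, Lt.b, Lt.a, Lt.b, Lt.a, Lt.bi, Lt.a, Lt.b, Lt.a, Lt.bi, Lt.a, Lt.b, Lt.a, Lt.bi, Lt.a, Lt.b, Lt.a, Lt.b, Lt.a, Lt.bi, Lt.a, Lt.b, Lt.a, Lt.bi, Lt.a, Lt.b, Lt.a, Lt.bi, Lt.a, Lt.b, Lt.a, Lt.b, Lt.a, Lt.bi, Lt.a, Lt.b, Lt.a, Lt.bi, Lt.a, Lt.b, Lt.a, Lt.bi, Lt.a, Lt.b, Lt.a, Lt.b, Lt.a, Lt.bi, Lt.a, Lt.b, Lt.a, Lt.bi, Lt.a, Lt.b, Lt.a, Lt.bi, Lt.a, Lt.b, Lt.a, Lt.b, Lt.a, Lt.bi, Lt.a,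 Lt.b, Lt.a, Lt.bi] (hole_rel hinv hr (by decide +kernel)) h
  · exact dp_a_61_s hinv hr hH j u hu h
theorem dp_a_63_s (hinv : ∀ x, g (inv x) = (g x)⁻¹) (hr : ∀ r ∈ rels, (r.map g).prod = 1) (hH : ∀ r ∈ subs, (r.map g).prod ∈ H)
    (j u : ℕ) (hu : u < M) (h : dp_a_63 j u = true) : Good (fa g) T MG M (cP g H) Lt.a u := by
  unfold dp_a_63 at h
  rcases brec_true h with h | h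
  · exact lF_good (T := T) (x := Lt.a) (by decide) [Lt.bi, Lt.a, Lt.bi, Lt.a, Lt.b, Lt.a, Lt.bi, Lt.a, Lt.b, Lt.a, Lt.bi, Lt.a, Lt.b, Lt.a, Lt.bi, Lt.a, Lt.bi, Lt.a, Lt.b, Lt.a, Lt.bi, Lt.a, Lt.b, Lt.a, Lt.bi, Lt.a, Lt.b, Lt.a, Lt.bi, Lt.a, Lt.bi, Lt.a, Lt.b, Lt.a, Lt.bi, Lt.a, Lt.b, Lt.a, Lt.bi, Lt.a, Lt.b, Lt.a, Lt.bi, Lt.a, Lt.bi, Lt.a, Lt.b, Lt.a, Lt.bi, Lt.a, Lt.b, Lt.a, Lt.bi, Lt.a, Lt.b, Lt.a, Lt.bi, Lt.a, Lt.bi, Lt.a, Lt.b, Lt.a, Lt.bi, Lt.a, Lt.b, Lt.a, Lt.bi, Lt.a, Lt.b] (hole_rel hinv hr (by decide +kernel)) h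
  · exact lF_good (T := T) (x := Lt.a) (by decide) [Lt.b, Lt.a, Lt.bi, Lt.a, Lt.b, Lt.a, Lt.bi, Lt.a, Lt.b, Lt.a, Lt.bi, Lt.a, Lt.bi, Lt.a, Lt.b, Lt.a, Lt.bi, Lt.a, Lt.b, Lt.a, Lt.bi, Lt.a, Lt.b, Lt.a, Lt.bi, Lt.a, Lt.bi, Lt.a, Lt.b, Lt.a, Lt.bi, Lt.a, Lt.b, Lt.a, Lt.bi, Lt.a, Lt.b, Lt.a, Lt.bi, Lt.a, Lt.bi, Lt.a, Lt.b, Lt.a, Lt.bi, Lt.a, Lt.b, Lt.a, Lt.bi, Lt.a, Lt.b, Lt.a, Lt.bi, Lt.a, Lt.bi, Lt.a, Lt.b, Lt.a, Lt.bi, Lt.a, Lt.b, Lt.a, Lt.bi, Lt.a, Lt.b, Lt.a, Lt.bi, Lt.a, Lt.bi] (hole_rel hinv hr (by decide +kernel)) h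
theorem dp_a_64_s (hinv : ∀ x, g (inv x) = (g x)⁻¹) (hr : ∀ r ∈ rels, (r.map g).prod = 1) (hH : ∀ r ∈ subs, (r.map g).prod ∈ H)
    (j u : ℕ) (hu : u < M) (h : dp_a_64 j u = true) : Good (fa g) T MG M (cP g H) Lt.a u := by
  unfold dp_a_64 at h
  rcases brec_true h with h | h
  · exact lF_good (T := T) (x := Lt.a) (by decide) [Lt.bi, Lt.a, Lt.b, Lt.a, Lt.bi, Lt.a, Lt.bi, Lt.a, Lt.b, Lt.a, Lt.bi, Lt.a, Lt.b, Lt.a, Lt.bi, Lt.a, Lt.b, Lt.a, Lt.bi, Lt.a, Lt.bi, Lt.a, Lt.b, Lt.a, Lt.bi, Lt.a, Lt.b, Lt.a, Lt.bi, Lt.a, Lt.b, Lt.a, Lt.bi, Lt.a, Lt.bi, Lt.a, Lt.b, Lt.a, Lt.bi, Lt.a, Lt.b, Lt.a, Lt.bi, Lt.a, Lt.b, Lt.a, Lt.bi, Lt.a, Lt.bi, Lt.a, Lt.b, Lt.a, Lt.bi, Lt.a, Lt.b, Lt.a, Lt.bi, Lt.a, Lt.b, Lt.a, Lt.bi, Lt.a, Lt.bi, Lt.a, Lt.b,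 Lt.a, Lt.bi, Lt.a, Lt.b] (hole_rel hinv hr (by decide +kernel)) h
  · exact dp_a_63_s hinv hr hH j u hu h
theorem dp_a_65_s (hinv : ∀ x, g (inv x) = (g x)⁻¹) (hr : ∀ r ∈ rels, (r.map g).prod = 1) (hH : ∀ r ∈ subs, (r.map g).prod ∈ H)
    (j u : ℕ) (hu : u < M) (h : dp_a_65 j u = true) : Good (fa g) T MG M (cP g H) Lt.a u := by
  unfold dp_a_65 at h
  rcases brec_true h with h | h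
  · exact dp_a_62_s hinv hr hH j u hu h
  · exact dp_a_64_s hinv hr hH j u hu h
theorem dp_a_66_s (hinv : ∀ x, g (inv x) = (g x)⁻¹) (hr : ∀ r ∈ rels, (r.map g).prod = 1) (hH : ∀ r ∈ subs, (r.map g).prod ∈ H)
    (j u : ℕ) (hu : u < M) (h : dp_a_66 j u = true) : Good (fa g) T MG M (cP g H) Lt.a u := by
  unfold dp_a_66 at h
  rcases brec_true h with h | h
  · exact lS_good (T := T) (x := Lt.a) (by decide) hu [Lt.bi, Lt.a, Lt.b, Lt.a, Lt.bi, Lt.a, Lt.b, Lt.a, Lt.bi, Lt.a, Lt.b, Lt.a, Lt.bi, Lt.a, Lt.bi, Lt.a, Lt.b, Lt.a, Lt.b, Lt.a, Lt.bi, Lt.a, Lt.bi, Lt.a, Lt.b, Lt.a, Lt.bi, Lt.a, Lt.b, Lt.a, Lt.bi, Lt.a, Lt.b, Lt.a, Lt.bi, Lt.a, Lt.b, Lt.a, Lt.bi, Lt.a, Lt.b, Lt.a, Lt.bi, Lt.a, Lt.b, Lt.a, Lt.bi, Lt.a, Lt.bi, Lt.a, Lt.b, Lt.a,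 Lt.b, Lt.a, Lt.bi, Lt.a, Lt.bi, Lt.a, Lt.b, Lt.a, Lt.bi, Lt.a, Lt.b, Lt.a, Lt.bi, Lt.a, Lt.b] (hole_rel hinv hr (by decide +kernel)) h
  · exact lS_good (T := T) (x := Lt.a) (by decide) hu [Lt.bi, Lt.a, Lt.bi, Lt.a, Lt.b, Lt.a, Lt.b, Lt.a, Lt.bi, Lt.a, Lt.bi, Lt.a, Lt.b, Lt.a, Lt.bi, Lt.a, Lt.b, Lt.a, Lt.bi, Lt.a, Lt.b, Lt.a, Lt.bi, Lt.a, Lt.b, Lt.a, Lt.bi, Lt.a, Lt.b, Lt.a, Lt.bi, Lt.a, Lt.b, Lt.a, Lt.bi, Lt.a, Lt.bi, Lt.a, Lt.b, Lt.a, Lt.b, Lt.a, Lt.bi, Lt.a, Lt.bi, Lt.a, Lt.b, Lt.a, Lt.bi, Lt.a, Lt.b, Lt.a, Lt.bi, Lt.a, Lt.b, Lt.a, Lt.bi, Lt.a, Lt.b, Lt.a, Lt.bi, Lt.a, Lt.b, Lt.a, Lt.bi, Lt.a, Lt.b] (hole_rel hinv hr (by decide +kernel)) h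
theorem dp_a_67_s (hinv : ∀ x, g (inv x) = (g x)⁻¹) (hr : ∀ r ∈ rels, (r.map g).prod = 1) (hH : ∀ r ∈ subs, (r.map g).prod ∈ H)
    (j u : ℕ) (hu : u < M) (h : dp_a_67 j u = true) : Good (fa g) T MG M (cP g H) Lt.a u := by
  unfold dp_a_67 at h
  rcases brec_true h with h | h
  · exact lS_good (T := T) (x := Lt.a) (by decide) hu [Lt.b, Lt.a, Lt.bi, Lt.a, Lt.b, Lt.a, Lt.bi, Lt.a, Lt.b, Lt.a, Lt.bi, Lt.a, Lt.b, Lt.a, Lt.b, Lt.a, Lt.bi, Lt.a, Lt.bi, Lt.a, Lt.b, Lt.a, Lt.b, Lt.a, Lt.bi, Lt.a, Lt.b, Lt.a, Lt.bi, Lt.a, Lt.b, Lt.a, Lt.bi, Lt.a, Lt.b, Lt.a, Lt.bi, Lt.a, Lt.b, Lt.a, Lt.bi, Lt.a, Lt.b, Lt.a, Lt.bi, Lt.a, Lt.b, Lt.a, Lt.b, Lt.a, Lt.bi, Lt.a, Lt.bi, Lt.a, Lt.b, Lt.a, Lt.b, Lt.a, Lt.bi, Lt.a, Lt.b, Lt.a, Lt.bi, Lt.a, Lt.b,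 Lt.a, Lt.bi] (hole_rel hinv hr (by decide +kernel)) h
  · exact dp_a_66_s hinv hr hH j u hu h
theorem dp_a_68_s (hinv : ∀ x, g (inv x) = (g x)⁻¹) (hr : ∀ r ∈ rels, (r.map g).prod = 1) (hH : ∀ r ∈ subs, (r.map g).prod ∈ H)
    (j u : ℕ) (hu : u < M) (h : dp_a_68 j u = true) : Good (fa g) T MG M (cP g H) Lt.a u := by
  unfold dp_a_68 at h
  rcases brec_true h with h | h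
  · exact lS_good (T := T) (x := Lt.a) (by decide) hu [Lt.b, Lt.a, Lt.b, Lt.a, Lt.bi, Lt.a, Lt.bi, Lt.a, Lt.b, Lt.a, Lt.b, Lt.a, Lt.bi, Lt.a, Lt.b, Lt.a, Lt.bi, Lt.a, Lt.b, Lt.a, Lt.bi, Lt.a, Lt.b, Lt.a, Lt.bi, Lt.a, Lt.b, Lt.a, Lt.bi, Lt.a, Lt.b, Lt.a, Lt.bi, Lt.a, Lt.b, Lt.a, Lt.b, Lt.a, Lt.bi, Lt.a, Lt.bi, Lt.a, Lt.b, Lt.a, Lt.b, Lt.a, Lt.bi, Lt.a, Lt.b, Lt.a, Lt.bi, Lt.a, Lt.b, Lt.a, Lt.bi, Lt.a, Lt.b, Lt.a, Lt.bi, Lt.a, Lt.b, Lt.a, Lt.bi, Lt.a, Lt.b, Lt.a, Lt.bi] (hole_rel hinv hr (by decide +kernel)) h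
  · exact lS_good (T := T) (x := Lt.a) (by decide) hu [Lt.b, Lt.a, Lt.bi, Lt.a, Lt.b, Lt.a, Lt.bi, Lt.a, Lt.b, Lt.a, Lt.bi, Lt.a, Lt.b, Lt.a, Lt.bi, Lt.a, Lt.b, Lt.a, Lt.bi, Lt.a, Lt.b, Lt.a, Lt.bi, Lt.a, Lt.bi, Lt.a, Lt.b, Lt.a, Lt.b, Lt.a, Lt.bi, Lt.a, Lt.bi, Lt.a, Lt.b, Lt.a, Lt.bi, Lt.a, Lt.b, Lt.a, Lt.bi, Lt.a, Lt.b, Lt.a, Lt.bi, Lt.a, Lt.b, Lt.a, Lt.bi, Lt.a, Lt.b, Lt.a, Lt.bi, Lt.a, Lt.b, Lt.a, Lt.bi, Lt.a, Lt.bi, Lt.a, Lt.b, Lt.a, Lt.b, Lt.a, Lt.bi, Lt.a, Lt.bi] (hole_rel hinv hr (by decide +kernel)) h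
theorem dp_a_69_s (hinv : ∀ x, g (inv x) = (g x)⁻¹) (hr : ∀ r ∈ rels, (r.map g).prod = 1) (hH : ∀ r ∈ subs, (r.map g).prod ∈ H)
    (j u : ℕ) (hu : u < M) (h : dp_a_69 j u = true) : Good (fa g) T MG M (cP g H) Lt.a u := by
  unfold dp_a_69 at h
  rcases brec_true h with h | h
  · exact lS_good (T := T) (x := Lt.a) (by decide) hu [Lt.bi, Lt.a, Lt.bi, Lt.a, Lt.b, Lt.a, Lt.b, Lt.a, Lt.bi, Lt.a, Lt.b, Lt.a, Lt.bi, Lt.a, Lt.b, Lt.a, Lt.bi, Lt.a, Lt.b, Lt.a, Lt.bi, Lt.a, Lt.b, Lt.a, Lt.bi, Lt.a, Lt.b, Lt.a, Lt.bi, Lt.a, Lt.b, Lt.a, Lt.b, Lt.a, Lt.bi, Lt.a, Lt.bi, Lt.a, Lt.b, Lt.a, Lt.b, Lt.a, Lt.bi, Lt.a, Lt.b, Lt.a, Lt.bi, Lt.a, Lt.b, Lt.a, Lt.bi, Lt.a, Lt.b, Lt.a, Lt.bi, Lt.a, Lt.b, Lt.a, Lt.bi, Lt.a, Lt.b, Lt.a, Lt.bi, Lt.a, Lt.b,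 Lt.a, Lt.b] (hole_rel hinv hr (by decide +kernel)) h
  · exact dp_a_68_s hinv hr hH j u hu h
theorem dp_a_70_s (hinv : ∀ x, g (inv x) = (g x)⁻¹) (hr : ∀ r ∈ rels, (r.map g).prod = 1) (hH : ∀ r ∈ subs, (r.map g).prod ∈ H)
    (j u : ℕ) (hu : u < M) (h : dp_a_70 j u = true) : Good (fa g) T MG M (cP g H) Lt.a u := by
  unfold dp_a_70 at h
  rcases brec_true h with h | h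
  · exact dp_a_67_s hinv hr hH j u hu h
  · exact dp_a_69_s hinv hr hH j u hu h
theorem dp_a_71_s (hinv : ∀ x, g (inv x) = (g x)⁻¹) (hr : ∀ r ∈ rels, (r.map g).prod = 1) (hH : ∀ r ∈ subs, (r.map g).prod ∈ H)
    (j u : ℕ) (hu : u < M) (h : dp_a_71 j u = true) : Good (fa g) T MG M (cP g H) Lt.a u := by
  unfold dp_a_71 at h
  rcases brec_true h with h | h
  · exact dp_a_65_s hinv hr hH j u hu h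
  · exact dp_a_70_s hinv hr hH j u hu h
theorem dp_a_72_s (hinv : ∀ x, g (inv x) = (g x)⁻¹) (hr : ∀ r ∈ rels, (r.map g).prod = 1) (hH : ∀ r ∈ subs, (r.map g).prod ∈ H)
    (j u : ℕ) (hu : u < M) (h : dp_a_72 j u = true) : Good (fa g) T MG M (cP g H) Lt.a u := by
  unfold dp_a_72 at h
  rcases brec_true h with h | h
  · exact dp_a_60_s hinv hr hH j u hu h
  · exact dp_a_71_s hinv hr hH j u hu h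
theorem dp_a_73_s (hinv : ∀ x, g (inv x) = (g x)⁻¹) (hr : ∀ r ∈ rels, (r.map g).prod = 1) (hH : ∀ r ∈ subs, (r.map g).prod ∈ H)
    (j u : ℕ) (hu : u < M) (h : dp_a_73 j u = true) : Good (fa g) T MG M (cP g H) Lt.a u := by
  unfold dp_a_73 at h
  rcases brec_true h with h | h
  · exact dp_a_53_s hinv hr hH j u hu h
  · exact dp_a_72_s hinv hr hH j u hu h
theorem dp_a_74_s (hinv : ∀ x, g (inv x) = (g x)⁻¹) (hr : ∀ r ∈ rels, (r.map g).prod = 1) (hH : ∀ r ∈ subs, (r.map g).prod ∈ H)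
    (j u : ℕ) (hu : u < M) (h : dp_a_74 j u = true) : Good (fa g) T MG M (cP g H) Lt.a u := by
  unfold dp_a_74 at h
  rcases brec_true h with h | h
  · exact dp_a_43_s hinv hr hH j u hu h
  · exact dp_a_73_s hinv hr hH j u hu h
theorem dp_a_75_s (hinv : ∀ x, g (inv x) = (g x)⁻¹) (hr : ∀ r ∈ rels, (r.map g).prod = 1) (hH : ∀ r ∈ subs, (r.map g).prod ∈ H)
    (j u : ℕ) (hu : u < M) (h : dp_a_75 j u = true) : Good (fa g) T MG M (cP g H) Lt.a u := by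
  unfold dp_a_75 at h
  rcases brec_true h with h | h
  · exact dp_a_29_s hinv hr hH j u hu h
  · exact dp_a_74_s hinv hr hH j u hu h
theorem dp_a_76_s (hinv : ∀ x, g (inv x) = (g x)⁻¹) (hr : ∀ r ∈ rels, (r.map g).prod = 1) (hH : ∀ r ∈ subs, (r.map g).prod ∈ H)
    (j u : ℕ) (hu : u < M) (h : dp_a_76 j u = true) : Good (fa g) T MG M (cP g H) Lt.a u := by
  unfold dp_a_76 at h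
  rcases brec_true h with h | h
  · exact dp_a_11_s hinv hr hH j u hu h
  · exact dp_a_75_s hinv hr hH j u hu h
theorem dp_a_77_s (hinv : ∀ x, g (inv x) = (g x)⁻¹) (hr : ∀ r ∈ rels, (r.map g).prod = 1) (hH : ∀ r ∈ subs, (r.map g).prod ∈ H)
    (j u : ℕ) (hu : u < M) (h : dp_a_77 j u = true) : Good (fa g) T MG M (cP g H) Lt.a u := by
  unfold dp_a_77 at h
  rcases brec_true h with h | h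
  · exact lF_good (T := T) (x := Lt.a) (by decide) [Lt.b, Lt.a, Lt.b, Lt.a, Lt.b, Lt.a, Lt.b, Lt.a, Lt.b, Lt.a, Lt.b, Lt.a, Lt.b] (hole_rel hinv hr (by decide +kernel)) h
  · exact dp_a_76_s hinv hr hH j u hu h
theorem dp_a_78_s (hinv : ∀ x, g (inv x) = (g x)⁻¹) (hr : ∀ r ∈ rels, (r.map g).prod = 1) (hH : ∀ r ∈ subs, (r.map g).prod ∈ H)
    (j u : ℕ) (hu : u < M) (h : dp_a_78 j u = true) : Good (fa g) T MG M (cP g H) Lt.a u := by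
  unfold dp_a_78 at h
  rcases brec_true h with h | h
  · exact lF_good (T := T) (x := Lt.a) (by decide) [Lt.bi, Lt.a, Lt.bi, Lt.a, Lt.bi, Lt.a, Lt.bi, Lt.a, Lt.bi, Lt.a, Lt.bi, Lt.a, Lt.bi] (hole_rel hinv hr (by decide +kernel)) h
  · exact dp_a_77_s hinv hr hH j u hu h
theorem dp_a_79_s (hinv : ∀ x, g (inv x) = (g x)⁻¹) (hr : ∀ r ∈ rels, (r.map g).prod = 1) (hH : ∀ r ∈ subs, (r.map g).prod ∈ H)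
    (j u : ℕ) (hu : u < M) (h : dp_a_79 j u = true) : Good (fa g) T MG M (cP g H) Lt.a u := by
  unfold dp_a_79 at h
  rcases brec_true h with h | h
  · exact lF1_good (T := T) (x := Lt.a) (by decide) .a (hole_rel hinv hr (by decide +kernel)) h
  · exact dp_a_78_s hinv hr hH j u hu h
theorem snd_a (hinv : ∀ x, g (inv x) = (g x)⁻¹) (hr : ∀ r ∈ rels, (r.map g).prod = 1) (hH : ∀ r ∈ subs, (r.map g).prod ∈ H)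
    (j u : ℕ) (hu : u < M) (h : disp_a j u = true) : Good (fa g) T MG M (cP g H) Lt.a u := by
  unfold disp_a at h
  rcases brec_true h with h | h
  · exact lDef_good (T := T) (x := Lt.a) (by decide) rfl h
  · rcases brec_true h with h | h
    · exact lPar_good (T := T) (x := Lt.a) (x' := Lt.a) (by decide) rfl (inv_rel hinv _ _ rfl) h
    · exact dp_a_79_s hinv hr hH j u hu h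
theorem snc_a (hinv : ∀ x, g (inv x) = (g x)⁻¹) (hr : ∀ r ∈ rels, (r.map g).prod = 1) (hH : ∀ r ∈ subs, (r.map g).prod ∈ H)
    (j u : ℕ) (hu : u < M) (h : chk_a j u = true) : (T Lt.a u < A ∧ Good (fa g) T MG M (cP g H) Lt.a u) ∨ (A ≤ T Lt.a u ∧ MG u < A) := by
  unfold chk_a at h
  cases hb : Nat.ble A (T_a u) with
  | true => rw [hb] at h; exact Or.inr ⟨le_of_ble hb, le_of_ble h⟩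
  | false => rw [hb] at h; exact Or.inl ⟨lt_of_ble_false hb, snd_a hinv hr hH j u hu h⟩
theorem dp_b_0_s (hinv : ∀ x, g (inv x) = (g x)⁻¹) (hr : ∀ r ∈ rels, (r.map g).prod = 1) (hH : ∀ r ∈ subs, (r.map g).prod ∈ H)
    (j u : ℕ) (hu : u < M) (h : dp_b_0 j u = true) : Good (fa g) T MG M (cP g H) Lt.b u := by
  unfold dp_b_0 at h
  rcases brec_true h with h | h
  · exact lS_good (T := T) (x := Lt.b) (by decide) hu [Lt.a, Lt.b, Lt.a, Lt.b, Lt.a, Lt.b, Lt.a, Lt.b, Lt.a, Lt.b, Lt.a, Lt.b, Lt.a] (hole_rel hinv hr (by decide +kernel)) h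
  · exact lS_good (T := T) (x := Lt.b) (by decide) hu [Lt.bi] (hole_rel hinv hr (by decide +kernel)) h
theorem dp_b_1_s (hinv : ∀ x, g (inv x) = (g x)⁻¹) (hr : ∀ r ∈ rels, (r.map g).prod = 1) (hH : ∀ r ∈ subs, (r.map g).prod ∈ H)
    (j u : ℕ) (hu : u < M) (h : dp_b_1 j u = true) : Good (fa g) T MG M (cP g H) Lt.b u := by
  unfold dp_b_1 at h
  rcases brec_true h with h | h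
  · exact lF_good (T := T) (x := Lt.b) (by decide) [Lt.a, Lt.bi, Lt.a, Lt.b, Lt.a, Lt.bi, Lt.a, Lt.b, Lt.a, Lt.bi, Lt.a, Lt.b, Lt.a, Lt.bi, Lt.a, Lt.b, Lt.a, Lt.b, Lt.a, Lt.bi, Lt.a, Lt.bi, Lt.a, Lt.b, Lt.a, Lt.b, Lt.a, Lt.bi, Lt.a, Lt.b, Lt.a, Lt.bi, Lt.a, Lt.b, Lt.a, Lt.bi, Lt.a, Lt.b, Lt.a, Lt.bi, Lt.a, Lt.b, Lt.a, Lt.bi, Lt.a, Lt.b, Lt.a, Lt.bi, Lt.a, Lt.b, Lt.a, Lt.b, Lt.a, Lt.bi, Lt.a, Lt.bi, Lt.a, Lt.b, Lt.a, Lt.b, Lt.a, Lt.bi, Lt.a, Lt.b, Lt.a, Lt.bi, Lt.a] (hole_rel hinv hr (by decide +kernel)) h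
  · exact lF_good (T := T) (x := Lt.b) (by decide) [Lt.a, Lt.bi, Lt.a, Lt.b, Lt.a, Lt.bi, Lt.a, Lt.b, Lt.a, Lt.bi, Lt.a, Lt.b, Lt.a, Lt.bi, Lt.a, Lt.b, Lt.a, Lt.bi, Lt.a, Lt.bi, Lt.a, Lt.b, Lt.a, Lt.b, Lt.a, Lt.bi, Lt.a, Lt.bi, Lt.a, Lt.b, Lt.a, Lt.bi, Lt.a, Lt.b, Lt.a, Lt.bi, Lt.a, Lt.b, Lt.a, Lt.bi, Lt.a, Lt.b, Lt.a, Lt.bi, Lt.a, Lt.b, Lt.a, Lt.bi, Lt.a, Lt.b, Lt.a, Lt.bi, Lt.a, Lt.bi, Lt.a, Lt.b, Lt.a, Lt.b, Lt.a, Lt.bi, Lt.a, Lt.bi, Lt.a, Lt.b, Lt.a, Lt.bi, Lt.a] (hole_rel hinv hr (by decide +kernel)) h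
theorem dp_b_2_s (hinv : ∀ x, g (inv x) = (g x)⁻¹) (hr : ∀ r ∈ rels, (r.map g).prod = 1) (hH : ∀ r ∈ subs, (r.map g).prod ∈ H)
    (j u : ℕ) (hu : u < M) (h : dp_b_2 j u = true) : Good (fa g) T MG M (cP g H) Lt.b u := by
  unfold dp_b_2 at h
  rcases brec_true h with h | h
  · exact lF_good (T := T) (x := Lt.b) (by decide) [Lt.a, Lt.bi, Lt.a, Lt.b, Lt.a, Lt.b, Lt.a, Lt.bi, Lt.a, Lt.bi, Lt.a, Lt.b, Lt.a, Lt.b, Lt.a, Lt.bi, Lt.a, Lt.b, Lt.a, Lt.bi, Lt.a, Lt.b, Lt.a, Lt.bi, Lt.a, Lt.b, Lt.a, Lt.bi, Lt.a, Lt.b, Lt.a, Lt.bi, Lt.a, Lt.b, Lt.a, Lt.bi, Lt.a, Lt.b, Lt.a, Lt.b, Lt.a, Lt.bi, Lt.a, Lt.bi, Lt.a, Lt.b, Lt.a, Lt.b, Lt.a, Lt.bi, Lt.a, Lt.b, Lt.a, Lt.bi, Lt.a, Lt.b, Lt.a, Lt.bi, Lt.a, Lt.b, Lt.a, Lt.bi, Lt.a, Lt.b, Lt.a, Lt.bi,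 Lt.a] (hole_rel hinv hr (by decide +kernel)) h
  · exact lF_good (T := T) (x := Lt.b) (by decide) [Lt.a, Lt.bi, Lt.a, Lt.b, Lt.a, Lt.bi, Lt.a, Lt.b, Lt.a, Lt.bi, Lt.a, Lt.bi, Lt.a, Lt.b, Lt.a, Lt.b, Lt.a, Lt.bi, Lt.a, Lt.bi, Lt.a, Lt.b, Lt.a, Lt.bi, Lt.a, Lt.b, Lt.a, Lt.bi, Lt.a, Lt.b, Lt.a, Lt.bi, Lt.a, Lt.b, Lt.a, Lt.bi, Lt.a, Lt.b, Lt.a, Lt.bi, Lt.a, Lt.b, Lt.a, Lt.bi, Lt.a, Lt.bi, Lt.a, Lt.b, Lt.a, Lt.b, Lt.a, Lt.bi, Lt.a, Lt.bi, Lt.a, Lt.b, Lt.a, Lt.bi, Lt.a, Lt.b, Lt.a, Lt.bi, Lt.a, Lt.b, Lt.a, Lt.bi, Lt.a] (hole_rel hinv hr (by decide +kernel)) h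
theorem dp_b_3_s (hinv : ∀ x, g (inv x) = (g x)⁻¹) (hr : ∀ r ∈ rels, (r.map g).prod = 1) (hH : ∀ r ∈ subs, (r.map g).prod ∈ H)
    (j u : ℕ) (hu : u < M) (h : dp_b_3 j u = true) : Good (fa g) T MG M (cP g H) Lt.b u := by
  unfold dp_b_3 at h
  rcases brec_true h with h | h
  · exact dp_b_1_s hinv hr hH j u hu h
  · exact dp_b_2_s hinv hr hH j u hu h
theorem dp_b_4_s (hinv : ∀ x, g (inv x) = (g x)⁻¹) (hr : ∀ r ∈ rels, (r.map g).prod = 1) (hH : ∀ r ∈ subs, (r.map g).prod ∈ H)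
    (j u : ℕ) (hu : u < M) (h : dp_b_4 j u = true) : Good (fa g) T MG M (cP g H) Lt.b u := by
  unfold dp_b_4 at h
  rcases brec_true h with h | h
  · exact dp_b_0_s hinv hr hH j u hu h
  · exact dp_b_3_s hinv hr hH j u hu h
theorem dp_b_5_s (hinv : ∀ x, g (inv x) = (g x)⁻¹) (hr : ∀ r ∈ rels, (r.map g).prod = 1) (hH : ∀ r ∈ subs, (r.map g).prod ∈ H)
    (j u : ℕ) (hu : u < M) (h : dp_b_5 j u = true) : Good (fa g) T MG M (cP g H) Lt.b u := by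
  unfold dp_b_5 at h
  rcases brec_true h with h | h
  · exact lF_good (T := T) (x := Lt.b) (by decide) [Lt.a, Lt.bi, Lt.a, Lt.b, Lt.a, Lt.bi, Lt.a, Lt.b, Lt.a, Lt.bi, Lt.a, Lt.b, Lt.a, Lt.b, Lt.a, Lt.bi, Lt.a, Lt.bi, Lt.a, Lt.b, Lt.a, Lt.b, Lt.a, Lt.bi, Lt.a, Lt.b, Lt.a, Lt.bi, Lt.a, Lt.b, Lt.a, Lt.bi, Lt.a, Lt.b, Lt.a, Lt.bi, Lt.a, Lt.b, Lt.a, Lt.bi, Lt.a, Lt.b, Lt.a, Lt.bi, Lt.a, Lt.b, Lt.a, Lt.b, Lt.a, Lt.bi, Lt.a, Lt.bi, Lt.a, Lt.b, Lt.a, Lt.b, Lt.a, Lt.bi, Lt.a, Lt.b, Lt.a, Lt.bi, Lt.a, Lt.b, Lt.a, Lt.bi, Lt.a] (hole_rel hinv hr (by decide +kernel)) h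
  · exact lF_good (T := T) (x := Lt.b) (by decide) [Lt.a, Lt.bi, Lt.a, Lt.b, Lt.a, Lt.bi, Lt.a, Lt.b, Lt.a, Lt.bi, Lt.a, Lt.b, Lt.a, Lt.bi, Lt.a, Lt.bi, Lt.a, Lt.b, Lt.a, Lt.b, Lt.a, Lt.bi, Lt.a, Lt.bi, Lt.a, Lt.b, Lt.a, Lt.bi, Lt.a, Lt.b, Lt.a, Lt.bi, Lt.a, Lt.b, Lt.a, Lt.bi, Lt.a, Lt.b, Lt.a, Lt.bi, Lt.a, Lt.b, Lt.a, Lt.bi, Lt.a, Lt.b, Lt.a, Lt.bi, Lt.a, Lt.bi, Lt.a, Lt.b, Lt.a, Lt.b, Lt.a, Lt.bi, Lt.a, Lt.bi, Lt.a, Lt.b, Lt.a, Lt.bi, Lt.a, Lt.b, Lt.a, Lt.bi, Lt.a] (hole_rel hinv hr (by decide +kernel)) h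
theorem dp_b_6_s (hinv : ∀ x, g (inv x) = (g x)⁻¹) (hr : ∀ r ∈ rels, (r.map g).prod = 1) (hH : ∀ r ∈ subs, (r.map g).prod ∈ H)
    (j u : ℕ) (hu : u < M) (h : dp_b_6 j u = true) : Good (fa g) T MG M (cP g H) Lt.b u := by
  unfold dp_b_6 at h
  rcases brec_true h with h | h
  · exact lF_good (T := T) (x := Lt.b) (by decide) [Lt.a, Lt.bi, Lt.a, Lt.b, Lt.a, Lt.bi, Lt.a, Lt.b, Lt.a, Lt.bi, Lt.a, Lt.b, Lt.a, Lt.bi, Lt.a, Lt.b, Lt.a, Lt.bi, Lt.a, Lt.b, Lt.a, Lt.b, Lt.a, Lt.bi, Lt.a, Lt.bi, Lt.a, Lt.b, Lt.a, Lt.b, Lt.a, Lt.bi, Lt.a, Lt.b, Lt.a, Lt.bi, Lt.a, Lt.b, Lt.a, Lt.bi, Lt.a, Lt.b, Lt.a, Lt.bi, Lt.a, Lt.b, Lt.a, Lt.bi, Lt.a, Lt.b, Lt.a, Lt.bi, Lt.a, Lt.b, Lt.a, Lt.b, Lt.a, Lt.bi, Lt.a, Lt.bi, Lt.a, Lt.b, Lt.a, Lt.b, Lt.a, Lt.bi,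 Lt.a] (hole_rel hinv hr (by decide +kernel)) h
  · exact dp_b_5_s hinv hr hH j u hu h
theorem dp_b_7_s (hinv : ∀ x, g (inv x) = (g x)⁻¹) (hr : ∀ r ∈ rels, (r.map g).prod = 1) (hH : ∀ r ∈ subs, (r.map g).prod ∈ H)
    (j u : ℕ) (hu : u < M) (h : dp_b_7 j u = true) : Good (fa g) T MG M (cP g H) Lt.b u := by
  unfold dp_b_7 at h
  rcases brec_true h with h | h
  · exact lF_good (T := T) (x := Lt.b) (by decide) [Lt.a, Lt.b, Lt.a, Lt.bi, Lt.a, Lt.bi, Lt.a, Lt.b, Lt.a, Lt.b, Lt.a, Lt.bi, Lt.a, Lt.b, Lt.a, Lt.bi, Lt.a, Lt.b, Lt.a, Lt.bi, Lt.a, Lt.b, Lt.a, Lt.bi, Lt.a, Lt.b, Lt.a, Lt.bi, Lt.a, Lt.b, Lt.a, Lt.bi, Lt.a, Lt.b, Lt.a, Lt.b, Lt.a, Lt.bi, Lt.a, Lt.bi, Lt.a, Lt.b, Lt.a, Lt.b, Lt.a, Lt.bi, Lt.a, Lt.b, Lt.a, Lt.bi, Lt.a, Lt.b, Lt.a,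 Lt.bi, Lt.a, Lt.b, Lt.a, Lt.bi, Lt.a, Lt.b, Lt.a, Lt.bi, Lt.a, Lt.b, Lt.a, Lt.bi, Lt.a] (hole_rel hinv hr (by decide +kernel)) h
  · exact lF_good (T := T) (x := Lt.b) (by decide) [Lt.a, Lt.bi, Lt.a, Lt.b, Lt.a, Lt.bi, Lt.a, Lt.b, Lt.a, Lt.b, Lt.a, Lt.bi, Lt.a, Lt.bi, Lt.a, Lt.b, Lt.a, Lt.b, Lt.a, Lt.bi, Lt.a, Lt.b, Lt.a, Lt.bi, Lt.a, Lt.b, Lt.a, Lt.bi, Lt.a, Lt.b, Lt.a, Lt.bi, Lt.a, Lt.b, Lt.a, Lt.bi, Lt.a, Lt.b, Lt.a, Lt.bi, Lt.a, Lt.b, Lt.a, Lt.b, Lt.a, Lt.bi, Lt.a, Lt.bi, Lt.a, Lt.b, Lt.a, Lt.b, Lt.a, Lt.bi, Lt.a, Lt.b, Lt.a, Lt.bi, Lt.a, Lt.b, Lt.a, Lt.bi, Lt.a, Lt.b, Lt.a, Lt.bi, Lt.a] (hole_rel hinv hr (by decide +kernel)) h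
theorem dp_b_8_s (hinv : ∀ x, g (inv x) = (g x)⁻¹) (hr : ∀ r ∈ rels, (r.map g).prod = 1) (hH : ∀ r ∈ subs, (r.map g).prod ∈ H)
    (j u : ℕ) (hu : u < M) (h : dp_b_8 j u = true) : Good (fa g) T MG M (cP g H) Lt.b u := by
  unfold dp_b_8 at h
  rcases brec_true h with h | h
  · exact lF_good (T := T) (x := Lt.b) (by decide) [Lt.a, Lt.bi, Lt.a, Lt.b, Lt.a, Lt.bi, Lt.a, Lt.bi, Lt.a, Lt.b, Lt.a, Lt.b, Lt.a, Lt.bi, Lt.a, Lt.bi, Lt.a, Lt.b, Lt.a, Lt.bi, Lt.a, Lt.b, Lt.a, Lt.bi, Lt.a, Lt.b, Lt.a, Lt.bi, Lt.a, Lt.b, Lt.a, Lt.bi, Lt.a, Lt.b, Lt.a, Lt.bi, Lt.a, Lt.b, Lt.a, Lt.bi, Lt.a, Lt.bi, Lt.a, Lt.b, Lt.a, Lt.b, Lt.a, Lt.bi, Lt.a, Lt.bi, Lt.a, Lt.b, Lt.a, Lt.bi, Lt.a, Lt.b, Lt.a, Lt.bi, Lt.a, Lt.b, Lt.a, Lt.bi, Lt.a, Lt.b, Lt.a, Lt.bi,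 Lt.a] (hole_rel hinv hr (by decide +kernel)) h
  · exact dp_b_7_s hinv hr hH j u hu h
theorem dp_b_9_s (hinv : ∀ x, g (inv x) = (g x)⁻¹) (hr : ∀ r ∈ rels, (r.map g).prod = 1) (hH : ∀ r ∈ subs, (r.map g).prod ∈ H)
    (j u : ℕ) (hu : u < M) (h : dp_b_9 j u = true) : Good (fa g) T MG M (cP g H) Lt.b u := by
  unfold dp_b_9 at h
  rcases brec_true h with h | h
  · exact dp_b_6_s hinv hr hH j u hu h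
  · exact dp_b_8_s hinv hr hH j u hu h
theorem dp_b_10_s (hinv : ∀ x, g (inv x) = (g x)⁻¹) (hr : ∀ r ∈ rels, (r.map g).prod = 1) (hH : ∀ r ∈ subs, (r.map g).prod ∈ H)
    (j u : ℕ) (hu : u < M) (h : dp_b_10 j u = true) : Good (fa g) T MG M (cP g H) Lt.b u := by
  unfold dp_b_10 at h
  rcases brec_true h with h | h
  · exact lS_good (T := T) (x := Lt.b) (by decide) hu [Lt.a, Lt.bi, Lt.a, Lt.b, Lt.a, Lt.bi, Lt.a, Lt.b, Lt.a, Lt.bi, Lt.a, Lt.b, Lt.a, Lt.bi, Lt.a, Lt.b, Lt.a, Lt.bi, Lt.a, Lt.b, Lt.a, Lt.b, Lt.a, Lt.bi, Lt.a, Lt.bi, Lt.a, Lt.b, Lt.a, Lt.b, Lt.a, Lt.bi, Lt.a, Lt.b, Lt.a, Lt.bi, Lt.a, Lt.b, Lt.a, Lt.bi, Lt.a, Lt.b, Lt.a, Lt.bi, Lt.a, Lt.b, Lt.a, Lt.bi, Lt.a, Lt.b, Lt.a, Lt.bi, Lt.a, Lt.b, Lt.a, Lt.b, Lt.a, Lt.bi, Lt.a,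 Lt.bi, Lt.a, Lt.b, Lt.a, Lt.b, Lt.a, Lt.bi, Lt.a] (hole_rel hinv hr (by decide +kernel)) h
  · exact lF_good (T := T) (x := Lt.b) (by decide) [Lt.a, Lt.bi, Lt.a, Lt.b, Lt.a, Lt.bi, Lt.a, Lt.b, Lt.a, Lt.bi, Lt.a, Lt.b, Lt.a, Lt.bi, Lt.a, Lt.b, Lt.a, Lt.bi, Lt.a, Lt.b, Lt.a, Lt.bi, Lt.a, Lt.b, Lt.a, Lt.b, Lt.a, Lt.bi, Lt.a, Lt.bi, Lt.a, Lt.b, Lt.a, Lt.b, Lt.a, Lt.bi, Lt.a, Lt.b, Lt.a, Lt.bi, Lt.a, Lt.b, Lt.a, Lt.bi, Lt.a, Lt.b, Lt.a, Lt.bi, Lt.a, Lt.b, Lt.a, Lt.bi, Lt.a, Lt.b, Lt.a, Lt.bi, Lt.a, Lt.b, Lt.a, Lt.b, Lt.a, Lt.bi, Lt.a, Lt.bi, Lt.a, Lt.b, Lt.a] (hole_rel hinv hr (by decide +kernel)) h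
theorem dp_b_11_s (hinv : ∀ x, g (inv x) = (g x)⁻¹) (hr : ∀ r ∈ rels, (r.map g).prod = 1) (hH : ∀ r ∈ subs, (r.map g).prod ∈ H)
    (j u : ℕ) (hu : u < M) (h : dp_b_11 j u = true) : Good (fa g) T MG M (cP g H) Lt.b u := by
  unfold dp_b_11 at h
  rcases brec_true h with h | h
  · exact lF_good (T := T) (x := Lt.b) (by decide) [Lt.a, Lt.bi, Lt.a, Lt.bi, Lt.a, Lt.b, Lt.a, Lt.b, Lt.a, Lt.bi, Lt.a, Lt.bi, Lt.a, Lt.b, Lt.a, Lt.bi, Lt.a, Lt.b, Lt.a, Lt.bi, Lt.a, Lt.b, Lt.a, Lt.bi, Lt.a, Lt.b, Lt.a, Lt.bi, Lt.a, Lt.b, Lt.a, Lt.bi, Lt.a, Lt.b, Lt.a, Lt.bi, Lt.a, Lt.bi, Lt.a, Lt.b, Lt.a, Lt.b, Lt.a, Lt.bi, Lt.a, Lt.bi, Lt.a, Lt.b, Lt.a, Lt.bi, Lt.a, Lt.b, Lt.a, Lt.bi, Lt.a, Lt.b, Lt.a, Lt.bi, Lt.a, Lt.b, Lt.a, Lt.bi, Lt.a, Lt.b, Lt.a, Lt.bi,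 Lt.a] (hole_rel hinv hr (by decide +kernel)) h
  · exact lF_good (T := T) (x := Lt.b) (by decide) [Lt.a, Lt.bi, Lt.a, Lt.b, Lt.a, Lt.bi, Lt.a, Lt.b, Lt.a, Lt.bi, Lt.a, Lt.b, Lt.a, Lt.bi, Lt.a, Lt.b, Lt.a, Lt.bi, Lt.a, Lt.b, Lt.a, Lt.bi, Lt.a, Lt.bi, Lt.a, Lt.b, Lt.a, Lt.b, Lt.a, Lt.bi, Lt.a, Lt.bi, Lt.a, Lt.b, Lt.a, Lt.bi, Lt.a, Lt.b, Lt.a, Lt.bi, Lt.a, Lt.b, Lt.a, Lt.bi, Lt.a, Lt.b, Lt.a, Lt.bi, Lt.a, Lt.b, Lt.a, Lt.bi, Lt.a, Lt.b, Lt.a, Lt.bi, Lt.a, Lt.bi, Lt.a, Lt.b, Lt.a, Lt.b, Lt.a, Lt.bi, Lt.a, Lt.bi, Lt.a] (hole_rel hinv hr (by decide +kernel)) h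
theorem dp_b_12_s (hinv : ∀ x, g (inv x) = (g x)⁻¹) (hr : ∀ r ∈ rels, (r.map g).prod = 1) (hH : ∀ r ∈ subs, (r.map g).prod ∈ H)
    (j u : ℕ) (hu : u < M) (h : dp_b_12 j u = true) : Good (fa g) T MG M (cP g H) Lt.b u := by
  unfold dp_b_12 at h
  rcases brec_true h with h | h
  · exact lF_good (T := T) (x := Lt.b) (by decide) [Lt.a, Lt.b, Lt.a, Lt.bi, Lt.a, Lt.bi, Lt.a, Lt.b, Lt.a, Lt.bi, Lt.a, Lt.b, Lt.a, Lt.bi, Lt.a, Lt.b, Lt.a, Lt.bi, Lt.a, Lt.b, Lt.a, Lt.bi, Lt.a, Lt.b, Lt.a, Lt.bi, Lt.a, Lt.b, Lt.a, Lt.bi, Lt.a, Lt.bi, Lt.a, Lt.b, Lt.a, Lt.b, Lt.a, Lt.bi, Lt.a, Lt.bi, Lt.a, Lt.b, Lt.a, Lt.bi, Lt.a, Lt.b, Lt.a, Lt.bi, Lt.a, Lt.b, Lt.a, Lt.bi, Lt.a, Lt.b, Lt.a, Lt.bi, Lt.a, Lt.b, Lt.a, Lt.bi, Lt.a, Lt.b, Lt.a, Lt.bi, Lt.a, Lt.bi,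 Lt.a] (hole_rel hinv hr (by decide +kernel)) h
  · exact dp_b_11_s hinv hr hH j u hu h
theorem dp_b_13_s (hinv : ∀ x, g (inv x) = (g x)⁻¹) (hr : ∀ r ∈ rels, (r.map g).prod = 1) (hH : ∀ r ∈ subs, (r.map g).prod ∈ H)
    (j u : ℕ) (hu : u < M) (h : dp_b_13 j u = true) : Good (fa g) T MG M (cP g H) Lt.b u := by
  unfold dp_b_13 at h
  rcases brec_true h with h | h
  · exact dp_b_10_s hinv hr hH j u hu h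
  · exact dp_b_12_s hinv hr hH j u hu h
theorem dp_b_14_s (hinv : ∀ x, g (inv x) = (g x)⁻¹) (hr : ∀ r ∈ rels, (r.map g).prod = 1) (hH : ∀ r ∈ subs, (r.map g).prod ∈ H)
    (j u : ℕ) (hu : u < M) (h : dp_b_14 j u = true) : Good (fa g) T MG M (cP g H) Lt.b u := by
  unfold dp_b_14 at h
  rcases brec_true h with h | h
  · exact lS_good (T := T) (x := Lt.b) (by decide) hu [Lt.a, Lt.bi, Lt.a, Lt.b, Lt.a, Lt.b, Lt.a, Lt.bi, Lt.a, Lt.bi, Lt.a, Lt.b, Lt.a, Lt.b, Lt.a, Lt.bi, Lt.a, Lt.b, Lt.a, Lt.bi, Lt.a, Lt.b, Lt.a, Lt.bi, Lt.a, Lt.b, Lt.a, Lt.bi, Lt.a, Lt.b, Lt.a, Lt.bi, Lt.a, Lt.b, Lt.a, Lt.bi, Lt.a, Lt.b, Lt.a, Lt.b, Lt.a, Lt.bi, Lt.a, Lt.bi, Lt.a, Lt.b, Lt.a, Lt.b, Lt.a, Lt.bi, Lt.a, Lt.b, Lt.a, Lt.bi, Lt.a, Lt.b, Lt.a, Lt.bi, Lt.a,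 Lt.b, Lt.a, Lt.bi, Lt.a, Lt.b, Lt.a, Lt.bi, Lt.a] (hole_rel hinv hr (by decide +kernel)) h
  · exact lS_good (T := T) (x := Lt.b) (by decide) hu [Lt.a, Lt.bi, Lt.a, Lt.b, Lt.a, Lt.bi, Lt.a, Lt.b, Lt.a, Lt.bi, Lt.a, Lt.bi, Lt.a, Lt.b, Lt.a, Lt.b, Lt.a, Lt.bi, Lt.a, Lt.bi, Lt.a, Lt.b, Lt.a, Lt.bi, Lt.a, Lt.b, Lt.a, Lt.bi, Lt.a, Lt.b, Lt.a, Lt.bi, Lt.a, Lt.b, Lt.a, Lt.bi, Lt.a, Lt.b, Lt.a, Lt.bi, Lt.a, Lt.b, Lt.a, Lt.bi, Lt.a, Lt.bi, Lt.a, Lt.b, Lt.a, Lt.b, Lt.a, Lt.bi, Lt.a, Lt.bi, Lt.a, Lt.b, Lt.a, Lt.bi, Lt.a, Lt.b, Lt.a, Lt.bi, Lt.a, Lt.b, Lt.a, Lt.bi, Lt.a] (hole_rel hinv hr (by decide +kernel)) h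
theorem dp_b_15_s (hinv : ∀ x, g (inv x) = (g x)⁻¹) (hr : ∀ r ∈ rels, (r.map g).prod = 1) (hH : ∀ r ∈ subs, (r.map g).prod ∈ H)
    (j u : ℕ) (hu : u < M) (h : dp_b_15 j u = true) : Good (fa g) T MG M (cP g H) Lt.b u := by
  unfold dp_b_15 at h
  rcases brec_true h with h | h
  · exact lS_good (T := T) (x := Lt.b) (by decide) hu [Lt.a, Lt.bi, Lt.a, Lt.b, Lt.a, Lt.bi, Lt.a, Lt.b, Lt.a, Lt.bi, Lt.a, Lt.b, Lt.a, Lt.bi, Lt.a, Lt.b, Lt.a, Lt.bi, Lt.a, Lt.bi, Lt.a, Lt.b, Lt.a, Lt.b, Lt.a, Lt.bi, Lt.a, Lt.bi, Lt.a, Lt.b, Lt.a, Lt.bi, Lt.a, Lt.b, Lt.a, Lt.bi, Lt.a, Lt.b, Lt.a, Lt.bi, Lt.a, Lt.b, Lt.a, Lt.bi, Lt.a, Lt.b, Lt.a, Lt.bi, Lt.a, Lt.b, Lt.a, Lt.bi, Lt.a, Lt.bi, Lt.a, Lt.b, Lt.a, Lt.b, Lt.a, Lt.bi, Lt.a, Lt.bi, Lt.a, Lt.b, Lt.a,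 Lt.bi, Lt.a] (hole_rel hinv hr (by decide +kernel)) h
  · exact lF_good (T := T) (x := Lt.b) (by decide) [Lt.a, Lt.b, Lt.a, Lt.bi, Lt.a, Lt.b, Lt.a, Lt.bi, Lt.a, Lt.b, Lt.a, Lt.bi, Lt.a, Lt.b, Lt.a, Lt.bi, Lt.a, Lt.b, Lt.a, Lt.bi, Lt.a, Lt.b, Lt.a, Lt.bi, Lt.a, Lt.b, Lt.a, Lt.b, Lt.a, Lt.bi, Lt.a, Lt.bi, Lt.a, Lt.b, Lt.a, Lt.b, Lt.a, Lt.bi, Lt.a, Lt.b, Lt.a, Lt.bi, Lt.a, Lt.b, Lt.a, Lt.bi, Lt.a, Lt.b, Lt.a, Lt.bi, Lt.a, Lt.b, Lt.a, Lt.bi, Lt.a, Lt.b, Lt.a, Lt.bi, Lt.a, Lt.b, Lt.a, Lt.b, Lt.a, Lt.bi, Lt.a, Lt.bi, Lt.a] (hole_rel hinv hr (by decide +kernel)) h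
theorem dp_b_16_s (hinv : ∀ x, g (inv x) = (g x)⁻¹) (hr : ∀ r ∈ rels, (r.map g).prod = 1) (hH : ∀ r ∈ subs, (r.map g).prod ∈ H)
    (j u : ℕ) (hu : u < M) (h : dp_b_16 j u = true) : Good (fa g) T MG M (cP g H) Lt.b u := by
  unfold dp_b_16 at h
  rcases brec_true h with h | h
  · exact lF_good (T := T) (x := Lt.b) (by decide) [Lt.a, Lt.bi, Lt.a, Lt.bi, Lt.a, Lt.b, Lt.a, Lt.bi, Lt.a, Lt.b, Lt.a, Lt.bi, Lt.a, Lt.b, Lt.a, Lt.bi, Lt.a, Lt.b, Lt.a, Lt.bi, Lt.a, Lt.b, Lt.a, Lt.bi, Lt.a, Lt.b, Lt.a, Lt.bi, Lt.a, Lt.bi, Lt.a, Lt.b, Lt.a, Lt.b, Lt.a, Lt.bi, Lt.a, Lt.bi, Lt.a, Lt.b, Lt.a, Lt.bi, Lt.a, Lt.b, Lt.a, Lt.bi, Lt.a, Lt.b, Lt.a, Lt.bi, Lt.a, Lt.b, Lt.a, Lt.bi, Lt.a, Lt.b, Lt.a, Lt.bi, Lt.a, Lt.b, Lt.a, Lt.bi, Lt.a, Lt.bi, Lt.a,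 Lt.b, Lt.a] (hole_rel hinv hr (by decide +kernel)) h
  · exact dp_b_15_s hinv hr hH j u hu h
theorem dp_b_17_s (hinv : ∀ x, g (inv x) = (g x)⁻¹) (hr : ∀ r ∈ rels, (r.map g).prod = 1) (hH : ∀ r ∈ subs, (r.map g).prod ∈ H)
    (j u : ℕ) (hu : u < M) (h : dp_b_17 j u = true) : Good (fa g) T MG M (cP g H) Lt.b u := by
  unfold dp_b_17 at h
  rcases brec_true h with h | h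
  · exact dp_b_14_s hinv hr hH j u hu h
  · exact dp_b_16_s hinv hr hH j u hu h
theorem dp_b_18_s (hinv : ∀ x, g (inv x) = (g x)⁻¹) (hr : ∀ r ∈ rels, (r.map g).prod = 1) (hH : ∀ r ∈ subs, (r.map g).prod ∈ H)
    (j u : ℕ) (hu : u < M) (h : dp_b_18 j u = true) : Good (fa g) T MG M (cP g H) Lt.b u := by
  unfold dp_b_18 at h
  rcases brec_true h with h | h
  · exact lH_good (T := T) (x := Lt.b) (by decide) [Lt.a] [] (by rw [show cP g H 0 = _ from cc_zero]; exact sub_rel hinv (hH _ (by decide))) h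
  · exact lF_good (T := T) (x := Lt.b) (by decide) [Lt.a, Lt.bi, Lt.a, Lt.b, Lt.a, Lt.bi, Lt.a, Lt.bi, Lt.a, Lt.b, Lt.a, Lt.bi, Lt.a, Lt.b, Lt.a, Lt.bi, Lt.a, Lt.b, Lt.a, Lt.bi, Lt.a, Lt.bi, Lt.a, Lt.b, Lt.a, Lt.bi, Lt.a, Lt.b, Lt.a, Lt.bi, Lt.a, Lt.b, Lt.a, Lt.bi, Lt.a, Lt.bi, Lt.a, Lt.b, Lt.a, Lt.bi, Lt.a, Lt.b, Lt.a, Lt.bi, Lt.a, Lt.b, Lt.a, Lt.bi, Lt.a, Lt.bi, Lt.a, Lt.b, Lt.a, Lt.bi, Lt.a, Lt.b, Lt.a, Lt.bi, Lt.a, Lt.b, Lt.a, Lt.bi, Lt.a, Lt.bi, Lt.a, Lt.b, Lt.a, Lt.bi, Lt.a] (hole_rel hinv hr (by decide +kernel)) h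
theorem dp_b_19_s (hinv : ∀ x, g (inv x) = (g x)⁻¹) (hr : ∀ r ∈ rels, (r.map g).prod = 1) (hH : ∀ r ∈ subs, (r.map g).prod ∈ H)
    (j u : ℕ) (hu : u < M) (h : dp_b_19 j u = true) : Good (fa g) T MG M (cP g H) Lt.b u := by
  unfold dp_b_19 at h
  rcases brec_true h with h | h
  · exact lS_good (T := T) (x := Lt.b) (by decide) hu [Lt.a, Lt.bi, Lt.a, Lt.b, Lt.a, Lt.bi, Lt.a, Lt.b, Lt.a, Lt.b, Lt.a, Lt.bi, Lt.a, Lt.bi, Lt.a, Lt.b, Lt.a, Lt.b, Lt.a, Lt.bi, Lt.a, Lt.b, Lt.a, Lt.bi, Lt.a, Lt.b, Lt.a, Lt.bi, Lt.a, Lt.b, Lt.a, Lt.bi, Lt.a, Lt.b, Lt.a, Lt.bi, Lt.a, Lt.b, Lt.a, Lt.bi, Lt.a, Lt.b, Lt.a, Lt.b, Lt.a, Lt.bi, Lt.a, Lt.bi, Lt.a, Lt.b, Lt.a, Lt.b, Lt.a, Lt.bi, Lt.a, Lt.b, Lt.a, Lt.bi, Lt.a, Lt.b, Lt.a, Lt.bi, Lt.a, Lt.b, Lt.a,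 Lt.bi, Lt.a] (hole_rel hinv hr (by decide +kernel)) h
  · exact dp_b_18_s hinv hr hH j u hu h
theorem dp_b_20_s (hinv : ∀ x, g (inv x) = (g x)⁻¹) (hr : ∀ r ∈ rels, (r.map g).prod = 1) (hH : ∀ r ∈ subs, (r.map g).prod ∈ H)
    (j u : ℕ) (hu : u < M) (h : dp_b_20 j u = true) : Good (fa g) T MG M (cP g H) Lt.b u := by
  unfold dp_b_20 at h
  rcases brec_true h with h | h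
  · exact lS_good (T := T) (x := Lt.b) (by decide) hu [Lt.a, Lt.bi, Lt.a, Lt.b, Lt.a, Lt.bi, Lt.a, Lt.b, Lt.a, Lt.bi, Lt.a, Lt.b, Lt.a, Lt.bi, Lt.a, Lt.b, Lt.a, Lt.bi, Lt.a, Lt.b, Lt.a, Lt.bi, Lt.a, Lt.bi, Lt.a, Lt.b, Lt.a, Lt.b, Lt.a, Lt.bi, Lt.a, Lt.bi, Lt.a, Lt.b, Lt.a, Lt.bi, Lt.a, Lt.b, Lt.a, Lt.bi, Lt.a, Lt.b, Lt.a, Lt.bi, Lt.a, Lt.b, Lt.a, Lt.bi, Lt.a, Lt.b, Lt.a, Lt.bi, Lt.a, Lt.b, Lt.a, Lt.bi, Lt.a, Lt.bi, Lt.a, Lt.b, Lt.a, Lt.b, Lt.a, Lt.bi, Lt.a, Lt.bi, Lt.a] (hole_rel hinv hr (by decide +kernel)) h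
  · exact dp_b_19_s hinv hr hH j u hu h
theorem dp_b_21_s (hinv : ∀ x, g (inv x) = (g x)⁻¹) (hr : ∀ r ∈ rels, (r.map g).prod = 1) (hH : ∀ r ∈ subs, (r.map g).prod ∈ H)
    (j u : ℕ) (hu : u < M) (h : dp_b_21 j u = true) : Good (fa g) T MG M (cP g H) Lt.b u := by
  unfold dp_b_21 at h
  rcases brec_true h with h | h
  · exact lS_good (T := T) (x := Lt.b) (by decide) hu [Lt.a, Lt.bi, Lt.a, Lt.b, Lt.a, Lt.bi, Lt.a, Lt.b, Lt.a, Lt.bi, Lt.a, Lt.b, Lt.a, Lt.bi, Lt.a, Lt.b, Lt.a, Lt.bi, Lt.a, Lt.b, Lt.a, Lt.bi, Lt.a, Lt.b, Lt.a, Lt.b, Lt.a, Lt.bi, Lt.a, Lt.bi, Lt.a, Lt.b, Lt.a, Lt.b, Lt.a, Lt.bi, Lt.a, Lt.b, Lt.a, Lt.bi, Lt.a, Lt.b, Lt.a, Lt.bi, Lt.a, Lt.b, Lt.a, Lt.bi, Lt.a, Lt.b, Lt.a, Lt.bi, Lt.a, Lt.b, Lt.a, Lt.bi, Lt.a, Lt.b, Lt.a,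 Lt.b, Lt.a, Lt.bi, Lt.a, Lt.bi, Lt.a, Lt.b, Lt.a] (hole_rel hinv hr (by decide +kernel)) h
  · exact lS_good (T := T) (x := Lt.b) (by decide) hu [Lt.a, Lt.bi, Lt.a, Lt.bi, Lt.a, Lt.b, Lt.a, Lt.bi, Lt.a, Lt.b, Lt.a, Lt.bi, Lt.a, Lt.b, Lt.a, Lt.bi, Lt.a, Lt.b, Lt.a, Lt.bi, Lt.a, Lt.b, Lt.a, Lt.bi, Lt.a, Lt.b, Lt.a, Lt.bi, Lt.a, Lt.bi, Lt.a, Lt.b, Lt.a, Lt.b, Lt.a, Lt.bi, Lt.a, Lt.bi, Lt.a, Lt.b, Lt.a, Lt.bi, Lt.a, Lt.b, Lt.a, Lt.bi, Lt.a, Lt.b, Lt.a, Lt.bi, Lt.a, Lt.b, Lt.a, Lt.bi, Lt.a, Lt.b, Lt.a, Lt.bi, Lt.a, Lt.b, Lt.a, Lt.bi, Lt.a, Lt.bi, Lt.a, Lt.b, Lt.a] (hole_rel hinv hr (by decide +kernel)) h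
theorem dp_b_22_s (hinv : ∀ x, g (inv x) = (g x)⁻¹) (hr : ∀ r ∈ rels, (r.map g).prod = 1) (hH : ∀ r ∈ subs, (r.map g).prod ∈ H)
    (j u : ℕ) (hu : u < M) (h : dp_b_22 j u = true) : Good (fa g) T MG M (cP g H) Lt.b u := by
  unfold dp_b_22 at h
  rcases brec_true h with h | h
  · exact lS_good (T := T) (x := Lt.b) (by decide) hu [Lt.a, Lt.b, Lt.a, Lt.bi, Lt.a, Lt.bi, Lt.a, Lt.b, Lt.a, Lt.bi, Lt.a, Lt.b, Lt.a, Lt.bi, Lt.a, Lt.b, Lt.a, Lt.bi, Lt.a, Lt.b, Lt.a, Lt.bi, Lt.a, Lt.b, Lt.a, Lt.bi, Lt.a, Lt.b, Lt.a, Lt.bi, Lt.a, Lt.bi, Lt.a, Lt.b, Lt.a, Lt.b, Lt.a, Lt.bi, Lt.a, Lt.bi, Lt.a, Lt.b, Lt.a, Lt.bi, Lt.a, Lt.b, Lt.a, Lt.bi, Lt.a, Lt.b, Lt.a, Lt.bi, Lt.a, Lt.b, Lt.a, Lt.bi, Lt.a, Lt.b, Lt.a, Lt.bi, Lt.a, Lt.b, Lt.a, Lt.bi, Lt.a,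 Lt.bi, Lt.a] (hole_rel hinv hr (by decide +kernel)) h
  · exact dp_b_21_s hinv hr hH j u hu h
theorem dp_b_23_s (hinv : ∀ x, g (inv x) = (g x)⁻¹) (hr : ∀ r ∈ rels, (r.map g).prod = 1) (hH : ∀ r ∈ subs, (r.map g).prod ∈ H)
    (j u : ℕ) (hu : u < M) (h : dp_b_23 j u = true) : Good (fa g) T MG M (cP g H) Lt.b u := by
  unfold dp_b_23 at h
  rcases brec_true h with h | h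
  · exact lS_good (T := T) (x := Lt.b) (by decide) hu [Lt.a, Lt.bi, Lt.a, Lt.bi, Lt.a, Lt.b, Lt.a, Lt.b, Lt.a, Lt.bi, Lt.a, Lt.bi, Lt.a, Lt.b, Lt.a, Lt.bi, Lt.a, Lt.b, Lt.a, Lt.bi, Lt.a, Lt.b, Lt.a, Lt.bi, Lt.a, Lt.b, Lt.a, Lt.bi, Lt.a, Lt.b, Lt.a, Lt.bi, Lt.a, Lt.b, Lt.a, Lt.bi, Lt.a, Lt.bi, Lt.a, Lt.b, Lt.a, Lt.b, Lt.a, Lt.bi, Lt.a, Lt.bi, Lt.a, Lt.b, Lt.a, Lt.bi, Lt.a, Lt.b, Lt.a, Lt.bi, Lt.a, Lt.b, Lt.a, Lt.bi, Lt.a, Lt.b, Lt.a, Lt.bi, Lt.a, Lt.b, Lt.a, Lt.bi, Lt.a] (hole_rel hinv hr (by decide +kernel)) h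
  · exact lS_good (T := T) (x := Lt.b) (by decide) hu [Lt.a, Lt.bi, Lt.a, Lt.bi, Lt.a, Lt.b, Lt.a, Lt.b, Lt.a, Lt.bi, Lt.a, Lt.b, Lt.a, Lt.bi, Lt.a, Lt.b, Lt.a, Lt.bi, Lt.a, Lt.b, Lt.a, Lt.bi, Lt.a, Lt.b, Lt.a, Lt.bi, Lt.a, Lt.b, Lt.a, Lt.bi, Lt.a, Lt.b, Lt.a, Lt.b, Lt.a, Lt.bi, Lt.a, Lt.bi, Lt.a, Lt.b, Lt.a, Lt.b, Lt.a, Lt.bi, Lt.a, Lt.b, Lt.a, Lt.bi, Lt.a, Lt.b, Lt.a, Lt.bi, Lt.a, Lt.b, Lt.a, Lt.bi, Lt.a, Lt.b, Lt.a, Lt.bi, Lt.a, Lt.b, Lt.a, Lt.bi, Lt.a, Lt.b, Lt.a] (hole_rel hinv hr (by decide +kernel)) h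
theorem dp_b_24_s (hinv : ∀ x, g (inv x) = (g x)⁻¹) (hr : ∀ r ∈ rels, (r.map g).prod = 1) (hH : ∀ r ∈ subs, (r.map g).prod ∈ H)
    (j u : ℕ) (hu : u < M) (h : dp_b_24 j u = true) : Good (fa g) T MG M (cP g H) Lt.b u := by
  unfold dp_b_24 at h
  rcases brec_true h with h | h
  · exact lS_good (T := T) (x := Lt.b) (by decide) hu [Lt.a, Lt.b, Lt.a, Lt.bi, Lt.a, Lt.b, Lt.a, Lt.bi, Lt.a, Lt.b, Lt.a, Lt.bi, Lt.a, Lt.b, Lt.a, Lt.bi, Lt.a, Lt.b, Lt.a, Lt.bi, Lt.a, Lt.b, Lt.a, Lt.bi, Lt.a, Lt.b, Lt.a, Lt.b, Lt.a, Lt.bi, Lt.a, Lt.bi, Lt.a, Lt.b, Lt.a, Lt.b, Lt.a, Lt.bi, Lt.a, Lt.b, Lt.a, Lt.bi, Lt.a, Lt.b, Lt.a, Lt.bi, Lt.a, Lt.b, Lt.a, Lt.bi, Lt.a, Lt.b, Lt.a, Lt.bi, Lt.a, Lt.b, Lt.a, Lt.bi, Lt.a, Lt.b, Lt.a, Lt.b, Lt.a, Lt.bi, Lt.a,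 Lt.bi, Lt.a] (hole_rel hinv hr (by decide +kernel)) h
  · exact lS_good (T := T) (x := Lt.b) (by decide) hu [Lt.a, Lt.bi, Lt.a, Lt.b, Lt.a, Lt.bi, Lt.a, Lt.bi, Lt.a, Lt.b, Lt.a, Lt.b, Lt.a, Lt.bi, Lt.a, Lt.bi, Lt.a, Lt.b, Lt.a, Lt.bi, Lt.a, Lt.b, Lt.a, Lt.bi, Lt.a, Lt.b, Lt.a, Lt.bi, Lt.a, Lt.b, Lt.a, Lt.bi, Lt.a, Lt.b, Lt.a, Lt.bi, Lt.a, Lt.b, Lt.a, Lt.bi, Lt.a, Lt.bi, Lt.a, Lt.b, Lt.a, Lt.b, Lt.a, Lt.bi, Lt.a, Lt.bi, Lt.a, Lt.b, Lt.a, Lt.bi, Lt.a, Lt.b, Lt.a, Lt.bi, Lt.a, Lt.b, Lt.a, Lt.bi, Lt.a, Lt.b, Lt.a, Lt.bi, Lt.a] (hole_rel hinv hr (by decide +kernel)) h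
theorem dp_b_25_s (hinv : ∀ x, g (inv x) = (g x)⁻¹) (hr : ∀ r ∈ rels, (r.map g).prod = 1) (hH : ∀ r ∈ subs, (r.map g).prod ∈ H)
    (j u : ℕ) (hu : u < M) (h : dp_b_25 j u = true) : Good (fa g) T MG M (cP g H) Lt.b u := by
  unfold dp_b_25 at h
  rcases brec_true h with h | h
  · exact dp_b_23_s hinv hr hH j u hu h
  · exact dp_b_24_s hinv hr hH j u hu h
theorem dp_b_26_s (hinv : ∀ x, g (inv x) = (g x)⁻¹) (hr : ∀ r ∈ rels, (r.map g).prod = 1) (hH : ∀ r ∈ subs, (r.map g).prod ∈ H)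
    (j u : ℕ) (hu : u < M) (h : dp_b_26 j u = true) : Good (fa g) T MG M (cP g H) Lt.b u := by
  unfold dp_b_26 at h
  rcases brec_true h with h | h
  · exact dp_b_22_s hinv hr hH j u hu h
  · exact dp_b_25_s hinv hr hH j u hu h
theorem dp_b_27_s (hinv : ∀ x, g (inv x) = (g x)⁻¹) (hr : ∀ r ∈ rels, (r.map g).prod = 1) (hH : ∀ r ∈ subs, (r.map g).prod ∈ H)
    (j u : ℕ) (hu : u < M) (h : dp_b_27 j u = true) : Good (fa g) T MG M (cP g H) Lt.b u := by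
  unfold dp_b_27 at h
  rcases brec_true h with h | h
  · exact dp_b_20_s hinv hr hH j u hu h
  · exact dp_b_26_s hinv hr hH j u hu h
theorem dp_b_28_s (hinv : ∀ x, g (inv x) = (g x)⁻¹) (hr : ∀ r ∈ rels, (r.map g).prod = 1) (hH : ∀ r ∈ subs, (r.map g).prod ∈ H)
    (j u : ℕ) (hu : u < M) (h : dp_b_28 j u = true) : Good (fa g) T MG M (cP g H) Lt.b u := by
  unfold dp_b_28 at h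
  rcases brec_true h with h | h
  · exact dp_b_17_s hinv hr hH j u hu h
  · exact dp_b_27_s hinv hr hH j u hu h
theorem dp_b_29_s (hinv : ∀ x, g (inv x) = (g x)⁻¹) (hr : ∀ r ∈ rels, (r.map g).prod = 1) (hH : ∀ r ∈ subs, (r.map g).prod ∈ H)
    (j u : ℕ) (hu : u < M) (h : dp_b_29 j u = true) : Good (fa g) T MG M (cP g H) Lt.b u := by
  unfold dp_b_29 at h
  rcases brec_true h with h | h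
  · exact dp_b_13_s hinv hr hH j u hu h
  · exact dp_b_28_s hinv hr hH j u hu h
theorem dp_b_30_s (hinv : ∀ x, g (inv x) = (g x)⁻¹) (hr : ∀ r ∈ rels, (r.map g).prod = 1) (hH : ∀ r ∈ subs, (r.map g).prod ∈ H)
    (j u : ℕ) (hu : u < M) (h : dp_b_30 j u = true) : Good (fa g) T MG M (cP g H) Lt.b u := by
  unfold dp_b_30 at h
  rcases brec_true h with h | h
  · exact dp_b_9_s hinv hr hH j u hu h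
  · exact dp_b_29_s hinv hr hH j u hu h
theorem dp_b_31_s (hinv : ∀ x, g (inv x) = (g x)⁻¹) (hr : ∀ r ∈ rels, (r.map g).prod = 1) (hH : ∀ r ∈ subs, (r.map g).prod ∈ H)
    (j u : ℕ) (hu : u < M) (h : dp_b_31 j u = true) : Good (fa g) T MG M (cP g H) Lt.b u := by
  unfold dp_b_31 at h
  rcases brec_true h with h | h
  · exact dp_b_4_s hinv hr hH j u hu h
  · exact dp_b_30_s hinv hr hH j u hu h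
theorem dp_b_32_s (hinv : ∀ x, g (inv x) = (g x)⁻¹) (hr : ∀ r ∈ rels, (r.map g).prod = 1) (hH : ∀ r ∈ subs, (r.map g).prod ∈ H)
    (j u : ℕ) (hu : u < M) (h : dp_b_32 j u = true) : Good (fa g) T MG M (cP g H) Lt.b u := by
  unfold dp_b_32 at h
  rcases brec_true h with h | h
  · exact lF_good (T := T) (x := Lt.b) (by decide) [Lt.a, Lt.b, Lt.a, Lt.b, Lt.a, Lt.b, Lt.a, Lt.b, Lt.a, Lt.b, Lt.a, Lt.b, Lt.a] (hole_rel hinv hr (by decide +kernel)) h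
  · exact dp_b_31_s hinv hr hH j u hu h
theorem dp_b_33_s (hinv : ∀ x, g (inv x) = (g x)⁻¹) (hr : ∀ r ∈ rels, (r.map g).prod = 1) (hH : ∀ r ∈ subs, (r.map g).prod ∈ H)
    (j u : ℕ) (hu : u < M) (h : dp_b_33 j u = true) : Good (fa g) T MG M (cP g H) Lt.b u := by
  unfold dp_b_33 at h
  rcases brec_true h with h | h
  · exact lF1_good (T := T) (x := Lt.b) (by decide) .bi (hole_rel hinv hr (by decide +kernel)) h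
  · exact dp_b_32_s hinv hr hH j u hu h
theorem dp_b_34_s (hinv : ∀ x, g (inv x) = (g x)⁻¹) (hr : ∀ r ∈ rels, (r.map g).prod = 1) (hH : ∀ r ∈ subs, (r.map g).prod ∈ H)
    (j u : ℕ) (hu : u < M) (h : dp_b_34 j u = true) : Good (fa g) T MG M (cP g H) Lt.b u := by
  unfold dp_b_34 at h
  rcases brec_true h with h | h
  · exact lPar_good (T := T) (x := Lt.b) (x' := Lt.bi) (by decide) rfl (inv_rel hinv _ _ rfl) h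
  · exact dp_b_33_s hinv hr hH j u hu h
theorem snd_b (hinv : ∀ x, g (inv x) = (g x)⁻¹) (hr : ∀ r ∈ rels, (r.map g).prod = 1) (hH : ∀ r ∈ subs, (r.map g).prod ∈ H)
    (j u : ℕ) (hu : u < M) (h : disp_b j u = true) : Good (fa g) T MG M (cP g H) Lt.b u := by
  unfold disp_b at h
  rcases brec_true h with h | h
  · rcases brec_true h with h | h
    · exact lDef_good (T := T) (x := Lt.b) (by decide) rfl h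
    · exact lF_good (T := T) (x := Lt.b) (by decide) [Lt.b, Lt.b] (hole_rel hinv hr (by decide +kernel)) h
  · exact dp_b_34_s hinv hr hH j u hu h
theorem snc_b (hinv : ∀ x, g (inv x) = (g x)⁻¹) (hr : ∀ r ∈ rels, (r.map g).prod = 1) (hH : ∀ r ∈ subs, (r.map g).prod ∈ H)
    (j u : ℕ) (hu : u < M) (h : chk_b j u = true) : (T Lt.b u < A ∧ Good (fa g) T MG M (cP g H) Lt.b u) ∨ (A ≤ T Lt.b u ∧ MG u < A) := by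
  unfold chk_b at h
  cases hb : Nat.ble A (T_b u) with
  | true => rw [hb] at h; exact Or.inr ⟨le_of_ble hb, le_of_ble h⟩
  | false => rw [hb] at h; exact Or.inl ⟨lt_of_ble_false hb, snd_b hinv hr hH j u hu h⟩
theorem dp_bi_0_s (hinv : ∀ x, g (inv x) = (g x)⁻¹) (hr : ∀ r ∈ rels, (r.map g).prod = 1) (hH : ∀ r ∈ subs, (r.map g).prod ∈ H)
    (j u : ℕ) (hu : u < M) (h : dp_bi_0 j u = true) : Good (fa g) T MG M (cP g H) Lt.bi u := by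
  unfold dp_bi_0 at h
  rcases brec_true h with h | h
  · exact lS_good (T := T) (x := Lt.bi) (by decide) hu [Lt.a, Lt.bi, Lt.a, Lt.bi, Lt.a, Lt.bi, Lt.a, Lt.bi, Lt.a, Lt.bi, Lt.a, Lt.bi, Lt.a] (hole_rel hinv hr (by decide +kernel)) h
  · exact lS_good (T := T) (x := Lt.bi) (by decide) hu [Lt.b] (hole_rel hinv hr (by decide +kernel)) h
theorem dp_bi_1_s (hinv : ∀ x, g (inv x) = (g x)⁻¹) (hr : ∀ r ∈ rels, (r.map g).prod = 1) (hH : ∀ r ∈ subs, (r.map g).prod ∈ H)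
    (j u : ℕ) (hu : u < M) (h : dp_bi_1 j u = true) : Good (fa g) T MG M (cP g H) Lt.bi u := by
  unfold dp_bi_1 at h
  rcases brec_true h with h | h
  · exact lF_good (T := T) (x := Lt.bi) (by decide) [Lt.a, Lt.b, Lt.a, Lt.bi, Lt.a, Lt.b, Lt.a, Lt.bi, Lt.a, Lt.b, Lt.a, Lt.bi, Lt.a, Lt.b, Lt.a, Lt.bi, Lt.a, Lt.bi, Lt.a, Lt.b, Lt.a, Lt.b, Lt.a, Lt.bi, Lt.a, Lt.bi, Lt.a, Lt.b, Lt.a, Lt.bi, Lt.a, Lt.b, Lt.a, Lt.bi, Lt.a, Lt.b, Lt.a, Lt.bi, Lt.a, Lt.b, Lt.a, Lt.bi, Lt.a, Lt.b, Lt.a, Lt.bi, Lt.a, Lt.b, Lt.a, Lt.bi, Lt.a, Lt.bi, Lt.a, Lt.b, Lt.a, Lt.b, Lt.a, Lt.bi, Lt.a, Lt.bi, Lt.a, Lt.b, Lt.a, Lt.bi, Lt.a, Lt.b, Lt.a] (hole_rel hinv hr (by decide +kernel)) h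
  · exact lF_good (T := T) (x := Lt.bi) (by decide) [Lt.a, Lt.b, Lt.a, Lt.bi, Lt.a, Lt.b, Lt.a, Lt.bi, Lt.a, Lt.b, Lt.a, Lt.bi, Lt.a, Lt.bi, Lt.a, Lt.b, Lt.a, Lt.b, Lt.a, Lt.bi, Lt.a, Lt.bi, Lt.a, Lt.b, Lt.a, Lt.bi, Lt.a, Lt.b, Lt.a, Lt.bi, Lt.a, Lt.b, Lt.a, Lt.bi, Lt.a, Lt.b, Lt.a, Lt.bi, Lt.a, Lt.b, Lt.a, Lt.bi, Lt.a, Lt.b, Lt.a, Lt.bi, Lt.a, Lt.bi, Lt.a, Lt.b, Lt.a, Lt.b, Lt.a, Lt.bi, Lt.a, Lt.bi, Lt.a, Lt.b, Lt.a, Lt.bi, Lt.a, Lt.b, Lt.a, Lt.bi, Lt.a, Lt.b, Lt.a] (hole_rel hinv hr (by decide +kernel)) h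
theorem dp_bi_2_s (hinv : ∀ x, g (inv x) = (g x)⁻¹) (hr : ∀ r ∈ rels, (r.map g).prod = 1) (hH : ∀ r ∈ subs, (r.map g).prod ∈ H)
    (j u : ℕ) (hu : u < M) (h : dp_bi_2 j u = true) : Good (fa g) T MG M (cP g H) Lt.bi u := by
  unfold dp_bi_2 at h
  rcases brec_true h with h | h
  · exact lF_good (T := T) (x := Lt.bi) (by decide) [Lt.a, Lt.b, Lt.a, Lt.bi, Lt.a, Lt.b, Lt.a, Lt.bi, Lt.a, Lt.bi, Lt.a, Lt.b, Lt.a, Lt.b, Lt.a, Lt.bi, Lt.a, Lt.bi, Lt.a, Lt.b, Lt.a, Lt.bi, Lt.a, Lt.b, Lt.a, Lt.bi, Lt.a, Lt.b, Lt.a, Lt.bi, Lt.a, Lt.b, Lt.a, Lt.bi, Lt.a, Lt.b, Lt.a, Lt.bi, Lt.a, Lt.b, Lt.a, Lt.bi, Lt.a, Lt.bi, Lt.a, Lt.b, Lt.a, Lt.b, Lt.a, Lt.bi, Lt.a, Lt.bi, Lt.a, Lt.b, Lt.a, Lt.bi, Lt.a, Lt.b, Lt.a, Lt.bi, Lt.a, Lt.b, Lt.a, Lt.bi, Lt.a,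 Lt.b, Lt.a] (hole_rel hinv hr (by decide +kernel)) h
  · exact lF_good (T := T) (x := Lt.bi) (by decide) [Lt.a, Lt.b, Lt.a, Lt.bi, Lt.a, Lt.b, Lt.a, Lt.bi, Lt.a, Lt.b, Lt.a, Lt.bi, Lt.a, Lt.b, Lt.a, Lt.bi, Lt.a, Lt.b, Lt.a, Lt.bi, Lt.a, Lt.b, Lt.a, Lt.b, Lt.a, Lt.bi, Lt.a, Lt.bi, Lt.a, Lt.b, Lt.a, Lt.b, Lt.a, Lt.bi, Lt.a, Lt.b, Lt.a, Lt.bi, Lt.a, Lt.b, Lt.a, Lt.bi, Lt.a, Lt.b, Lt.a, Lt.bi, Lt.a, Lt.b, Lt.a, Lt.bi, Lt.a, Lt.b, Lt.a, Lt.bi, Lt.a, Lt.b, Lt.a, Lt.b, Lt.a, Lt.bi, Lt.a, Lt.bi, Lt.a, Lt.b, Lt.a, Lt.b, Lt.a] (hole_rel hinv hr (by decide +kernel)) h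
theorem dp_bi_3_s (hinv : ∀ x, g (inv x) = (g x)⁻¹) (hr : ∀ r ∈ rels, (r.map g).prod = 1) (hH : ∀ r ∈ subs, (r.map g).prod ∈ H)
    (j u : ℕ) (hu : u < M) (h : dp_bi_3 j u = true) : Good (fa g) T MG M (cP g H) Lt.bi u := by
  unfold dp_bi_3 at h
  rcases brec_true h with h | h
  · exact lF_good (T := T) (x := Lt.bi) (by decide) [Lt.a, Lt.b, Lt.a, Lt.bi, Lt.a, Lt.b, Lt.a, Lt.b, Lt.a, Lt.bi, Lt.a, Lt.bi, Lt.a, Lt.b, Lt.a, Lt.b, Lt.a, Lt.bi, Lt.a, Lt.b, Lt.a, Lt.bi, Lt.a, Lt.b, Lt.a, Lt.bi, Lt.a, Lt.b, Lt.a, Lt.bi, Lt.a, Lt.b, Lt.a, Lt.bi, Lt.a, Lt.b, Lt.a, Lt.bi, Lt.a, Lt.b, Lt.a, Lt.b, Lt.a, Lt.bi, Lt.a, Lt.bi, Lt.a, Lt.b, Lt.a, Lt.b, Lt.a, Lt.bi, Lt.a, Lt.b, Lt.a, Lt.bi, Lt.a, Lt.b, Lt.a, Lt.bi, Lt.a, Lt.b, Lt.a, Lt.bi, Lt.a, Lt.b,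 Lt.a] (hole_rel hinv hr (by decide +kernel)) h
  · exact dp_bi_2_s hinv hr hH j u hu h
theorem dp_bi_4_s (hinv : ∀ x, g (inv x) = (g x)⁻¹) (hr : ∀ r ∈ rels, (r.map g).prod = 1) (hH : ∀ r ∈ subs, (r.map g).prod ∈ H)
    (j u : ℕ) (hu : u < M) (h : dp_bi_4 j u = true) : Good (fa g) T MG M (cP g H) Lt.bi u := by
  unfold dp_bi_4 at h
  rcases brec_true h with h | h
  · exact dp_bi_1_s hinv hr hH j u hu h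
  · exact dp_bi_3_s hinv hr hH j u hu h
theorem dp_bi_5_s (hinv : ∀ x, g (inv x) = (g x)⁻¹) (hr : ∀ r ∈ rels, (r.map g).prod = 1) (hH : ∀ r ∈ subs, (r.map g).prod ∈ H)
    (j u : ℕ) (hu : u < M) (h : dp_bi_5 j u = true) : Good (fa g) T MG M (cP g H) Lt.bi u := by
  unfold dp_bi_5 at h
  rcases brec_true h with h | h
  · exact dp_bi_0_s hinv hr hH j u hu h
  · exact dp_bi_4_s hinv hr hH j u hu h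
theorem dp_bi_6_s (hinv : ∀ x, g (inv x) = (g x)⁻¹) (hr : ∀ r ∈ rels, (r.map g).prod = 1) (hH : ∀ r ∈ subs, (r.map g).prod ∈ H)
    (j u : ℕ) (hu : u < M) (h : dp_bi_6 j u = true) : Good (fa g) T MG M (cP g H) Lt.bi u := by
  unfold dp_bi_6 at h
  rcases brec_true h with h | h
  · exact lF_good (T := T) (x := Lt.bi) (by decide) [Lt.a, Lt.b, Lt.a, Lt.bi, Lt.a, Lt.b, Lt.a, Lt.bi, Lt.a, Lt.b, Lt.a, Lt.bi, Lt.a, Lt.b, Lt.a, Lt.b, Lt.a, Lt.bi, Lt.a, Lt.bi, Lt.a, Lt.b, Lt.a, Lt.b, Lt.a, Lt.bi, Lt.a, Lt.b, Lt.a, Lt.bi, Lt.a, Lt.b, Lt.a, Lt.bi, Lt.a, Lt.b, Lt.a, Lt.bi, Lt.a, Lt.b, Lt.a, Lt.bi, Lt.a, Lt.b, Lt.a, Lt.bi, Lt.a, Lt.b, Lt.a, Lt.b, Lt.a, Lt.bi, Lt.a, Lt.bi, Lt.a, Lt.b, Lt.a, Lt.b, Lt.a, Lt.bi, Lt.a, Lt.b, Lt.a, Lt.bi, Lt.a, Lt.b,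 Lt.a] (hole_rel hinv hr (by decide +kernel)) h
  · exact lS_good (T := T) (x := Lt.bi) (by decide) hu [Lt.a, Lt.b, Lt.a, Lt.bi, Lt.a, Lt.b, Lt.a, Lt.bi, Lt.a, Lt.b, Lt.a, Lt.b, Lt.a, Lt.bi, Lt.a, Lt.bi, Lt.a, Lt.b, Lt.a, Lt.b, Lt.a, Lt.bi, Lt.a, Lt.b, Lt.a, Lt.bi, Lt.a, Lt.b, Lt.a, Lt.bi, Lt.a, Lt.b, Lt.a, Lt.bi, Lt.a, Lt.b, Lt.a, Lt.bi, Lt.a, Lt.b, Lt.a, Lt.bi, Lt.a, Lt.b, Lt.a, Lt.b, Lt.a, Lt.bi, Lt.a, Lt.bi, Lt.a, Lt.b, Lt.a, Lt.b, Lt.a, Lt.bi, Lt.a, Lt.b, Lt.a, Lt.bi, Lt.a, Lt.b, Lt.a, Lt.bi, Lt.a, Lt.b, Lt.a] (hole_rel hinv hr (by decide +kernel)) h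
theorem dp_bi_7_s (hinv : ∀ x, g (inv x) = (g x)⁻¹) (hr : ∀ r ∈ rels, (r.map g).prod = 1) (hH : ∀ r ∈ subs, (r.map g).prod ∈ H)
    (j u : ℕ) (hu : u < M) (h : dp_bi_7 j u = true) : Good (fa g) T MG M (cP g H) Lt.bi u := by
  unfold dp_bi_7 at h
  rcases brec_true h with h | h
  · exact lF_good (T := T) (x := Lt.bi) (by decide) [Lt.a, Lt.b, Lt.a, Lt.bi, Lt.a, Lt.b, Lt.a, Lt.bi, Lt.a, Lt.b, Lt.a, Lt.bi, Lt.a, Lt.b, Lt.a, Lt.bi, Lt.a, Lt.b, Lt.a, Lt.b, Lt.a, Lt.bi, Lt.a, Lt.bi, Lt.a, Lt.b, Lt.a, Lt.b, Lt.a, Lt.bi, Lt.a, Lt.b, Lt.a, Lt.bi, Lt.a, Lt.b, Lt.a, Lt.bi, Lt.a, Lt.b, Lt.a, Lt.bi, Lt.a, Lt.b, Lt.a, Lt.bi, Lt.a, Lt.b, Lt.a, Lt.bi, Lt.a, Lt.b, Lt.a, Lt.b, Lt.a, Lt.bi, Lt.a, Lt.bi, Lt.a, Lt.b, Lt.a, Lt.b, Lt.a, Lt.bi, Lt.a, Lt.b,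 Lt.a] (hole_rel hinv hr (by decide +kernel)) h
  · exact dp_bi_6_s hinv hr hH j u hu h
theorem dp_bi_8_s (hinv : ∀ x, g (inv x) = (g x)⁻¹) (hr : ∀ r ∈ rels, (r.map g).prod = 1) (hH : ∀ r ∈ subs, (r.map g).prod ∈ H)
    (j u : ℕ) (hu : u < M) (h : dp_bi_8 j u = true) : Good (fa g) T MG M (cP g H) Lt.bi u := by
  unfold dp_bi_8 at h
  rcases brec_true h with h | h
  · exact lS_good (T := T) (x := Lt.bi) (by decide) hu [Lt.a, Lt.b, Lt.a, Lt.bi, Lt.a, Lt.b, Lt.a, Lt.bi, Lt.a, Lt.b, Lt.a, Lt.bi, Lt.a, Lt.b, Lt.a, Lt.b, Lt.a, Lt.bi, Lt.a, Lt.bi, Lt.a, Lt.b, Lt.a, Lt.b, Lt.a, Lt.bi, Lt.a, Lt.b, Lt.a, Lt.bi, Lt.a, Lt.b, Lt.a, Lt.bi, Lt.a, Lt.b, Lt.a, Lt.bi, Lt.a, Lt.b, Lt.a, Lt.bi, Lt.a, Lt.b, Lt.a, Lt.bi, Lt.a, Lt.b, Lt.a, Lt.b, Lt.a,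 Lt.bi, Lt.a, Lt.bi, Lt.a, Lt.b, Lt.a, Lt.b, Lt.a, Lt.bi, Lt.a, Lt.b, Lt.a, Lt.bi, Lt.a, Lt.b, Lt.a] (hole_rel hinv hr (by decide +kernel)) h
  · exact lS_good (T := T) (x := Lt.bi) (by decide) hu [Lt.a, Lt.b, Lt.a, Lt.bi, Lt.a, Lt.b, Lt.a, Lt.bi, Lt.a, Lt.bi, Lt.a, Lt.b, Lt.a, Lt.b, Lt.a, Lt.bi, Lt.a, Lt.bi, Lt.a, Lt.b, Lt.a, Lt.bi, Lt.a, Lt.b, Lt.a, Lt.bi, Lt.a, Lt.b, Lt.a, Lt.bi, Lt.a, Lt.b, Lt.a, Lt.bi, Lt.a, Lt.b, Lt.a, Lt.bi, Lt.a, Lt.b, Lt.a, Lt.bi, Lt.a, Lt.bi, Lt.a, Lt.b, Lt.a, Lt.b, Lt.a, Lt.bi, Lt.a, Lt.bi, Lt.a, Lt.b, Lt.a, Lt.bi, Lt.a, Lt.b, Lt.a, Lt.bi, Lt.a, Lt.b, Lt.a, Lt.bi, Lt.a, Lt.b, Lt.a] (hole_rel hinv hr (by decide +kernel)) h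
theorem dp_bi_9_s (hinv : ∀ x, g (inv x) = (g x)⁻¹) (hr : ∀ r ∈ rels, (r.map g).prod = 1) (hH : ∀ r ∈ subs, (r.map g).prod ∈ H)
    (j u : ℕ) (hu : u < M) (h : dp_bi_9 j u = true) : Good (fa g) T MG M (cP g H) Lt.bi u := by
  unfold dp_bi_9 at h
  rcases brec_true h with h | h
  · exact lF_good (T := T) (x := Lt.bi) (by decide) [Lt.a, Lt.b, Lt.a, Lt.bi, Lt.a, Lt.bi, Lt.a, Lt.b, Lt.a, Lt.b, Lt.a, Lt.bi, Lt.a, Lt.bi, Lt.a, Lt.b, Lt.a, Lt.bi, Lt.a, Lt.b, Lt.a, Lt.bi, Lt.a, Lt.b, Lt.a, Lt.bi, Lt.a, Lt.b, Lt.a, Lt.bi, Lt.a, Lt.b, Lt.a, Lt.bi, Lt.a, Lt.b, Lt.a, Lt.bi, Lt.a, Lt.bi, Lt.a, Lt.b, Lt.a, Lt.b, Lt.a, Lt.bi, Lt.a, Lt.bi, Lt.a, Lt.b, Lt.a, Lt.bi, Lt.a, Lt.b, Lt.a, Lt.bi, Lt.a, Lt.b, Lt.a, Lt.bi, Lt.a, Lt.b, Lt.a, Lt.bi, Lt.a,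 Lt.b, Lt.a] (hole_rel hinv hr (by decide +kernel)) h
  · exact dp_bi_8_s hinv hr hH j u hu h
theorem dp_bi_10_s (hinv : ∀ x, g (inv x) = (g x)⁻¹) (hr : ∀ r ∈ rels, (r.map g).prod = 1) (hH : ∀ r ∈ subs, (r.map g).prod ∈ H)
    (j u : ℕ) (hu : u < M) (h : dp_bi_10 j u = true) : Good (fa g) T MG M (cP g H) Lt.bi u := by
  unfold dp_bi_10 at h
  rcases brec_true h with h | h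
  · exact lF_good (T := T) (x := Lt.bi) (by decide) [Lt.a, Lt.b, Lt.a, Lt.b, Lt.a, Lt.bi, Lt.a, Lt.bi, Lt.a, Lt.b, Lt.a, Lt.b, Lt.a, Lt.bi, Lt.a, Lt.b, Lt.a, Lt.bi, Lt.a, Lt.b, Lt.a, Lt.bi, Lt.a, Lt.b, Lt.a, Lt.bi, Lt.a, Lt.b, Lt.a, Lt.bi, Lt.a, Lt.b, Lt.a, Lt.bi, Lt.a, Lt.b, Lt.a, Lt.b, Lt.a, Lt.bi, Lt.a, Lt.bi, Lt.a, Lt.b, Lt.a, Lt.b, Lt.a, Lt.bi, Lt.a, Lt.b, Lt.a, Lt.bi, Lt.a, Lt.b, Lt.a, Lt.bi, Lt.a, Lt.b, Lt.a, Lt.bi, Lt.a, Lt.b, Lt.a, Lt.bi, Lt.a, Lt.b, Lt.a] (hole_rel hinv hr (by decide +kernel)) h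
  · exact lF_good (T := T) (x := Lt.bi) (by decide) [Lt.a, Lt.b, Lt.a, Lt.bi, Lt.a, Lt.b, Lt.a, Lt.bi, Lt.a, Lt.b, Lt.a, Lt.b, Lt.a, Lt.bi, Lt.a, Lt.bi, Lt.a, Lt.b, Lt.a, Lt.b, Lt.a, Lt.bi, Lt.a, Lt.b, Lt.a, Lt.bi, Lt.a, Lt.b, Lt.a, Lt.bi, Lt.a, Lt.b, Lt.a, Lt.bi, Lt.a, Lt.b, Lt.a, Lt.bi, Lt.a, Lt.b, Lt.a, Lt.bi, Lt.a, Lt.b, Lt.a, Lt.b, Lt.a, Lt.bi, Lt.a, Lt.bi, Lt.a, Lt.b, Lt.a, Lt.b, Lt.a, Lt.bi, Lt.a, Lt.b, Lt.a, Lt.bi, Lt.a, Lt.b, Lt.a, Lt.bi, Lt.a, Lt.b, Lt.a] (hole_rel hinv hr (by decide +kernel)) h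
theorem dp_bi_11_s (hinv : ∀ x, g (inv x) = (g x)⁻¹) (hr : ∀ r ∈ rels, (r.map g).prod = 1) (hH : ∀ r ∈ subs, (r.map g).prod ∈ H)
    (j u : ℕ) (hu : u < M) (h : dp_bi_11 j u = true) : Good (fa g) T MG M (cP g H) Lt.bi u := by
  unfold dp_bi_11 at h
  rcases brec_true h with h | h
  · exact lF_good (T := T) (x := Lt.bi) (by decide) [Lt.a, Lt.b, Lt.a, Lt.bi, Lt.a, Lt.b, Lt.a, Lt.bi, Lt.a, Lt.b, Lt.a, Lt.bi, Lt.a, Lt.b, Lt.a, Lt.bi, Lt.a, Lt.b, Lt.a, Lt.bi, Lt.a, Lt.bi, Lt.a, Lt.b, Lt.a, Lt.b, Lt.a, Lt.bi, Lt.a, Lt.bi, Lt.a, Lt.b, Lt.a, Lt.bi, Lt.a, Lt.b, Lt.a, Lt.bi, Lt.a, Lt.b, Lt.a, Lt.bi, Lt.a, Lt.b, Lt.a, Lt.bi, Lt.a, Lt.b, Lt.a, Lt.bi, Lt.a, Lt.b, Lt.a, Lt.bi, Lt.a, Lt.bi, Lt.a, Lt.b, Lt.a, Lt.b, Lt.a, Lt.bi, Lt.a, Lt.bi, Lt.a,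 Lt.b, Lt.a] (hole_rel hinv hr (by decide +kernel)) h
  · exact dp_bi_10_s hinv hr hH j u hu h
theorem dp_bi_12_s (hinv : ∀ x, g (inv x) = (g x)⁻¹) (hr : ∀ r ∈ rels, (r.map g).prod = 1) (hH : ∀ r ∈ subs, (r.map g).prod ∈ H)
    (j u : ℕ) (hu : u < M) (h : dp_bi_12 j u = true) : Good (fa g) T MG M (cP g H) Lt.bi u := by
  unfold dp_bi_12 at h
  rcases brec_true h with h | h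
  · exact dp_bi_9_s hinv hr hH j u hu h
  · exact dp_bi_11_s hinv hr hH j u hu h
theorem dp_bi_13_s (hinv : ∀ x, g (inv x) = (g x)⁻¹) (hr : ∀ r ∈ rels, (r.map g).prod = 1) (hH : ∀ r ∈ subs, (r.map g).prod ∈ H)
    (j u : ℕ) (hu : u < M) (h : dp_bi_13 j u = true) : Good (fa g) T MG M (cP g H) Lt.bi u := by
  unfold dp_bi_13 at h
  rcases brec_true h with h | h
  · exact dp_bi_7_s hinv hr hH j u hu h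
  · exact dp_bi_12_s hinv hr hH j u hu h
theorem dp_bi_14_s (hinv : ∀ x, g (inv x) = (g x)⁻¹) (hr : ∀ r ∈ rels, (r.map g).prod = 1) (hH : ∀ r ∈ subs, (r.map g).prod ∈ H)
    (j u : ℕ) (hu : u < M) (h : dp_bi_14 j u = true) : Good (fa g) T MG M (cP g H) Lt.bi u := by
  unfold dp_bi_14 at h
  rcases brec_true h with h | h
  · exact lF_good (T := T) (x := Lt.bi) (by decide) [Lt.a, Lt.b, Lt.a, Lt.b, Lt.a, Lt.bi, Lt.a, Lt.bi, Lt.a, Lt.b, Lt.a, Lt.bi, Lt.a, Lt.b, Lt.a, Lt.bi, Lt.a, Lt.b, Lt.a, Lt.bi, Lt.a, Lt.b, Lt.a, Lt.bi, Lt.a, Lt.b, Lt.a, Lt.bi, Lt.a, Lt.b, Lt.a, Lt.bi, Lt.a, Lt.bi, Lt.a, Lt.b, Lt.a, Lt.b, Lt.a, Lt.bi, Lt.a, Lt.bi, Lt.a, Lt.b, Lt.a, Lt.bi, Lt.a, Lt.b, Lt.a, Lt.bi, Lt.a, Lt.b, Lt.a, Lt.bi, Lt.a, Lt.b, Lt.a, Lt.bi,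 Lt.a, Lt.b, Lt.a, Lt.bi, Lt.a, Lt.b, Lt.a, Lt.bi, Lt.a] (hole_rel hinv hr (by decide +kernel)) h
  · exact lS_good (T := T) (x := Lt.bi) (by decide) hu [Lt.a, Lt.b, Lt.a, Lt.b, Lt.a, Lt.bi, Lt.a, Lt.bi, Lt.a, Lt.b, Lt.a, Lt.bi, Lt.a, Lt.b, Lt.a, Lt.bi, Lt.a, Lt.b, Lt.a, Lt.bi, Lt.a, Lt.b, Lt.a, Lt.bi, Lt.a, Lt.b, Lt.a, Lt.bi, Lt.a, Lt.b, Lt.a, Lt.bi, Lt.a, Lt.bi, Lt.a, Lt.b, Lt.a, Lt.b, Lt.a, Lt.bi, Lt.a, Lt.bi, Lt.a, Lt.b, Lt.a, Lt.bi, Lt.a, Lt.b, Lt.a, Lt.bi, Lt.a, Lt.b, Lt.a, Lt.bi, Lt.a, Lt.b, Lt.a, Lt.bi, Lt.a, Lt.b, Lt.a, Lt.bi, Lt.a, Lt.b, Lt.a, Lt.bi, Lt.a] (hole_rel hinv hr (by decide +kernel)) h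
theorem dp_bi_15_s (hinv : ∀ x, g (inv x) = (g x)⁻¹) (hr : ∀ r ∈ rels, (r.map g).prod = 1) (hH : ∀ r ∈ subs, (r.map g).prod ∈ H)
    (j u : ℕ) (hu : u < M) (h : dp_bi_15 j u = true) : Good (fa g) T MG M (cP g H) Lt.bi u := by
  unfold dp_bi_15 at h
  rcases brec_true h with h | h
  · exact lS_good (T := T) (x := Lt.bi) (by decide) hu [Lt.a, Lt.bi, Lt.a, Lt.b, Lt.a, Lt.b, Lt.a, Lt.bi, Lt.a, Lt.bi, Lt.a, Lt.b, Lt.a, Lt.bi, Lt.a, Lt.b, Lt.a, Lt.bi, Lt.a, Lt.b, Lt.a, Lt.bi, Lt.a, Lt.b, Lt.a, Lt.bi, Lt.a, Lt.b, Lt.a, Lt.bi, Lt.a, Lt.b, Lt.a, Lt.bi, Lt.a, Lt.bi, Lt.a, Lt.b, Lt.a, Lt.b, Lt.a, Lt.bi, Lt.a, Lt.bi, Lt.a, Lt.b, Lt.a, Lt.bi, Lt.a, Lt.b, Lt.a, Lt.bi, Lt.a, Lt.b, Lt.a, Lt.bi, Lt.a, Lt.b, Lt.a, Lt.bi, Lt.a, Lt.b, Lt.a, Lt.bi,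 Lt.a, Lt.b, Lt.a] (hole_rel hinv hr (by decide +kernel)) h
  · exact dp_bi_14_s hinv hr hH j u hu h
theorem dp_bi_16_s (hinv : ∀ x, g (inv x) = (g x)⁻¹) (hr : ∀ r ∈ rels, (r.map g).prod = 1) (hH : ∀ r ∈ subs, (r.map g).prod ∈ H)
    (j u : ℕ) (hu : u < M) (h : dp_bi_16 j u = true) : Good (fa g) T MG M (cP g H) Lt.bi u := by
  unfold dp_bi_16 at h
  rcases brec_true h with h | h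
  · exact lS_good (T := T) (x := Lt.bi) (by decide) hu [Lt.a, Lt.bi, Lt.a, Lt.b, Lt.a, Lt.bi, Lt.a, Lt.b, Lt.a, Lt.bi, Lt.a, Lt.b, Lt.a, Lt.bi, Lt.a, Lt.b, Lt.a, Lt.bi, Lt.a, Lt.b, Lt.a, Lt.bi, Lt.a, Lt.b, Lt.a, Lt.bi, Lt.a, Lt.bi, Lt.a, Lt.b, Lt.a, Lt.b, Lt.a, Lt.bi, Lt.a, Lt.bi, Lt.a, Lt.b, Lt.a, Lt.bi, Lt.a, Lt.b, Lt.a, Lt.bi, Lt.a, Lt.b, Lt.a, Lt.bi, Lt.a, Lt.b, Lt.a, Lt.bi, Lt.a, Lt.b, Lt.a, Lt.bi, Lt.a, Lt.b, Lt.a, Lt.bi, Lt.a, Lt.bi, Lt.a, Lt.b, Lt.a, Lt.b, Lt.a] (hole_rel hinv hr (by decide +kernel)) h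
  · exact lF_good (T := T) (x := Lt.bi) (by decide) [Lt.a, Lt.bi, Lt.a, Lt.b, Lt.a, Lt.b, Lt.a, Lt.bi, Lt.a, Lt.bi, Lt.a, Lt.b, Lt.a, Lt.bi, Lt.a, Lt.b, Lt.a, Lt.bi, Lt.a, Lt.b, Lt.a, Lt.bi, Lt.a, Lt.b, Lt.a, Lt.bi, Lt.a, Lt.b, Lt.a, Lt.bi, Lt.a, Lt.b, Lt.a, Lt.bi, Lt.a, Lt.bi, Lt.a, Lt.b, Lt.a, Lt.b, Lt.a, Lt.bi, Lt.a, Lt.bi, Lt.a, Lt.b, Lt.a, Lt.bi, Lt.a, Lt.b, Lt.a, Lt.bi, Lt.a, Lt.b, Lt.a, Lt.bi, Lt.a, Lt.b, Lt.a, Lt.bi, Lt.a, Lt.b, Lt.a, Lt.bi, Lt.a, Lt.b, Lt.a] (hole_rel hinv hr (by decide +kernel)) h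
theorem dp_bi_17_s (hinv : ∀ x, g (inv x) = (g x)⁻¹) (hr : ∀ r ∈ rels, (r.map g).prod = 1) (hH : ∀ r ∈ subs, (r.map g).prod ∈ H)
    (j u : ℕ) (hu : u < M) (h : dp_bi_17 j u = true) : Good (fa g) T MG M (cP g H) Lt.bi u := by
  unfold dp_bi_17 at h
  rcases brec_true h with h | h
  · exact lF_good (T := T) (x := Lt.bi) (by decide) [Lt.a, Lt.b, Lt.a, Lt.b, Lt.a, Lt.bi, Lt.a, Lt.b, Lt.a, Lt.bi, Lt.a, Lt.b, Lt.a, Lt.bi, Lt.a, Lt.b, Lt.a, Lt.bi, Lt.a, Lt.b, Lt.a, Lt.bi, Lt.a, Lt.b, Lt.a, Lt.bi, Lt.a, Lt.b, Lt.a, Lt.b, Lt.a, Lt.bi, Lt.a, Lt.bi, Lt.a, Lt.b, Lt.a, Lt.b, Lt.a, Lt.bi, Lt.a, Lt.b, Lt.a, Lt.bi, Lt.a, Lt.b, Lt.a, Lt.bi, Lt.a, Lt.b, Lt.a, Lt.bi, Lt.a, Lt.b, Lt.a, Lt.bi, Lt.a, Lt.b, Lt.a, Lt.bi, Lt.a, Lt.b, Lt.a, Lt.b, Lt.a,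 Lt.bi, Lt.a] (hole_rel hinv hr (by decide +kernel)) h
  · exact lF_good (T := T) (x := Lt.bi) (by decide) [Lt.a, Lt.b, Lt.a, Lt.bi, Lt.a, Lt.b, Lt.a, Lt.bi, Lt.a, Lt.b, Lt.a, Lt.bi, Lt.a, Lt.b, Lt.a, Lt.bi, Lt.a, Lt.b, Lt.a, Lt.bi, Lt.a, Lt.b, Lt.a, Lt.bi, Lt.a, Lt.bi, Lt.a, Lt.b, Lt.a, Lt.b, Lt.a, Lt.bi, Lt.a, Lt.bi, Lt.a, Lt.b, Lt.a, Lt.bi, Lt.a, Lt.b, Lt.a, Lt.bi, Lt.a, Lt.b, Lt.a, Lt.bi, Lt.a, Lt.b, Lt.a, Lt.bi, Lt.a, Lt.b, Lt.a, Lt.bi, Lt.a, Lt.b, Lt.a, Lt.bi, Lt.a, Lt.bi, Lt.a, Lt.b, Lt.a, Lt.b, Lt.a, Lt.bi, Lt.a] (hole_rel hinv hr (by decide +kernel)) h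
theorem dp_bi_18_s (hinv : ∀ x, g (inv x) = (g x)⁻¹) (hr : ∀ r ∈ rels, (r.map g).prod = 1) (hH : ∀ r ∈ subs, (r.map g).prod ∈ H)
    (j u : ℕ) (hu : u < M) (h : dp_bi_18 j u = true) : Good (fa g) T MG M (cP g H) Lt.bi u := by
  unfold dp_bi_18 at h
  rcases brec_true h with h | h
  · exact dp_bi_16_s hinv hr hH j u hu h
  · exact dp_bi_17_s hinv hr hH j u hu h
theorem dp_bi_19_s (hinv : ∀ x, g (inv x) = (g x)⁻¹) (hr : ∀ r ∈ rels, (r.map g).prod = 1) (hH : ∀ r ∈ subs, (r.map g).prod ∈ H)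
    (j u : ℕ) (hu : u < M) (h : dp_bi_19 j u = true) : Good (fa g) T MG M (cP g H) Lt.bi u := by
  unfold dp_bi_19 at h
  rcases brec_true h with h | h
  · exact dp_bi_15_s hinv hr hH j u hu h
  · exact dp_bi_18_s hinv hr hH j u hu h
theorem dp_bi_20_s (hinv : ∀ x, g (inv x) = (g x)⁻¹) (hr : ∀ r ∈ rels, (r.map g).prod = 1) (hH : ∀ r ∈ subs, (r.map g).prod ∈ H)
    (j u : ℕ) (hu : u < M) (h : dp_bi_20 j u = true) : Good (fa g) T MG M (cP g H) Lt.bi u := by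
  unfold dp_bi_20 at h
  rcases brec_true h with h | h
  · exact lF_good (T := T) (x := Lt.bi) (by decide) [Lt.a, Lt.bi, Lt.a, Lt.b, Lt.a, Lt.b, Lt.a, Lt.bi, Lt.a, Lt.b, Lt.a, Lt.bi, Lt.a, Lt.b, Lt.a, Lt.bi, Lt.a, Lt.b, Lt.a, Lt.bi, Lt.a, Lt.b, Lt.a, Lt.bi, Lt.a, Lt.b, Lt.a, Lt.bi, Lt.a, Lt.b, Lt.a, Lt.b, Lt.a, Lt.bi, Lt.a, Lt.bi, Lt.a, Lt.b, Lt.a, Lt.b, Lt.a, Lt.bi, Lt.a, Lt.b, Lt.a, Lt.bi, Lt.a, Lt.b, Lt.a, Lt.bi, Lt.a, Lt.b, Lt.a, Lt.bi, Lt.a, Lt.b, Lt.a, Lt.bi, Lt.a, Lt.b, Lt.a, Lt.bi, Lt.a, Lt.b, Lt.a, Lt.b, Lt.a] (hole_rel hinv hr (by decide +kernel)) h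
  · exact lS_good (T := T) (x := Lt.bi) (by decide) hu [Lt.a, Lt.bi, Lt.a, Lt.b, Lt.a, Lt.b, Lt.a, Lt.bi, Lt.a, Lt.b, Lt.a, Lt.bi, Lt.a, Lt.b, Lt.a, Lt.bi, Lt.a, Lt.b, Lt.a, Lt.bi, Lt.a, Lt.b, Lt.a, Lt.bi, Lt.a, Lt.b, Lt.a, Lt.bi, Lt.a, Lt.b, Lt.a, Lt.b, Lt.a, Lt.bi, Lt.a, Lt.bi, Lt.a, Lt.b, Lt.a, Lt.b, Lt.a, Lt.bi, Lt.a, Lt.b, Lt.a, Lt.bi, Lt.a, Lt.b, Lt.a, Lt.bi, Lt.a, Lt.b, Lt.a, Lt.bi, Lt.a, Lt.b, Lt.a, Lt.bi, Lt.a, Lt.b, Lt.a, Lt.bi, Lt.a, Lt.b, Lt.a, Lt.b, Lt.a] (hole_rel hinv hr (by decide +kernel)) h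
theorem dp_bi_21_s (hinv : ∀ x, g (inv x) = (g x)⁻¹) (hr : ∀ r ∈ rels, (r.map g).prod = 1) (hH : ∀ r ∈ subs, (r.map g).prod ∈ H)
    (j u : ℕ) (hu : u < M) (h : dp_bi_21 j u = true) : Good (fa g) T MG M (cP g H) Lt.bi u := by
  unfold dp_bi_21 at h
  rcases brec_true h with h | h
  · exact lS_good (T := T) (x := Lt.bi) (by decide) hu [Lt.a, Lt.b, Lt.a, Lt.b, Lt.a, Lt.bi, Lt.a, Lt.b, Lt.a, Lt.bi, Lt.a, Lt.b, Lt.a, Lt.bi, Lt.a, Lt.b, Lt.a, Lt.bi, Lt.a, Lt.b, Lt.a, Lt.bi, Lt.a, Lt.b, Lt.a, Lt.bi, Lt.a, Lt.b, Lt.a, Lt.b, Lt.a, Lt.bi, Lt.a, Lt.bi, Lt.a, Lt.b, Lt.a, Lt.b, Lt.a, Lt.bi, Lt.a, Lt.b, Lt.a, Lt.bi, Lt.a, Lt.b, Lt.a, Lt.bi, Lt.a, Lt.b, Lt.a, Lt.bi, Lt.a, Lt.b, Lt.a, Lt.bi, Lt.a, Lt.b, Lt.a, Lt.bi, Lt.a, Lt.b, Lt.a, Lt.b, Lt.a,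 Lt.bi, Lt.a] (hole_rel hinv hr (by decide +kernel)) h
  · exact lS_good (T := T) (x := Lt.bi) (by decide) hu [Lt.a, Lt.b, Lt.a, Lt.bi, Lt.a, Lt.b, Lt.a, Lt.bi, Lt.a, Lt.b, Lt.a, Lt.bi, Lt.a, Lt.b, Lt.a, Lt.bi, Lt.a, Lt.b, Lt.a, Lt.bi, Lt.a, Lt.b, Lt.a, Lt.b, Lt.a, Lt.bi, Lt.a, Lt.bi, Lt.a, Lt.b, Lt.a, Lt.b, Lt.a, Lt.bi, Lt.a, Lt.b, Lt.a, Lt.bi, Lt.a, Lt.b, Lt.a, Lt.bi, Lt.a, Lt.b, Lt.a, Lt.bi, Lt.a, Lt.b, Lt.a, Lt.bi, Lt.a, Lt.b, Lt.a, Lt.bi, Lt.a, Lt.b, Lt.a, Lt.b, Lt.a, Lt.bi, Lt.a, Lt.bi, Lt.a, Lt.b, Lt.a, Lt.b, Lt.a] (hole_rel hinv hr (by decide +kernel)) h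
theorem dp_bi_22_s (hinv : ∀ x, g (inv x) = (g x)⁻¹) (hr : ∀ r ∈ rels, (r.map g).prod = 1) (hH : ∀ r ∈ subs, (r.map g).prod ∈ H)
    (j u : ℕ) (hu : u < M) (h : dp_bi_22 j u = true) : Good (fa g) T MG M (cP g H) Lt.bi u := by
  unfold dp_bi_22 at h
  rcases brec_true h with h | h
  · exact dp_bi_20_s hinv hr hH j u hu h
  · exact dp_bi_21_s hinv hr hH j u hu h
theorem dp_bi_23_s (hinv : ∀ x, g (inv x) = (g x)⁻¹) (hr : ∀ r ∈ rels, (r.map g).prod = 1) (hH : ∀ r ∈ subs, (r.map g).prod ∈ H)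
    (j u : ℕ) (hu : u < M) (h : dp_bi_23 j u = true) : Good (fa g) T MG M (cP g H) Lt.bi u := by
  unfold dp_bi_23 at h
  rcases brec_true h with h | h
  · exact lS_good (T := T) (x := Lt.bi) (by decide) hu [Lt.a, Lt.b, Lt.a, Lt.bi, Lt.a, Lt.b, Lt.a, Lt.bi, Lt.a, Lt.b, Lt.a, Lt.bi, Lt.a, Lt.b, Lt.a, Lt.bi, Lt.a, Lt.b, Lt.a, Lt.b, Lt.a, Lt.bi, Lt.a, Lt.bi, Lt.a, Lt.b, Lt.a, Lt.b, Lt.a, Lt.bi, Lt.a, Lt.b, Lt.a, Lt.bi, Lt.a, Lt.b, Lt.a, Lt.bi, Lt.a, Lt.b, Lt.a, Lt.bi, Lt.a, Lt.b, Lt.a, Lt.bi, Lt.a, Lt.b, Lt.a, Lt.bi, Lt.a, Lt.b, Lt.a, Lt.b, Lt.a, Lt.bi, Lt.a, Lt.bi, Lt.a, Lt.b, Lt.a, Lt.b, Lt.a, Lt.bi, Lt.a, Lt.b, Lt.a] (hole_rel hinv hr (by decide +kernel)) h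
  · exact lF_good (T := T) (x := Lt.bi) (by decide) [Lt.a, Lt.bi, Lt.a, Lt.b, Lt.a, Lt.bi, Lt.a, Lt.b, Lt.a, Lt.bi, Lt.a, Lt.b, Lt.a, Lt.bi, Lt.a, Lt.b, Lt.a, Lt.bi, Lt.a, Lt.b, Lt.a, Lt.bi, Lt.a, Lt.b, Lt.a, Lt.bi, Lt.a, Lt.bi, Lt.a, Lt.b, Lt.a, Lt.b, Lt.a, Lt.bi, Lt.a, Lt.bi, Lt.a, Lt.b, Lt.a, Lt.bi, Lt.a, Lt.b, Lt.a, Lt.bi, Lt.a, Lt.b, Lt.a, Lt.bi, Lt.a, Lt.b, Lt.a, Lt.bi, Lt.a, Lt.b, Lt.a, Lt.bi, Lt.a, Lt.b, Lt.a, Lt.bi, Lt.a, Lt.bi, Lt.a, Lt.b, Lt.a, Lt.b, Lt.a] (hole_rel hinv hr (by decide +kernel)) h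
theorem dp_bi_24_s (hinv : ∀ x, g (inv x) = (g x)⁻¹) (hr : ∀ r ∈ rels, (r.map g).prod = 1) (hH : ∀ r ∈ subs, (r.map g).prod ∈ H)
    (j u : ℕ) (hu : u < M) (h : dp_bi_24 j u = true) : Good (fa g) T MG M (cP g H) Lt.bi u := by
  unfold dp_bi_24 at h
  rcases brec_true h with h | h
  · exact lS_good (T := T) (x := Lt.bi) (by decide) hu [Lt.a, Lt.b, Lt.a, Lt.bi, Lt.a, Lt.b, Lt.a, Lt.bi, Lt.a, Lt.b, Lt.a, Lt.bi, Lt.a, Lt.b, Lt.a, Lt.bi, Lt.a, Lt.b, Lt.a, Lt.bi, Lt.a, Lt.bi, Lt.a, Lt.b, Lt.a, Lt.b, Lt.a, Lt.bi, Lt.a, Lt.bi, Lt.a, Lt.b, Lt.a, Lt.bi, Lt.a, Lt.b, Lt.a, Lt.bi, Lt.a, Lt.b, Lt.a, Lt.bi, Lt.a, Lt.b, Lt.a, Lt.bi, Lt.a, Lt.b, Lt.a, Lt.bi, Lt.a, Lt.b, Lt.a, Lt.bi, Lt.a, Lt.bi, Lt.a, Lt.b, Lt.a, Lt.b, Lt.a, Lt.bi, Lt.a, Lt.bi,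 Lt.a, Lt.b, Lt.a] (hole_rel hinv hr (by decide +kernel)) h
  · exact lF_good (T := T) (x := Lt.bi) (by decide) [Lt.a, Lt.b, Lt.a, Lt.bi, Lt.a, Lt.b, Lt.a, Lt.b, Lt.a, Lt.bi, Lt.a, Lt.b, Lt.a, Lt.bi, Lt.a, Lt.b, Lt.a, Lt.bi, Lt.a, Lt.b, Lt.a, Lt.b, Lt.a, Lt.bi, Lt.a, Lt.b, Lt.a, Lt.bi, Lt.a, Lt.b, Lt.a, Lt.bi, Lt.a, Lt.b, Lt.a, Lt.b, Lt.a, Lt.bi, Lt.a, Lt.b, Lt.a, Lt.bi, Lt.a, Lt.b, Lt.a, Lt.bi, Lt.a, Lt.b, Lt.a, Lt.b, Lt.a, Lt.bi, Lt.a, Lt.b, Lt.a, Lt.bi, Lt.a, Lt.b, Lt.a, Lt.bi, Lt.a, Lt.b, Lt.a, Lt.b, Lt.a, Lt.bi, Lt.a, Lt.b, Lt.a] (hole_rel hinv hr (by decide +kernel)) h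
theorem dp_bi_25_s (hinv : ∀ x, g (inv x) = (g x)⁻¹) (hr : ∀ r ∈ rels, (r.map g).prod = 1) (hH : ∀ r ∈ subs, (r.map g).prod ∈ H)
    (j u : ℕ) (hu : u < M) (h : dp_bi_25 j u = true) : Good (fa g) T MG M (cP g H) Lt.bi u := by
  unfold dp_bi_25 at h
  rcases brec_true h with h | h
  · exact dp_bi_23_s hinv hr hH j u hu h
  · exact dp_bi_24_s hinv hr hH j u hu h
theorem dp_bi_26_s (hinv : ∀ x, g (inv x) = (g x)⁻¹) (hr : ∀ r ∈ rels, (r.map g).prod = 1) (hH : ∀ r ∈ subs, (r.map g).prod ∈ H)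
    (j u : ℕ) (hu : u < M) (h : dp_bi_26 j u = true) : Good (fa g) T MG M (cP g H) Lt.bi u := by
  unfold dp_bi_26 at h
  rcases brec_true h with h | h
  · exact lF_good (T := T) (x := Lt.bi) (by decide) [Lt.a, Lt.b, Lt.a, Lt.b, Lt.a, Lt.bi, Lt.a, Lt.b, Lt.a, Lt.bi, Lt.a, Lt.b, Lt.a, Lt.bi, Lt.a, Lt.b, Lt.a, Lt.b, Lt.a, Lt.bi, Lt.a, Lt.b, Lt.a, Lt.bi, Lt.a, Lt.b, Lt.a, Lt.bi, Lt.a, Lt.b, Lt.a, Lt.b, Lt.a, Lt.bi, Lt.a, Lt.b, Lt.a, Lt.bi, Lt.a, Lt.b, Lt.a, Lt.bi, Lt.a, Lt.b, Lt.a, Lt.b, Lt.a, Lt.bi, Lt.a, Lt.b, Lt.a, Lt.bi, Lt.a, Lt.b, Lt.a, Lt.bi, Lt.a, Lt.b, Lt.a, Lt.b, Lt.a, Lt.bi, Lt.a, Lt.b, Lt.a, Lt.bi, Lt.a, Lt.b, Lt.a] (hole_rel hinv hr (by decide +kernel)) h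
  · exact lS_good (T := T) (x := Lt.bi) (by decide) hu [Lt.a, Lt.b, Lt.a, Lt.bi, Lt.a, Lt.b, Lt.a, Lt.b, Lt.a, Lt.bi, Lt.a, Lt.bi, Lt.a, Lt.b, Lt.a, Lt.b, Lt.a, Lt.bi, Lt.a, Lt.b, Lt.a, Lt.bi, Lt.a, Lt.b, Lt.a, Lt.bi, Lt.a, Lt.b, Lt.a, Lt.bi, Lt.a, Lt.b, Lt.a, Lt.bi, Lt.a, Lt.b, Lt.a, Lt.bi, Lt.a, Lt.b, Lt.a, Lt.b, Lt.a, Lt.bi, Lt.a, Lt.bi, Lt.a, Lt.b, Lt.a, Lt.b, Lt.a, Lt.bi, Lt.a, Lt.b, Lt.a, Lt.bi, Lt.a, Lt.b, Lt.a, Lt.bi, Lt.a, Lt.b, Lt.a, Lt.bi, Lt.a, Lt.b, Lt.a] (hole_rel hinv hr (by decide +kernel)) h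
theorem dp_bi_27_s (hinv : ∀ x, g (inv x) = (g x)⁻¹) (hr : ∀ r ∈ rels, (r.map g).prod = 1) (hH : ∀ r ∈ subs, (r.map g).prod ∈ H)
    (j u : ℕ) (hu : u < M) (h : dp_bi_27 j u = true) : Good (fa g) T MG M (cP g H) Lt.bi u := by
  unfold dp_bi_27 at h
  rcases brec_true h with h | h
  · exact lF_good (T := T) (x := Lt.bi) (by decide) [Lt.a, Lt.b, Lt.a, Lt.bi, Lt.a, Lt.b, Lt.a, Lt.bi, Lt.a, Lt.b, Lt.a, Lt.b, Lt.a, Lt.bi, Lt.a, Lt.b, Lt.a, Lt.bi, Lt.a, Lt.b, Lt.a, Lt.bi, Lt.a, Lt.b, Lt.a, Lt.b, Lt.a, Lt.bi, Lt.a, Lt.b, Lt.a, Lt.bi, Lt.a, Lt.b, Lt.a, Lt.bi, Lt.a, Lt.b, Lt.a, Lt.b, Lt.a, Lt.bi, Lt.a, Lt.b, Lt.a, Lt.bi, Lt.a, Lt.b, Lt.a, Lt.bi, Lt.a, Lt.b, Lt.a, Lt.b, Lt.a, Lt.bi, Lt.a, Lt.b, Lt.a, Lt.bi, Lt.a, Lt.b, Lt.a, Lt.bi, Lt.a,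 Lt.b, Lt.a, Lt.b, Lt.a] (hole_rel hinv hr (by decide +kernel)) h
  · exact dp_bi_26_s hinv hr hH j u hu h
theorem dp_bi_28_s (hinv : ∀ x, g (inv x) = (g x)⁻¹) (hr : ∀ r ∈ rels, (r.map g).prod = 1) (hH : ∀ r ∈ subs, (r.map g).prod ∈ H)
    (j u : ℕ) (hu : u < M) (h : dp_bi_28 j u = true) : Good (fa g) T MG M (cP g H) Lt.bi u := by
  unfold dp_bi_28 at h
  rcases brec_true h with h | h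
  · exact lS_good (T := T) (x := Lt.bi) (by decide) hu [Lt.a, Lt.b, Lt.a, Lt.bi, Lt.a, Lt.b, Lt.a, Lt.bi, Lt.a, Lt.b, Lt.a, Lt.bi, Lt.a, Lt.b, Lt.a, Lt.bi, Lt.a, Lt.bi, Lt.a, Lt.b, Lt.a, Lt.b, Lt.a, Lt.bi, Lt.a, Lt.bi, Lt.a, Lt.b, Lt.a, Lt.bi, Lt.a, Lt.b, Lt.a, Lt.bi, Lt.a, Lt.b, Lt.a, Lt.bi, Lt.a, Lt.b, Lt.a, Lt.bi, Lt.a, Lt.b, Lt.a, Lt.bi, Lt.a, Lt.b, Lt.a, Lt.bi, Lt.a, Lt.bi, Lt.a, Lt.b, Lt.a, Lt.b, Lt.a, Lt.bi, Lt.a, Lt.bi, Lt.a, Lt.b, Lt.a, Lt.bi, Lt.a, Lt.b, Lt.a] (hole_rel hinv hr (by decide +kernel)) h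
  · exact lS_good (T := T) (x := Lt.bi) (by decide) hu [Lt.a, Lt.b, Lt.a, Lt.b, Lt.a, Lt.bi, Lt.a, Lt.bi, Lt.a, Lt.b, Lt.a, Lt.b, Lt.a, Lt.bi, Lt.a, Lt.b, Lt.a, Lt.bi, Lt.a, Lt.b, Lt.a, Lt.bi, Lt.a, Lt.b, Lt.a, Lt.bi, Lt.a, Lt.b, Lt.a, Lt.bi, Lt.a, Lt.b, Lt.a, Lt.bi, Lt.a, Lt.b, Lt.a, Lt.b, Lt.a, Lt.bi, Lt.a, Lt.bi, Lt.a, Lt.b, Lt.a, Lt.b, Lt.a, Lt.bi, Lt.a, Lt.b, Lt.a, Lt.bi, Lt.a, Lt.b, Lt.a, Lt.bi, Lt.a, Lt.b, Lt.a, Lt.bi, Lt.a, Lt.b, Lt.a, Lt.bi, Lt.a, Lt.b, Lt.a] (hole_rel hinv hr (by decide +kernel)) h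
theorem dp_bi_29_s (hinv : ∀ x, g (inv x) = (g x)⁻¹) (hr : ∀ r ∈ rels, (r.map g).prod = 1) (hH : ∀ r ∈ subs, (r.map g).prod ∈ H)
    (j u : ℕ) (hu : u < M) (h : dp_bi_29 j u = true) : Good (fa g) T MG M (cP g H) Lt.bi u := by
  unfold dp_bi_29 at h
  rcases brec_true h with h | h
  · exact lS_good (T := T) (x := Lt.bi) (by decide) hu [Lt.a, Lt.b, Lt.a, Lt.bi, Lt.a, Lt.b, Lt.a, Lt.bi, Lt.a, Lt.b, Lt.a, Lt.bi, Lt.a, Lt.bi, Lt.a, Lt.b, Lt.a, Lt.b, Lt.a, Lt.bi, Lt.a, Lt.bi, Lt.a, Lt.b, Lt.a, Lt.bi, Lt.a, Lt.b, Lt.a, Lt.bi, Lt.a, Lt.b, Lt.a, Lt.bi, Lt.a, Lt.b, Lt.a, Lt.bi, Lt.a, Lt.b, Lt.a, Lt.bi, Lt.a, Lt.b, Lt.a, Lt.bi, Lt.a, Lt.bi, Lt.a, Lt.b, Lt.a, Lt.b, Lt.a, Lt.bi, Lt.a, Lt.bi, Lt.a, Lt.b, Lt.a, Lt.bi, Lt.a, Lt.b, Lt.a, Lt.bi,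 Lt.a, Lt.b, Lt.a] (hole_rel hinv hr (by decide +kernel)) h
  · exact lS_good (T := T) (x := Lt.bi) (by decide) hu [Lt.a, Lt.b, Lt.a, Lt.bi, Lt.a, Lt.b, Lt.a, Lt.bi, Lt.a, Lt.b, Lt.a, Lt.bi, Lt.a, Lt.b, Lt.a, Lt.bi, Lt.a, Lt.b, Lt.a, Lt.bi, Lt.a, Lt.b, Lt.a, Lt.bi, Lt.a, Lt.bi, Lt.a, Lt.b, Lt.a, Lt.b, Lt.a, Lt.bi, Lt.a, Lt.bi, Lt.a, Lt.b, Lt.a, Lt.bi, Lt.a, Lt.b, Lt.a, Lt.bi, Lt.a, Lt.b, Lt.a, Lt.bi, Lt.a, Lt.b, Lt.a, Lt.bi, Lt.a, Lt.b, Lt.a, Lt.bi, Lt.a, Lt.b, Lt.a, Lt.bi, Lt.a, Lt.bi, Lt.a, Lt.b, Lt.a, Lt.b, Lt.a, Lt.bi, Lt.a] (hole_rel hinv hr (by decide +kernel)) h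
theorem dp_bi_30_s (hinv : ∀ x, g (inv x) = (g x)⁻¹) (hr : ∀ r ∈ rels, (r.map g).prod = 1) (hH : ∀ r ∈ subs, (r.map g).prod ∈ H)
    (j u : ℕ) (hu : u < M) (h : dp_bi_30 j u = true) : Good (fa g) T MG M (cP g H) Lt.bi u := by
  unfold dp_bi_30 at h
  rcases brec_true h with h | h
  · exact dp_bi_28_s hinv hr hH j u hu h
  · exact dp_bi_29_s hinv hr hH j u hu h
theorem dp_bi_31_s (hinv : ∀ x, g (inv x) = (g x)⁻¹) (hr : ∀ r ∈ rels, (r.map g).prod = 1) (hH : ∀ r ∈ subs, (r.map g).prod ∈ H)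
    (j u : ℕ) (hu : u < M) (h : dp_bi_31 j u = true) : Good (fa g) T MG M (cP g H) Lt.bi u := by
  unfold dp_bi_31 at h
  rcases brec_true h with h | h
  · exact dp_bi_27_s hinv hr hH j u hu h
  · exact dp_bi_30_s hinv hr hH j u hu h
theorem dp_bi_32_s (hinv : ∀ x, g (inv x) = (g x)⁻¹) (hr : ∀ r ∈ rels, (r.map g).prod = 1) (hH : ∀ r ∈ subs, (r.map g).prod ∈ H)
    (j u : ℕ) (hu : u < M) (h : dp_bi_32 j u = true) : Good (fa g) T MG M (cP g H) Lt.bi u := by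
  unfold dp_bi_32 at h
  rcases brec_true h with h | h
  · exact dp_bi_25_s hinv hr hH j u hu h
  · exact dp_bi_31_s hinv hr hH j u hu h
theorem dp_bi_33_s (hinv : ∀ x, g (inv x) = (g x)⁻¹) (hr : ∀ r ∈ rels, (r.map g).prod = 1) (hH : ∀ r ∈ subs, (r.map g).prod ∈ H)
    (j u : ℕ) (hu : u < M) (h : dp_bi_33 j u = true) : Good (fa g) T MG M (cP g H) Lt.bi u := by
  unfold dp_bi_33 at h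
  rcases brec_true h with h | h
  · exact dp_bi_22_s hinv hr hH j u hu h
  · exact dp_bi_32_s hinv hr hH j u hu h
theorem dp_bi_34_s (hinv : ∀ x, g (inv x) = (g x)⁻¹) (hr : ∀ r ∈ rels, (r.map g).prod = 1) (hH : ∀ r ∈ subs, (r.map g).prod ∈ H)
    (j u : ℕ) (hu : u < M) (h : dp_bi_34 j u = true) : Good (fa g) T MG M (cP g H) Lt.bi u := by
  unfold dp_bi_34 at h
  rcases brec_true h with h | h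
  · exact dp_bi_19_s hinv hr hH j u hu h
  · exact dp_bi_33_s hinv hr hH j u hu h
theorem dp_bi_35_s (hinv : ∀ x, g (inv x) = (g x)⁻¹) (hr : ∀ r ∈ rels, (r.map g).prod = 1) (hH : ∀ r ∈ subs, (r.map g).prod ∈ H)
    (j u : ℕ) (hu : u < M) (h : dp_bi_35 j u = true) : Good (fa g) T MG M (cP g H) Lt.bi u := by
  unfold dp_bi_35 at h
  rcases brec_true h with h | h
  · exact dp_bi_13_s hinv hr hH j u hu h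
  · exact dp_bi_34_s hinv hr hH j u hu h
theorem dp_bi_36_s (hinv : ∀ x, g (inv x) = (g x)⁻¹) (hr : ∀ r ∈ rels, (r.map g).prod = 1) (hH : ∀ r ∈ subs, (r.map g).prod ∈ H)
    (j u : ℕ) (hu : u < M) (h : dp_bi_36 j u = true) : Good (fa g) T MG M (cP g H) Lt.bi u := by
  unfold dp_bi_36 at h
  rcases brec_true h with h | h
  · exact dp_bi_5_s hinv hr hH j u hu h
  · exact dp_bi_35_s hinv hr hH j u hu h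
theorem dp_bi_37_s (hinv : ∀ x, g (inv x) = (g x)⁻¹) (hr : ∀ r ∈ rels, (r.map g).prod = 1) (hH : ∀ r ∈ subs, (r.map g).prod ∈ H)
    (j u : ℕ) (hu : u < M) (h : dp_bi_37 j u = true) : Good (fa g) T MG M (cP g H) Lt.bi u := by
  unfold dp_bi_37 at h
  rcases brec_true h with h | h
  · exact lF_good (T := T) (x := Lt.bi) (by decide) [Lt.a, Lt.bi, Lt.a, Lt.bi, Lt.a, Lt.bi, Lt.a, Lt.bi, Lt.a, Lt.bi, Lt.a, Lt.bi, Lt.a] (hole_rel hinv hr (by decide +kernel)) h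
  · exact dp_bi_36_s hinv hr hH j u hu h
theorem dp_bi_38_s (hinv : ∀ x, g (inv x) = (g x)⁻¹) (hr : ∀ r ∈ rels, (r.map g).prod = 1) (hH : ∀ r ∈ subs, (r.map g).prod ∈ H)
    (j u : ℕ) (hu : u < M) (h : dp_bi_38 j u = true) : Good (fa g) T MG M (cP g H) Lt.bi u := by
  unfold dp_bi_38 at h
  rcases brec_true h with h | h
  · exact lF_good (T := T) (x := Lt.bi) (by decide) [Lt.bi, Lt.bi] (hole_rel hinv hr (by decide +kernel)) h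
  · exact dp_bi_37_s hinv hr hH j u hu h
theorem dp_bi_39_s (hinv : ∀ x, g (inv x) = (g x)⁻¹) (hr : ∀ r ∈ rels, (r.map g).prod = 1) (hH : ∀ r ∈ subs, (r.map g).prod ∈ H)
    (j u : ℕ) (hu : u < M) (h : dp_bi_39 j u = true) : Good (fa g) T MG M (cP g H) Lt.bi u := by
  unfold dp_bi_39 at h
  rcases brec_true h with h | h
  · exact lDef_good (T := T) (x := Lt.bi) (by decide) rfl h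
  · exact dp_bi_38_s hinv hr hH j u hu h
theorem snd_bi (hinv : ∀ x, g (inv x) = (g x)⁻¹) (hr : ∀ r ∈ rels, (r.map g).prod = 1) (hH : ∀ r ∈ subs, (r.map g).prod ∈ H)
    (j u : ℕ) (hu : u < M) (h : disp_bi j u = true) : Good (fa g) T MG M (cP g H) Lt.bi u := by
  unfold disp_bi at h
  rcases brec_true h with h | h
  · rcases brec_true h with h | h
    · exact lF1_good (T := T) (x := Lt.bi) (by decide) .b (hole_rel hinv hr (by decide +kernel)) h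
    · exact lPar_good (T := T) (x := Lt.bi) (x' := Lt.b) (by decide) rfl (inv_rel hinv _ _ rfl) h
  · exact dp_bi_39_s hinv hr hH j u hu h
theorem snc_bi (hinv : ∀ x, g (inv x) = (g x)⁻¹) (hr : ∀ r ∈ rels, (r.map g).prod = 1) (hH : ∀ r ∈ subs, (r.map g).prod ∈ H)
    (j u : ℕ) (hu : u < M) (h : chk_bi j u = true) : (T Lt.bi u < A ∧ Good (fa g) T MG M (cP g H) Lt.bi u) ∨ (A ≤ T Lt.bi u ∧ MG u < A) := by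
  unfold chk_bi at h
  cases hb : Nat.ble A (T_bi u) with
  | true => rw [hb] at h; exact Or.inr ⟨le_of_ble hb, le_of_ble h⟩
  | false => rw [hb] at h; exact Or.inl ⟨lt_of_ble_false hb, snd_bi hinv hr hH j u hu h⟩
theorem dM_0_s (hinv : ∀ x, g (inv x) = (g x)⁻¹) (hr : ∀ r ∈ rels, (r.map g).prod = 1) (j z1 z2 u : ℕ) (h : dM_0 j z1 z2 u = true) : GoodM (fa g) T MG M (cP g H) u := by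
  unfold dM_0 at h
  rcases brec_true h with h | h
  · exact mCo_good (T := T) (y := .a) (by decide) h
  · exact mCo_good (T := T) (y := .b) (by decide) h
theorem dM_1_s (hinv : ∀ x, g (inv x) = (g x)⁻¹) (hr : ∀ r ∈ rels, (r.map g).prod = 1) (j z1 z2 u : ℕ) (h : dM_1 j z1 z2 u = true) : GoodM (fa g) T MG M (cP g H) u := by
  unfold dM_1 at h
  rcases brec_true h with h | h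
  · exact mCo_good (T := T) (y := .bi) (by decide) h
  · rcases brec_true h with h | h
    · rcases brec_true h with h | h
      · exact mRel_good (T := T) (by decide) [Lt.a, Lt.b, Lt.a, Lt.b, Lt.a, Lt.b, Lt.a] [Lt.bi, Lt.a, Lt.bi, Lt.a, Lt.bi, Lt.a, Lt.bi] (pair_rel hinv hr (by decide +kernel)) h
      · exact mRel_good (T := T) (by decide) [Lt.b, Lt.a, Lt.b, Lt.a, Lt.b, Lt.a, Lt.b, Lt.a] [Lt.a, Lt.bi, Lt.a, Lt.bi, Lt.a, Lt.bi] (pair_rel hinv hr (by decide +kernel)) h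
    · rcases brec_true h with h | h
      · rcases brec_true h with h | h
        · exact mRel_good (T := T) (by decide) [Lt.a, Lt.bi, Lt.a, Lt.bi, Lt.a, Lt.bi, Lt.a] [Lt.b, Lt.a, Lt.b, Lt.a, Lt.b, Lt.a, Lt.b] (pair_rel hinv hr (by decide +kernel)) h
        · exact mRel_good (T := T) (by decide) [Lt.a, Lt.bi, Lt.a, Lt.bi, Lt.a, Lt.bi, Lt.a, Lt.bi, Lt.a] [Lt.b, Lt.a, Lt.b, Lt.a, Lt.b] (pair_rel hinv hr (by decide +kernel)) h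
      · rcases brec_true h with h | h
        · exact mRel_good (T := T) (by decide) [Lt.b, Lt.a, Lt.b, Lt.a, Lt.b, Lt.a, Lt.b, Lt.a, Lt.b, Lt.a] [Lt.a, Lt.bi, Lt.a, Lt.bi] (pair_rel hinv hr (by decide +kernel)) h
        · exact mRel_good (T := T) (by decide) [Lt.a, Lt.b, Lt.a, Lt.b, Lt.a, Lt.b, Lt.a, Lt.b, Lt.a] [Lt.bi, Lt.a, Lt.bi, Lt.a, Lt.bi] (pair_rel hinv hr (by decide +kernel)) h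
theorem dM_2_s (hinv : ∀ x, g (inv x) = (g x)⁻¹) (hr : ∀ r ∈ rels, (r.map g).prod = 1) (j z1 z2 u : ℕ) (h : dM_2 j z1 z2 u = true) : GoodM (fa g) T MG M (cP g H) u := by
  unfold dM_2 at h
  rcases brec_true h with h | h
  · rcases brec_true h with h | h
    · exact mRel_good (T := T) (by decide) [Lt.bi, Lt.a, Lt.bi, Lt.a, Lt.bi, Lt.a, Lt.bi, Lt.a] [Lt.a, Lt.b, Lt.a, Lt.b, Lt.a, Lt.b] (pair_rel hinv hr (by decide +kernel)) h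
    · rcases brec_true h with h | h
      · exact mRel_good (T := T) (by decide) [Lt.a, Lt.bi, Lt.a, Lt.bi, Lt.a, Lt.bi, Lt.a, Lt.bi, Lt.a, Lt.bi, Lt.a] [Lt.b, Lt.a, Lt.b] (pair_rel hinv hr (by decide +kernel)) h
      · exact mRel_good (T := T) (by decide) [Lt.b, Lt.a, Lt.b, Lt.a, Lt.b, Lt.a] [Lt.a, Lt.bi, Lt.a, Lt.bi, Lt.a, Lt.bi, Lt.a, Lt.bi] (pair_rel hinv hr (by decide +kernel)) h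
  · rcases brec_true h with h | h
    · rcases brec_true h with h | h
      · exact mRel_good (T := T) (by decide) [Lt.bi, Lt.a, Lt.bi, Lt.a, Lt.bi] [Lt.a, Lt.b, Lt.a, Lt.b, Lt.a, Lt.b, Lt.a, Lt.b, Lt.a] (pair_rel hinv hr (by decide +kernel)) h
      · exact mRel_good (T := T) (by decide) [Lt.bi, Lt.a, Lt.bi, Lt.a] [Lt.a, Lt.b, Lt.a, Lt.b, Lt.a, Lt.b, Lt.a, Lt.b, Lt.a, Lt.b] (pair_rel hinv hr (by decide +kernel)) h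
    · rcases brec_true h with h | h
      · exact mRel_good (T := T) (by decide) [Lt.a, Lt.b, Lt.a, Lt.b, Lt.a, Lt.b, Lt.a, Lt.b, Lt.a, Lt.b, Lt.a] [Lt.bi, Lt.a, Lt.bi] (pair_rel hinv hr (by decide +kernel)) h
      · exact mRel_good (T := T) (by decide) [Lt.b, Lt.a, Lt.b, Lt.a, Lt.b, Lt.a, Lt.b, Lt.a, Lt.b, Lt.a, Lt.b, Lt.a] [Lt.a, Lt.bi] (pair_rel hinv hr (by decide +kernel)) h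
theorem dM_3_s (hinv : ∀ x, g (inv x) = (g x)⁻¹) (hr : ∀ r ∈ rels, (r.map g).prod = 1) (j z1 z2 u : ℕ) (h : dM_3 j z1 z2 u = true) : GoodM (fa g) T MG M (cP g H) u := by
  unfold dM_3 at h
  rcases brec_true h with h | h
  · rcases brec_true h with h | h
    · exact mRel_good (T := T) (by decide) [Lt.b, Lt.a, Lt.b, Lt.a] [Lt.a, Lt.bi, Lt.a, Lt.bi, Lt.a, Lt.bi, Lt.a, Lt.bi, Lt.a, Lt.bi] (pair_rel hinv hr (by decide +kernel)) h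
    · rcases brec_true h with h | h
      · exact mRel_good (T := T) (by decide) [Lt.a, Lt.bi, Lt.a, Lt.bi, Lt.a] [Lt.b, Lt.a, Lt.b, Lt.a, Lt.b, Lt.a, Lt.b, Lt.a, Lt.b] (pair_rel hinv hr (by decide +kernel)) h
      · exact mRel_good (T := T) (by decide) [Lt.bi, Lt.a, Lt.bi, Lt.a, Lt.bi, Lt.a, Lt.bi, Lt.a, Lt.bi, Lt.a] [Lt.a, Lt.b, Lt.a, Lt.b] (pair_rel hinv hr (by decide +kernel)) h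
  · rcases brec_true h with h | h
    · rcases brec_true h with h | h
      · exact mRel_good (T := T) (by decide) [Lt.bi, Lt.a, Lt.bi] [Lt.a, Lt.b, Lt.a, Lt.b, Lt.a, Lt.b, Lt.a, Lt.b, Lt.a, Lt.b, Lt.a] (pair_rel hinv hr (by decide +kernel)) h
      · exact mRel_good (T := T) (by decide) [Lt.a, Lt.b, Lt.a, Lt.b, Lt.a, Lt.b] [Lt.bi, Lt.a, Lt.bi, Lt.a, Lt.bi, Lt.a, Lt.bi, Lt.a] (pair_rel hinv hr (by decide +kernel)) h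
    · rcases brec_true h with h | h
      · exact mRel_good (T := T) (by decide) [Lt.a, Lt.b, Lt.a, Lt.b, Lt.a, Lt.b, Lt.a, Lt.b, Lt.a, Lt.b] [Lt.bi, Lt.a, Lt.bi, Lt.a] (pair_rel hinv hr (by decide +kernel)) h
      · exact mRel_good (T := T) (by decide) [Lt.a, Lt.b, Lt.a, Lt.b, Lt.a, Lt.b, Lt.a, Lt.b] [Lt.bi, Lt.a, Lt.bi, Lt.a, Lt.bi, Lt.a] (pair_rel hinv hr (by decide +kernel)) h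
theorem dM_4_s (hinv : ∀ x, g (inv x) = (g x)⁻¹) (hr : ∀ r ∈ rels, (r.map g).prod = 1) (j z1 z2 u : ℕ) (h : dM_4 j z1 z2 u = true) : GoodM (fa g) T MG M (cP g H) u := by
  unfold dM_4 at h
  rcases brec_true h with h | h
  · rcases brec_true h with h | h
    · exact mRel_good (T := T) (by decide) [Lt.a, Lt.bi, Lt.a, Lt.bi, Lt.a, Lt.bi, Lt.a, Lt.bi] [Lt.b, Lt.a, Lt.b, Lt.a, Lt.b, Lt.a] (pair_rel hinv hr (by decide +kernel)) h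
    · exact mRel_good (T := T) (by decide) [Lt.b, Lt.a, Lt.b, Lt.a, Lt.b, Lt.a, Lt.b, Lt.a, Lt.b] [Lt.a, Lt.bi, Lt.a, Lt.bi, Lt.a] (pair_rel hinv hr (by decide +kernel)) h
  · rcases brec_true h with h | h
    · exact mRel_good (T := T) (by decide) [Lt.a, Lt.b, Lt.a, Lt.b, Lt.a] [Lt.bi, Lt.a, Lt.bi, Lt.a, Lt.bi, Lt.a, Lt.bi, Lt.a, Lt.bi] (pair_rel hinv hr (by decide +kernel)) h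
    · rcases brec_true h with h | h
      · exact mRel_good (T := T) (by decide) [Lt.bi, Lt.a, Lt.bi, Lt.a, Lt.bi, Lt.a, Lt.bi, Lt.a, Lt.bi, Lt.a, Lt.bi, Lt.a] [Lt.a, Lt.b] (pair_rel hinv hr (by decide +kernel)) h
      · exact mRel_good (T := T) (by decide) [Lt.b, Lt.a, Lt.bi, Lt.a, Lt.bi, Lt.a, Lt.b, Lt.a, Lt.bi, Lt.a, Lt.b, Lt.a, Lt.bi, Lt.a, Lt.b, Lt.a, Lt.bi, Lt.a, Lt.b, Lt.a, Lt.bi, Lt.a, Lt.b, Lt.a, Lt.bi, Lt.a, Lt.b, Lt.a, Lt.bi, Lt.a, Lt.bi, Lt.a, Lt.b, Lt.a, Lt.b, Lt.a, Lt.bi, Lt.a, Lt.bi, Lt.a, Lt.b, Lt.a] [Lt.a, Lt.bi, Lt.a, Lt.b, Lt.a, Lt.b, Lt.a, Lt.bi, Lt.a, Lt.b, Lt.a, Lt.bi, Lt.a, Lt.b, Lt.a, Lt.bi, Lt.a, Lt.b, Lt.a, Lt.bi, Lt.a, Lt.b, Lt.a, Lt.bi, Lt.a, Lt.b] (pair_rel hinv hr (by decide +kernel)) h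
theorem dM_5_s (hinv : ∀ x, g (inv x) = (g x)⁻¹) (hr : ∀ r ∈ rels, (r.map g).prod = 1) (j z1 z2 u : ℕ) (h : dM_5 j z1 z2 u = true) : GoodM (fa g) T MG M (cP g H) u := by
  unfold dM_5 at h
  rcases brec_true h with h | h
  · rcases brec_true h with h | h
    · rcases brec_true h with h | h
      · exact mRel_good (T := T) (by decide) [Lt.b, Lt.a, Lt.b, Lt.a, Lt.bi, Lt.a, Lt.bi, Lt.a, Lt.b, Lt.a, Lt.bi, Lt.a, Lt.b, Lt.a, Lt.bi, Lt.a, Lt.b, Lt.a, Lt.bi, Lt.a, Lt.b, Lt.a, Lt.bi, Lt.a, Lt.b, Lt.a, Lt.bi, Lt.a] [Lt.a, Lt.b, Lt.a, Lt.b, Lt.a, Lt.bi, Lt.a, Lt.b, Lt.a, Lt.bi, Lt.a, Lt.b, Lt.a, Lt.bi, Lt.a, Lt.b, Lt.a, Lt.bi, Lt.a, Lt.b, Lt.a, Lt.bi, Lt.a, Lt.b, Lt.a, Lt.bi, Lt.a, Lt.b, Lt.a, Lt.b, Lt.a, Lt.bi, Lt.a, Lt.bi, Lt.a, Lt.b,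 Lt.a, Lt.b, Lt.a, Lt.bi] (pair_rel hinv hr (by decide +kernel)) h
      · exact mRel_good (T := T) (by decide) [Lt.b, Lt.a, Lt.bi, Lt.a, Lt.b, Lt.a, Lt.bi, Lt.a, Lt.b, Lt.a, Lt.bi, Lt.a, Lt.bi, Lt.a, Lt.b, Lt.a, Lt.b, Lt.a, Lt.bi, Lt.a, Lt.bi, Lt.a, Lt.b, Lt.a, Lt.bi, Lt.a, Lt.b, Lt.a, Lt.bi, Lt.a, Lt.b, Lt.a, Lt.bi, Lt.a, Lt.b, Lt.a] [Lt.a, Lt.b, Lt.a, Lt.bi, Lt.a, Lt.b, Lt.a, Lt.bi, Lt.a, Lt.b, Lt.a, Lt.bi, Lt.a, Lt.b, Lt.a, Lt.b, Lt.a, Lt.bi, Lt.a, Lt.bi, Lt.a, Lt.b, Lt.a, Lt.b, Lt.a, Lt.bi, Lt.a, Lt.b, Lt.a, Lt.bi, Lt.a, Lt.b] (pair_rel hinv hr (by decide +kernel)) h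
    · rcases brec_true h with h | h
      · exact mRel_good (T := T) (by decide) [Lt.bi, Lt.a, Lt.b, Lt.a, Lt.bi, Lt.a, Lt.b, Lt.a, Lt.bi, Lt.a, Lt.b, Lt.a, Lt.b, Lt.a, Lt.bi, Lt.a, Lt.bi, Lt.a, Lt.b, Lt.a, Lt.b, Lt.a, Lt.bi, Lt.a, Lt.b, Lt.a, Lt.bi, Lt.a, Lt.b, Lt.a, Lt.bi, Lt.a, Lt.b, Lt.a, Lt.bi, Lt.a] [Lt.a, Lt.bi, Lt.a, Lt.b, Lt.a, Lt.bi, Lt.a, Lt.b, Lt.a, Lt.bi, Lt.a, Lt.b, Lt.a, Lt.bi, Lt.a, Lt.bi, Lt.a, Lt.b, Lt.a, Lt.b, Lt.a, Lt.bi, Lt.a, Lt.bi, Lt.a, Lt.b, Lt.a, Lt.bi, Lt.a, Lt.b, Lt.a, Lt.bi] (pair_rel hinv hr (by decide +kernel)) h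
      · exact mRel_good (T := T) (by decide) [Lt.a, Lt.bi, Lt.a, Lt.b, Lt.a, Lt.bi, Lt.a, Lt.b, Lt.a, Lt.bi, Lt.a, Lt.b, Lt.a, Lt.bi, Lt.a] [Lt.bi, Lt.a, Lt.bi, Lt.a, Lt.b, Lt.a, Lt.b, Lt.a, Lt.bi, Lt.a, Lt.bi, Lt.a, Lt.b, Lt.a, Lt.bi, Lt.a, Lt.b, Lt.a, Lt.bi, Lt.a, Lt.b, Lt.a, Lt.bi, Lt.a, Lt.b, Lt.a, Lt.bi, Lt.a, Lt.b, Lt.a, Lt.bi, Lt.a, Lt.b, Lt.a, Lt.bi, Lt.a, Lt.bi, Lt.a, Lt.b, Lt.a, Lt.b, Lt.a, Lt.bi, Lt.a, Lt.bi, Lt.a, Lt.b, Lt.a, Lt.bi, Lt.a, Lt.b, Lt.a, Lt.bi] (pair_rel hinv hr (by decide +kernel)) h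
  · rcases brec_true h with h | h
    · rcases brec_true h with h | h
      · exact mRel_good (T := T) (by decide) [Lt.a, Lt.bi, Lt.a, Lt.b, Lt.a, Lt.bi, Lt.a, Lt.b, Lt.a, Lt.bi, Lt.a, Lt.b, Lt.a, Lt.bi, Lt.a, Lt.b, Lt.a, Lt.bi, Lt.a, Lt.b] [Lt.bi, Lt.a, Lt.bi, Lt.a, Lt.b, Lt.a, Lt.b, Lt.a, Lt.bi, Lt.a, Lt.bi, Lt.a, Lt.b, Lt.a, Lt.bi, Lt.a, Lt.b, Lt.a, Lt.bi, Lt.a, Lt.b, Lt.a, Lt.bi, Lt.a, Lt.b, Lt.a, Lt.bi, Lt.a, Lt.b, Lt.a, Lt.bi, Lt.a, Lt.b, Lt.a, Lt.bi, Lt.a, Lt.bi, Lt.a, Lt.b, Lt.a, Lt.b, Lt.a, Lt.bi, Lt.a, Lt.bi, Lt.a, Lt.b, Lt.a] (pair_rel hinv hr (by decide +kernel)) h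
      · exact mRel_good (T := T) (by decide) [Lt.a, Lt.bi, Lt.a, Lt.b, Lt.a, Lt.bi, Lt.a, Lt.b, Lt.a, Lt.bi, Lt.a, Lt.b, Lt.a, Lt.bi, Lt.a, Lt.b, Lt.a, Lt.bi, Lt.a, Lt.bi, Lt.a, Lt.b] [Lt.bi, Lt.a, Lt.b, Lt.a, Lt.bi, Lt.a, Lt.b, Lt.a, Lt.b, Lt.a, Lt.bi, Lt.a, Lt.bi, Lt.a, Lt.b, Lt.a, Lt.b, Lt.a, Lt.bi, Lt.a, Lt.b, Lt.a, Lt.bi, Lt.a, Lt.b, Lt.a, Lt.bi, Lt.a, Lt.b, Lt.a, Lt.bi, Lt.a, Lt.b, Lt.a, Lt.bi, Lt.a, Lt.b, Lt.a, Lt.bi, Lt.a, Lt.b, Lt.a, Lt.b, Lt.a, Lt.bi, Lt.a] (pair_rel hinv hr (by decide +kernel)) h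
    · rcases brec_true h with h | h
      · exact mRel_good (T := T) (by decide) [Lt.b, Lt.a, Lt.bi, Lt.a, Lt.b, Lt.a, Lt.bi, Lt.a, Lt.b] [Lt.a, Lt.b, Lt.a, Lt.bi, Lt.a, Lt.bi, Lt.a, Lt.b, Lt.a, Lt.b, Lt.a, Lt.bi, Lt.a, Lt.bi, Lt.a, Lt.b, Lt.a, Lt.bi, Lt.a, Lt.b, Lt.a, Lt.bi, Lt.a, Lt.b, Lt.a, Lt.bi, Lt.a, Lt.b, Lt.a, Lt.bi, Lt.a, Lt.b, Lt.a, Lt.bi, Lt.a, Lt.b, Lt.a, Lt.bi, Lt.a, Lt.bi, Lt.a, Lt.b, Lt.a, Lt.b, Lt.a, Lt.bi, Lt.a, Lt.bi, Lt.a, Lt.b, Lt.a, Lt.bi, Lt.a, Lt.b, Lt.a, Lt.bi, Lt.a, Lt.b, Lt.a] (pair_rel hinv hr (by decide +kernel)) h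
      · rcases brec_true h with h | h
        · exact mRel_good (T := T) (by decide) [Lt.a, Lt.bi, Lt.a, Lt.b, Lt.a, Lt.bi, Lt.a, Lt.b, Lt.a, Lt.bi, Lt.a, Lt.b, Lt.a, Lt.bi, Lt.a, Lt.b, Lt.a, Lt.b, Lt.a, Lt.bi, Lt.a, Lt.bi, Lt.a, Lt.b, Lt.a, Lt.b, Lt.a, Lt.bi, Lt.a, Lt.b, Lt.a, Lt.bi, Lt.a, Lt.b, Lt.a, Lt.bi, Lt.a, Lt.b, Lt.a, Lt.bi] [Lt.bi, Lt.a, Lt.b, Lt.a, Lt.bi, Lt.a, Lt.b, Lt.a, Lt.bi, Lt.a, Lt.bi, Lt.a, Lt.b, Lt.a, Lt.b, Lt.a, Lt.bi, Lt.a, Lt.bi, Lt.a, Lt.b, Lt.a, Lt.bi, Lt.a, Lt.b, Lt.a, Lt.bi, Lt.a] (pair_rel hinv hr (by decide +kernel)) h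
        · exact mRel_good (T := T) (by decide) [Lt.a, Lt.bi, Lt.a, Lt.b, Lt.a, Lt.bi, Lt.a, Lt.b, Lt.a, Lt.bi, Lt.a, Lt.b, Lt.a, Lt.bi, Lt.a, Lt.b, Lt.a, Lt.bi, Lt.a, Lt.b, Lt.a, Lt.bi, Lt.a, Lt.b, Lt.a, Lt.bi, Lt.a, Lt.bi, Lt.a, Lt.b, Lt.a, Lt.b, Lt.a, Lt.bi, Lt.a, Lt.bi] [Lt.b, Lt.a, Lt.bi, Lt.a, Lt.bi, Lt.a, Lt.b, Lt.a, Lt.b, Lt.a, Lt.bi, Lt.a, Lt.b, Lt.a, Lt.bi, Lt.a, Lt.b, Lt.a, Lt.bi, Lt.a, Lt.b, Lt.a, Lt.bi, Lt.a, Lt.b, Lt.a, Lt.bi, Lt.a, Lt.b, Lt.a, Lt.bi, Lt.a] (pair_rel hinv hr (by decide +kernel)) h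
theorem dM_6_s (hinv : ∀ x, g (inv x) = (g x)⁻¹) (hr : ∀ r ∈ rels, (r.map g).prod = 1) (j z1 z2 u : ℕ) (h : dM_6 j z1 z2 u = true) : GoodM (fa g) T MG M (cP g H) u := by
  unfold dM_6 at h
  rcases brec_true h with h | h
  · exact dM_4_s hinv hr j z1 z2 u h
  · exact dM_5_s hinv hr j z1 z2 u h
theorem dM_7_s (hinv : ∀ x, g (inv x) = (g x)⁻¹) (hr : ∀ r ∈ rels, (r.map g).prod = 1) (j z1 z2 u : ℕ) (h : dM_7 j z1 z2 u = true) : GoodM (fa g) T MG M (cP g H) u := by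
  unfold dM_7 at h
  rcases brec_true h with h | h
  · exact dM_3_s hinv hr j z1 z2 u h
  · exact dM_6_s hinv hr j z1 z2 u h
theorem dM_8_s (hinv : ∀ x, g (inv x) = (g x)⁻¹) (hr : ∀ r ∈ rels, (r.map g).prod = 1) (j z1 z2 u : ℕ) (h : dM_8 j z1 z2 u = true) : GoodM (fa g) T MG M (cP g H) u := by
  unfold dM_8 at h
  rcases brec_true h with h | h
  · exact dM_2_s hinv hr j z1 z2 u h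
  · exact dM_7_s hinv hr j z1 z2 u h
theorem dM_9_s (hinv : ∀ x, g (inv x) = (g x)⁻¹) (hr : ∀ r ∈ rels, (r.map g).prod = 1) (j z1 z2 u : ℕ) (h : dM_9 j z1 z2 u = true) : GoodM (fa g) T MG M (cP g H) u := by
  unfold dM_9 at h
  rcases brec_true h with h | h
  · rcases brec_true h with h | h
    · rcases brec_true h with h | h
      · exact mRel_good (T := T) (by decide) [Lt.a, Lt.b, Lt.a, Lt.bi, Lt.a, Lt.b, Lt.a, Lt.bi, Lt.a, Lt.b, Lt.a, Lt.bi, Lt.a, Lt.b, Lt.a, Lt.b, Lt.a, Lt.bi, Lt.a, Lt.bi, Lt.a, Lt.b, Lt.a, Lt.b, Lt.a, Lt.bi] [Lt.b, Lt.a, Lt.bi, Lt.a, Lt.b, Lt.a, Lt.bi, Lt.a, Lt.b, Lt.a, Lt.bi, Lt.a, Lt.bi, Lt.a, Lt.b, Lt.a, Lt.b, Lt.a, Lt.bi, Lt.a, Lt.bi, Lt.a, Lt.b, Lt.a, Lt.bi, Lt.a, Lt.b, Lt.a, Lt.bi, Lt.a, Lt.b, Lt.a,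 Lt.bi, Lt.a, Lt.b, Lt.a, Lt.bi, Lt.a, Lt.b, Lt.a, Lt.bi, Lt.a] (pair_rel hinv hr (by decide +kernel)) h
      · exact mRel_good (T := T) (by decide) [Lt.bi, Lt.a, Lt.b, Lt.a, Lt.b, Lt.a, Lt.bi, Lt.a, Lt.bi, Lt.a, Lt.b, Lt.a, Lt.b, Lt.a, Lt.bi, Lt.a, Lt.b, Lt.a, Lt.bi, Lt.a, Lt.b, Lt.a, Lt.bi, Lt.a, Lt.b, Lt.a, Lt.bi] [Lt.a, Lt.bi, Lt.a, Lt.b, Lt.a, Lt.bi, Lt.a, Lt.b, Lt.a, Lt.bi, Lt.a, Lt.b, Lt.a, Lt.bi, Lt.a, Lt.b, Lt.a, Lt.bi, Lt.a, Lt.b, Lt.a, Lt.bi, Lt.a, Lt.bi, Lt.a, Lt.b, Lt.a, Lt.b, Lt.a, Lt.bi, Lt.a, Lt.bi, Lt.a, Lt.b, Lt.a, Lt.bi, Lt.a, Lt.b, Lt.a, Lt.bi, Lt.a] (pair_rel hinv hr (by decide +kernel)) h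
    · rcases brec_true h with h | h
      · exact mRel_good (T := T) (by decide) [Lt.b, Lt.a, Lt.b, Lt.a, Lt.b, Lt.a, Lt.b, Lt.a, Lt.b, Lt.a, Lt.b, Lt.a, Lt.b] [Lt.a] (pair_rel hinv hr (by decide +kernel)) h
      · exact mRel_good (T := T) (by decide) [Lt.a, Lt.bi, Lt.a, Lt.bi, Lt.a, Lt.bi] [Lt.b, Lt.a, Lt.b, Lt.a, Lt.b, Lt.a, Lt.b, Lt.a] (pair_rel hinv hr (by decide +kernel)) h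
  · rcases brec_true h with h | h
    · rcases brec_true h with h | h
      · exact mRel_good (T := T) (by decide) [Lt.bi, Lt.a, Lt.bi] [Lt.a, Lt.bi, Lt.a, Lt.bi, Lt.a, Lt.b, Lt.a, Lt.b, Lt.a, Lt.bi, Lt.a, Lt.b, Lt.a, Lt.bi, Lt.a, Lt.b, Lt.a, Lt.bi, Lt.a, Lt.b, Lt.a, Lt.bi, Lt.a, Lt.b, Lt.a, Lt.bi, Lt.a, Lt.b, Lt.a, Lt.bi, Lt.a, Lt.b, Lt.a, Lt.b, Lt.a, Lt.bi, Lt.a, Lt.bi, Lt.a, Lt.b, Lt.a, Lt.b, Lt.a, Lt.bi, Lt.a, Lt.b, Lt.a, Lt.bi, Lt.a, Lt.b, Lt.a, Lt.bi, Lt.a, Lt.b, Lt.a, Lt.bi, Lt.a, Lt.b, Lt.a, Lt.bi, Lt.a, Lt.b, Lt.a, Lt.bi, Lt.a] (pair_rel hinv hr (by decide +kernel)) h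
      · exact mRel_good (T := T) (by decide) [Lt.a, Lt.b, Lt.a, Lt.b, Lt.a, Lt.bi, Lt.a, Lt.b, Lt.a, Lt.bi, Lt.a, Lt.b, Lt.a, Lt.bi, Lt.a, Lt.b, Lt.a, Lt.bi, Lt.a, Lt.b, Lt.a, Lt.bi, Lt.a, Lt.b, Lt.a, Lt.bi, Lt.a, Lt.b, Lt.a, Lt.b, Lt.a, Lt.bi, Lt.a, Lt.bi, Lt.a, Lt.b] [Lt.b, Lt.a, Lt.b, Lt.a, Lt.bi, Lt.a, Lt.bi, Lt.a, Lt.b, Lt.a, Lt.bi, Lt.a, Lt.b, Lt.a, Lt.bi, Lt.a, Lt.b, Lt.a, Lt.bi, Lt.a, Lt.b, Lt.a, Lt.bi, Lt.a, Lt.b, Lt.a, Lt.bi, Lt.a, Lt.b, Lt.a, Lt.bi, Lt.a] (pair_rel hinv hr (by decide +kernel)) h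
    · rcases brec_true h with h | h
      · exact mRel_good (T := T) (by decide) [Lt.b, Lt.a, Lt.bi, Lt.a, Lt.bi, Lt.a, Lt.b, Lt.a, Lt.b, Lt.a, Lt.bi, Lt.a, Lt.b, Lt.a, Lt.bi, Lt.a, Lt.b, Lt.a, Lt.bi, Lt.a, Lt.b, Lt.a, Lt.bi, Lt.a, Lt.b, Lt.a, Lt.bi, Lt.a, Lt.b] [Lt.a, Lt.bi, Lt.a, Lt.b, Lt.a, Lt.bi, Lt.a, Lt.b, Lt.a, Lt.bi, Lt.a, Lt.b, Lt.a, Lt.bi, Lt.a, Lt.b, Lt.a, Lt.bi, Lt.a, Lt.b, Lt.a, Lt.bi, Lt.a, Lt.b, Lt.a, Lt.bi, Lt.a, Lt.bi, Lt.a, Lt.b, Lt.a, Lt.b, Lt.a, Lt.bi, Lt.a, Lt.bi, Lt.a, Lt.b, Lt.a] (pair_rel hinv hr (by decide +kernel)) h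
      · exact mRel_good (T := T) (by decide) [Lt.a, Lt.b, Lt.a, Lt.bi, Lt.a, Lt.b, Lt.a, Lt.bi, Lt.a, Lt.b, Lt.a, Lt.bi, Lt.a, Lt.b, Lt.a, Lt.b, Lt.a, Lt.bi, Lt.a, Lt.bi, Lt.a, Lt.b] [Lt.b, Lt.a, Lt.bi, Lt.a, Lt.b, Lt.a, Lt.bi, Lt.a, Lt.b, Lt.a, Lt.bi, Lt.a, Lt.bi, Lt.a, Lt.b, Lt.a, Lt.b, Lt.a, Lt.bi, Lt.a, Lt.bi, Lt.a, Lt.b, Lt.a, Lt.bi, Lt.a, Lt.b, Lt.a, Lt.bi, Lt.a, Lt.b, Lt.a, Lt.bi, Lt.a, Lt.b, Lt.a, Lt.bi, Lt.a, Lt.b, Lt.a, Lt.bi, Lt.a, Lt.b, Lt.a, Lt.bi, Lt.a] (pair_rel hinv hr (by decide +kernel)) h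
theorem dM_10_s (hinv : ∀ x, g (inv x) = (g x)⁻¹) (hr : ∀ r ∈ rels, (r.map g).prod = 1) (j z1 z2 u : ℕ) (h : dM_10 j z1 z2 u = true) : GoodM (fa g) T MG M (cP g H) u := by
  unfold dM_10 at h
  rcases brec_true h with h | h
  · rcases brec_true h with h | h
    · rcases brec_true h with h | h
      · exact mRel_good (T := T) (by decide) [Lt.b, Lt.a, Lt.bi, Lt.a, Lt.b, Lt.a, Lt.b, Lt.a, Lt.bi, Lt.a, Lt.bi, Lt.a, Lt.b, Lt.a, Lt.b, Lt.a, Lt.bi, Lt.a, Lt.b, Lt.a, Lt.bi, Lt.a, Lt.b, Lt.a, Lt.bi, Lt.a, Lt.b, Lt.a, Lt.bi, Lt.a, Lt.b, Lt.a, Lt.bi, Lt.a, Lt.b, Lt.a, Lt.bi, Lt.a, Lt.b, Lt.a, Lt.b, Lt.a, Lt.bi] [Lt.a, Lt.b, Lt.a, Lt.bi, Lt.a, Lt.b, Lt.a, Lt.bi, Lt.a, Lt.b, Lt.a, Lt.bi, Lt.a, Lt.b, Lt.a, Lt.bi, Lt.a, Lt.b, Lt.a, Lt.bi, Lt.a,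 Lt.bi, Lt.a, Lt.b, Lt.a] (pair_rel hinv hr (by decide +kernel)) h
      · exact mRel_good (T := T) (by decide) [Lt.bi, Lt.a, Lt.b, Lt.a, Lt.bi, Lt.a, Lt.b, Lt.a, Lt.bi, Lt.a, Lt.b, Lt.a, Lt.bi, Lt.a, Lt.b, Lt.a, Lt.bi, Lt.a, Lt.b, Lt.a, Lt.b, Lt.a, Lt.bi, Lt.a, Lt.bi, Lt.a, Lt.b, Lt.a, Lt.b, Lt.a] [Lt.a, Lt.bi, Lt.a, Lt.b, Lt.a, Lt.bi, Lt.a, Lt.bi, Lt.a, Lt.b, Lt.a, Lt.b, Lt.a, Lt.bi, Lt.a, Lt.bi, Lt.a, Lt.b, Lt.a, Lt.bi, Lt.a, Lt.b, Lt.a, Lt.bi, Lt.a, Lt.b, Lt.a, Lt.bi, Lt.a, Lt.b, Lt.a, Lt.bi, Lt.a, Lt.b, Lt.a, Lt.bi, Lt.a, Lt.b] (pair_rel hinv hr (by decide +kernel)) h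
    · rcases brec_true h with h | h
      · exact mRel_good (T := T) (by decide) [Lt.a, Lt.b, Lt.a, Lt.bi, Lt.a, Lt.b, Lt.a, Lt.bi, Lt.a, Lt.b, Lt.a, Lt.bi, Lt.a, Lt.b, Lt.a, Lt.bi, Lt.a, Lt.b, Lt.a, Lt.bi, Lt.a, Lt.bi, Lt.a, Lt.b, Lt.a, Lt.b, Lt.a, Lt.bi, Lt.a, Lt.bi, Lt.a, Lt.b, Lt.a, Lt.bi, Lt.a, Lt.b, Lt.a] [Lt.b, Lt.a, Lt.bi, Lt.a, Lt.b, Lt.a, Lt.b, Lt.a, Lt.bi, Lt.a, Lt.bi, Lt.a, Lt.b, Lt.a, Lt.b, Lt.a, Lt.bi, Lt.a, Lt.b, Lt.a, Lt.bi, Lt.a, Lt.b, Lt.a, Lt.bi, Lt.a, Lt.b, Lt.a, Lt.bi, Lt.a, Lt.b] (pair_rel hinv hr (by decide +kernel)) h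
      · exact mRel_good (T := T) (by decide) [Lt.a, Lt.bi, Lt.a, Lt.bi, Lt.a, Lt.b, Lt.a, Lt.b, Lt.a, Lt.bi, Lt.a, Lt.bi, Lt.a, Lt.b, Lt.a, Lt.bi, Lt.a, Lt.b] [Lt.bi, Lt.a, Lt.b, Lt.a, Lt.bi, Lt.a, Lt.b, Lt.a, Lt.bi, Lt.a, Lt.b, Lt.a, Lt.bi, Lt.a, Lt.b, Lt.a, Lt.bi, Lt.a, Lt.b, Lt.a, Lt.bi, Lt.a, Lt.b, Lt.a, Lt.b, Lt.a, Lt.bi, Lt.a, Lt.bi, Lt.a, Lt.b, Lt.a, Lt.b, Lt.a, Lt.bi, Lt.a, Lt.b, Lt.a, Lt.bi, Lt.a, Lt.b, Lt.a, Lt.bi, Lt.a, Lt.b, Lt.a, Lt.bi, Lt.a, Lt.b, Lt.a] (pair_rel hinv hr (by decide +kernel)) h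
  · rcases brec_true h with h | h
    · rcases brec_true h with h | h
      · exact mRel_good (T := T) (by decide) [Lt.a, Lt.b, Lt.a, Lt.bi, Lt.a, Lt.bi, Lt.a, Lt.b, Lt.a, Lt.b, Lt.a, Lt.bi, Lt.a, Lt.b, Lt.a, Lt.bi, Lt.a, Lt.b, Lt.a, Lt.bi, Lt.a, Lt.b, Lt.a, Lt.bi, Lt.a, Lt.b, Lt.a, Lt.bi, Lt.a, Lt.b, Lt.a, Lt.bi, Lt.a, Lt.b, Lt.a, Lt.b, Lt.a] [Lt.bi, Lt.a, Lt.b, Lt.a, Lt.bi, Lt.a, Lt.b, Lt.a, Lt.bi, Lt.a, Lt.b, Lt.a, Lt.bi, Lt.a, Lt.b, Lt.a, Lt.bi, Lt.a, Lt.b, Lt.a, Lt.bi, Lt.a, Lt.b, Lt.a, Lt.bi, Lt.a, Lt.bi, Lt.a, Lt.b, Lt.a, Lt.b] (pair_rel hinv hr (by decide +kernel)) h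
      · exact mRel_good (T := T) (by decide) [Lt.a, Lt.bi, Lt.a, Lt.bi] [Lt.b, Lt.a, Lt.b, Lt.a, Lt.b, Lt.a, Lt.b, Lt.a, Lt.b, Lt.a] (pair_rel hinv hr (by decide +kernel)) h
    · rcases brec_true h with h | h
      · exact mRel_good (T := T) (by decide) [Lt.a, Lt.b, Lt.a, Lt.bi, Lt.a, Lt.b, Lt.a, Lt.bi, Lt.a, Lt.b, Lt.a, Lt.bi, Lt.a, Lt.b, Lt.a, Lt.bi, Lt.a, Lt.b, Lt.a, Lt.bi, Lt.a, Lt.b, Lt.a, Lt.bi, Lt.a, Lt.bi, Lt.a, Lt.b, Lt.a, Lt.b, Lt.a, Lt.bi, Lt.a, Lt.bi, Lt.a, Lt.b, Lt.a, Lt.bi, Lt.a, Lt.b, Lt.a, Lt.bi, Lt.a, Lt.b, Lt.a, Lt.bi, Lt.a, Lt.b, Lt.a, Lt.bi, Lt.a] [Lt.b, Lt.a, Lt.b, Lt.a, Lt.bi, Lt.a, Lt.bi, Lt.a, Lt.b, Lt.a, Lt.b, Lt.a, Lt.bi, Lt.a, Lt.b, Lt.a, Lt.bi] (pair_rel hinv hr (by decide +kernel)) h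
      · rcases brec_true h with h | h
        · exact mRel_good (T := T) (by decide) [Lt.b, Lt.a, Lt.bi, Lt.a, Lt.b, Lt.a, Lt.bi, Lt.a, Lt.b, Lt.a, Lt.bi, Lt.a, Lt.b, Lt.a, Lt.bi, Lt.a, Lt.b, Lt.a, Lt.b, Lt.a, Lt.bi, Lt.a, Lt.bi, Lt.a, Lt.b, Lt.a] [Lt.a, Lt.b, Lt.a, Lt.bi, Lt.a, Lt.b, Lt.a, Lt.bi, Lt.a, Lt.bi, Lt.a, Lt.b, Lt.a, Lt.b, Lt.a, Lt.bi, Lt.a, Lt.bi, Lt.a, Lt.b, Lt.a, Lt.bi, Lt.a, Lt.b, Lt.a, Lt.bi, Lt.a, Lt.b, Lt.a, Lt.bi, Lt.a, Lt.b, Lt.a, Lt.bi, Lt.a, Lt.b, Lt.a, Lt.bi, Lt.a, Lt.b, Lt.a, Lt.bi] (pair_rel hinv hr (by decide +kernel)) h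
        · exact mRel_good (T := T) (by decide) [Lt.b, Lt.a, Lt.bi, Lt.a, Lt.b, Lt.a, Lt.bi, Lt.a, Lt.b, Lt.a, Lt.bi, Lt.a, Lt.b, Lt.a, Lt.bi, Lt.a, Lt.b, Lt.a, Lt.bi, Lt.a, Lt.b, Lt.a, Lt.b, Lt.a, Lt.bi, Lt.a, Lt.bi, Lt.a, Lt.b, Lt.a, Lt.b, Lt.a, Lt.bi, Lt.a, Lt.b, Lt.a, Lt.bi, Lt.a, Lt.b, Lt.a, Lt.bi, Lt.a, Lt.b, Lt.a, Lt.bi, Lt.a, Lt.b, Lt.a, Lt.bi, Lt.a] [Lt.a, Lt.b, Lt.a, Lt.bi, Lt.a, Lt.bi, Lt.a, Lt.b, Lt.a, Lt.b, Lt.a, Lt.bi, Lt.a, Lt.bi, Lt.a, Lt.b, Lt.a, Lt.bi] (pair_rel hinv hr (by decide +kernel)) h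
theorem dM_11_s (hinv : ∀ x, g (inv x) = (g x)⁻¹) (hr : ∀ r ∈ rels, (r.map g).prod = 1) (j z1 z2 u : ℕ) (h : dM_11 j z1 z2 u = true) : GoodM (fa g) T MG M (cP g H) u := by
  unfold dM_11 at h
  rcases brec_true h with h | h
  · exact dM_9_s hinv hr j z1 z2 u h
  · exact dM_10_s hinv hr j z1 z2 u h
theorem dM_12_s (hinv : ∀ x, g (inv x) = (g x)⁻¹) (hr : ∀ r ∈ rels, (r.map g).prod = 1) (j z1 z2 u : ℕ) (h : dM_12 j z1 z2 u = true) : GoodM (fa g) T MG M (cP g H) u := by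
  unfold dM_12 at h
  rcases brec_true h with h | h
  · rcases brec_true h with h | h
    · rcases brec_true h with h | h
      · exact mRel_good (T := T) (by decide) [Lt.a, Lt.bi, Lt.a, Lt.b, Lt.a, Lt.bi, Lt.a, Lt.b, Lt.a, Lt.bi, Lt.a, Lt.b, Lt.a, Lt.b, Lt.a, Lt.bi, Lt.a, Lt.bi, Lt.a, Lt.b, Lt.a, Lt.b, Lt.a, Lt.bi, Lt.a, Lt.b, Lt.a, Lt.bi, Lt.a] [Lt.bi, Lt.a, Lt.b, Lt.a, Lt.bi, Lt.a, Lt.b, Lt.a, Lt.bi, Lt.a, Lt.b, Lt.a, Lt.bi, Lt.a, Lt.bi, Lt.a, Lt.b, Lt.a, Lt.b, Lt.a, Lt.bi, Lt.a, Lt.bi, Lt.a, Lt.b, Lt.a, Lt.bi, Lt.a, Lt.b, Lt.a, Lt.bi, Lt.a, Lt.b, Lt.a, Lt.bi, Lt.a, Lt.b, Lt.a, Lt.bi] (pair_rel hinv hr (by decide +kernel)) h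
      · exact mRel_good (T := T) (by decide) [Lt.a, Lt.bi, Lt.a, Lt.b, Lt.a, Lt.bi, Lt.a, Lt.b, Lt.a, Lt.bi, Lt.a, Lt.b, Lt.a, Lt.bi, Lt.a, Lt.b, Lt.a, Lt.bi, Lt.a, Lt.bi, Lt.a, Lt.b, Lt.a, Lt.b, Lt.a, Lt.bi, Lt.a, Lt.bi, Lt.a, Lt.b, Lt.a, Lt.bi, Lt.a, Lt.b, Lt.a, Lt.bi, Lt.a, Lt.b, Lt.a, Lt.bi, Lt.a, Lt.b, Lt.a, Lt.bi, Lt.a, Lt.b, Lt.a] [Lt.bi, Lt.a, Lt.b, Lt.a, Lt.bi, Lt.a, Lt.b, Lt.a, Lt.b, Lt.a, Lt.bi, Lt.a, Lt.bi, Lt.a, Lt.b, Lt.a, Lt.b, Lt.a, Lt.bi, Lt.a, Lt.b] (pair_rel hinv hr (by decide +kernel)) h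
    · rcases brec_true h with h | h
      · exact mRel_good (T := T) (by decide) [Lt.b, Lt.a, Lt.bi, Lt.a, Lt.bi, Lt.a, Lt.b, Lt.a, Lt.bi, Lt.a, Lt.b, Lt.a, Lt.bi, Lt.a, Lt.b, Lt.a, Lt.bi, Lt.a, Lt.b, Lt.a, Lt.bi, Lt.a, Lt.b, Lt.a, Lt.bi, Lt.a, Lt.b, Lt.a, Lt.bi, Lt.a] [Lt.a, Lt.bi, Lt.a, Lt.b, Lt.a, Lt.b, Lt.a, Lt.bi, Lt.a, Lt.b, Lt.a, Lt.bi, Lt.a, Lt.b, Lt.a, Lt.bi, Lt.a, Lt.b, Lt.a, Lt.bi, Lt.a, Lt.b, Lt.a, Lt.bi, Lt.a, Lt.b, Lt.a, Lt.bi, Lt.a, Lt.b, Lt.a, Lt.b, Lt.a, Lt.bi, Lt.a, Lt.bi, Lt.a, Lt.b] (pair_rel hinv hr (by decide +kernel)) h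
      · exact mRel_good (T := T) (by decide) [Lt.a, Lt.bi, Lt.a, Lt.bi, Lt.a, Lt.b, Lt.a, Lt.b, Lt.a, Lt.bi, Lt.a, Lt.b, Lt.a, Lt.bi, Lt.a, Lt.b, Lt.a, Lt.bi, Lt.a, Lt.b, Lt.a, Lt.bi, Lt.a, Lt.b, Lt.a, Lt.bi, Lt.a, Lt.b, Lt.a, Lt.bi, Lt.a, Lt.b, Lt.a, Lt.b, Lt.a] [Lt.bi, Lt.a, Lt.bi, Lt.a, Lt.b, Lt.a, Lt.bi, Lt.a, Lt.b, Lt.a, Lt.bi, Lt.a, Lt.b, Lt.a, Lt.bi, Lt.a, Lt.b, Lt.a, Lt.bi, Lt.a, Lt.b, Lt.a, Lt.bi, Lt.a, Lt.b, Lt.a, Lt.bi, Lt.a, Lt.bi, Lt.a, Lt.b, Lt.a, Lt.b] (pair_rel hinv hr (by decide +kernel)) h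
  · rcases brec_true h with h | h
    · rcases brec_true h with h | h
      · exact mRel_good (T := T) (by decide) [Lt.a, Lt.bi, Lt.a, Lt.b, Lt.a, Lt.b, Lt.a, Lt.bi, Lt.a, Lt.b, Lt.a, Lt.bi, Lt.a, Lt.b, Lt.a, Lt.bi, Lt.a, Lt.b, Lt.a, Lt.bi, Lt.a, Lt.b, Lt.a] [Lt.b, Lt.a, Lt.bi, Lt.a, Lt.bi, Lt.a, Lt.b, Lt.a, Lt.bi, Lt.a, Lt.b, Lt.a, Lt.bi, Lt.a, Lt.b, Lt.a, Lt.bi, Lt.a, Lt.b, Lt.a, Lt.bi, Lt.a, Lt.b, Lt.a, Lt.bi, Lt.a, Lt.b, Lt.a, Lt.bi, Lt.a, Lt.bi, Lt.a, Lt.b, Lt.a, Lt.b, Lt.a, Lt.bi, Lt.a, Lt.bi, Lt.a, Lt.b, Lt.a, Lt.bi, Lt.a, Lt.b] (pair_rel hinv hr (by decide +kernel)) h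
      · exact mRel_good (T := T) (by decide) [Lt.b, Lt.a, Lt.bi, Lt.a, Lt.b, Lt.a, Lt.bi, Lt.a, Lt.b, Lt.a, Lt.bi, Lt.a, Lt.bi, Lt.a, Lt.b, Lt.a, Lt.b, Lt.a, Lt.bi, Lt.a, Lt.bi, Lt.a, Lt.b, Lt.a] [Lt.a, Lt.b, Lt.a, Lt.bi, Lt.a, Lt.b, Lt.a, Lt.bi, Lt.a, Lt.b, Lt.a, Lt.bi, Lt.a, Lt.b, Lt.a, Lt.b, Lt.a, Lt.bi, Lt.a, Lt.bi, Lt.a, Lt.b, Lt.a, Lt.b, Lt.a, Lt.bi, Lt.a, Lt.b, Lt.a, Lt.bi, Lt.a, Lt.b, Lt.a, Lt.bi, Lt.a, Lt.b, Lt.a, Lt.bi, Lt.a, Lt.b, Lt.a, Lt.bi, Lt.a, Lt.b] (pair_rel hinv hr (by decide +kernel)) h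
    · rcases brec_true h with h | h
      · exact mRel_good (T := T) (by decide) [Lt.b, Lt.a, Lt.bi, Lt.a, Lt.bi, Lt.a, Lt.b, Lt.a, Lt.b, Lt.a, Lt.bi, Lt.a, Lt.bi, Lt.a, Lt.b, Lt.a, Lt.bi, Lt.a, Lt.b, Lt.a, Lt.bi, Lt.a, Lt.b, Lt.a, Lt.bi, Lt.a, Lt.b, Lt.a, Lt.bi, Lt.a, Lt.b, Lt.a, Lt.bi, Lt.a] [Lt.a, Lt.b, Lt.a, Lt.bi, Lt.a, Lt.b, Lt.a, Lt.bi, Lt.a, Lt.b, Lt.a, Lt.bi, Lt.a, Lt.b, Lt.a, Lt.bi, Lt.a, Lt.b, Lt.a, Lt.bi, Lt.a, Lt.b, Lt.a, Lt.b, Lt.a, Lt.bi, Lt.a, Lt.bi, Lt.a, Lt.b, Lt.a, Lt.b, Lt.a, Lt.bi] (pair_rel hinv hr (by decide +kernel)) h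
      · exact mRel_good (T := T) (by decide) [Lt.a, Lt.b, Lt.a, Lt.bi, Lt.a, Lt.b, Lt.a, Lt.bi, Lt.a, Lt.b, Lt.a, Lt.bi, Lt.a, Lt.b, Lt.a, Lt.bi, Lt.a, Lt.b, Lt.a, Lt.bi, Lt.a, Lt.b, Lt.a, Lt.bi, Lt.a, Lt.b, Lt.a, Lt.b, Lt.a, Lt.bi, Lt.a, Lt.bi, Lt.a, Lt.b, Lt.a, Lt.b, Lt.a, Lt.bi, Lt.a, Lt.b, Lt.a, Lt.bi, Lt.a, Lt.b, Lt.a, Lt.bi, Lt.a, Lt.b, Lt.a] [Lt.bi, Lt.a, Lt.b, Lt.a, Lt.b, Lt.a, Lt.bi, Lt.a, Lt.bi, Lt.a, Lt.b, Lt.a, Lt.bi, Lt.a, Lt.b, Lt.a, Lt.bi, Lt.a, Lt.b] (pair_rel hinv hr (by decide +kernel)) h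
theorem dM_13_s (hinv : ∀ x, g (inv x) = (g x)⁻¹) (hr : ∀ r ∈ rels, (r.map g).prod = 1) (j z1 z2 u : ℕ) (h : dM_13 j z1 z2 u = true) : GoodM (fa g) T MG M (cP g H) u := by
  unfold dM_13 at h
  rcases brec_true h with h | h
  · rcases brec_true h with h | h
    · rcases brec_true h with h | h
      · exact mRel_good (T := T) (by decide) [Lt.a, Lt.b, Lt.a, Lt.bi, Lt.a, Lt.b, Lt.a, Lt.bi, Lt.a, Lt.b, Lt.a, Lt.bi, Lt.a, Lt.b, Lt.a, Lt.b, Lt.a, Lt.bi, Lt.a, Lt.bi, Lt.a, Lt.b, Lt.a, Lt.b, Lt.a, Lt.bi, Lt.a, Lt.b, Lt.a] [Lt.b, Lt.a, Lt.bi, Lt.a, Lt.b, Lt.a, Lt.bi, Lt.a, Lt.b, Lt.a, Lt.bi, Lt.a, Lt.bi, Lt.a, Lt.b, Lt.a, Lt.b, Lt.a, Lt.bi, Lt.a, Lt.bi, Lt.a, Lt.b, Lt.a, Lt.bi, Lt.a, Lt.b, Lt.a, Lt.bi, Lt.a, Lt.b, Lt.a, Lt.bi, Lt.a, Lt.b,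 Lt.a, Lt.bi, Lt.a, Lt.b] (pair_rel hinv hr (by decide +kernel)) h
      · exact mRel_good (T := T) (by decide) [Lt.b, Lt.a, Lt.b] [Lt.a, Lt.bi, Lt.a, Lt.bi, Lt.a, Lt.bi, Lt.a, Lt.bi, Lt.a, Lt.bi, Lt.a] (pair_rel hinv hr (by decide +kernel)) h
    · rcases brec_true h with h | h
      · exact mRel_good (T := T) (by decide) [Lt.b, Lt.a, Lt.bi, Lt.a, Lt.b, Lt.a, Lt.bi, Lt.a, Lt.b, Lt.a, Lt.b, Lt.a, Lt.bi, Lt.a, Lt.bi, Lt.a, Lt.b, Lt.a, Lt.b, Lt.a, Lt.bi, Lt.a, Lt.b, Lt.a, Lt.bi, Lt.a, Lt.b, Lt.a, Lt.bi, Lt.a, Lt.b, Lt.a, Lt.bi, Lt.a, Lt.b, Lt.a, Lt.bi, Lt.a, Lt.b, Lt.a] [Lt.a, Lt.b, Lt.a, Lt.bi, Lt.a, Lt.b, Lt.a, Lt.bi, Lt.a, Lt.b, Lt.a, Lt.bi, Lt.a, Lt.b, Lt.a, Lt.bi, Lt.a, Lt.bi, Lt.a, Lt.b, Lt.a, Lt.b, Lt.a, Lt.bi, Lt.a, Lt.bi,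 Lt.a, Lt.b] (pair_rel hinv hr (by decide +kernel)) h
      · exact mRel_good (T := T) (by decide) [Lt.a, Lt.bi, Lt.a, Lt.b, Lt.a, Lt.bi, Lt.a, Lt.b, Lt.a, Lt.bi, Lt.a, Lt.b, Lt.a, Lt.b, Lt.a, Lt.bi, Lt.a, Lt.bi, Lt.a, Lt.b, Lt.a, Lt.b, Lt.a, Lt.bi, Lt.a, Lt.b, Lt.a, Lt.bi, Lt.a, Lt.b, Lt.a, Lt.bi, Lt.a, Lt.b, Lt.a, Lt.bi, Lt.a, Lt.b, Lt.a, Lt.bi, Lt.a, Lt.b, Lt.a, Lt.bi, Lt.a, Lt.b, Lt.a, Lt.b, Lt.a] [Lt.bi, Lt.a, Lt.b, Lt.a, Lt.bi, Lt.a, Lt.b, Lt.a, Lt.bi, Lt.a, Lt.b, Lt.a, Lt.bi, Lt.a, Lt.bi, Lt.a, Lt.b, Lt.a, Lt.b] (pair_rel hinv hr (by decide +kernel)) h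
  · rcases brec_true h with h | h
    · rcases brec_true h with h | h
      · exact mRel_good (T := T) (by decide) [Lt.bi, Lt.a, Lt.bi, Lt.a, Lt.b, Lt.a, Lt.b, Lt.a, Lt.bi, Lt.a, Lt.b, Lt.a, Lt.bi, Lt.a, Lt.b, Lt.a] [Lt.a, Lt.bi, Lt.a, Lt.bi, Lt.a, Lt.b, Lt.a, Lt.bi, Lt.a, Lt.b, Lt.a, Lt.bi, Lt.a, Lt.b, Lt.a, Lt.bi, Lt.a, Lt.b, Lt.a, Lt.bi, Lt.a, Lt.b, Lt.a, Lt.bi, Lt.a, Lt.b, Lt.a, Lt.bi, Lt.a, Lt.bi, Lt.a, Lt.b, Lt.a, Lt.b, Lt.a, Lt.bi, Lt.a, Lt.bi, Lt.a, Lt.b, Lt.a, Lt.bi, Lt.a, Lt.b, Lt.a, Lt.bi, Lt.a, Lt.b, Lt.a, Lt.bi, Lt.a, Lt.b] (pair_rel hinv hr (by decide +kernel)) h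
      · exact mRel_good (T := T) (by decide) [Lt.a, Lt.bi, Lt.a, Lt.b, Lt.a, Lt.bi, Lt.a, Lt.b, Lt.a, Lt.bi, Lt.a, Lt.bi, Lt.a, Lt.b, Lt.a, Lt.b, Lt.a, Lt.bi, Lt.a, Lt.bi, Lt.a] [Lt.bi, Lt.a, Lt.b, Lt.a, Lt.bi, Lt.a, Lt.b, Lt.a, Lt.bi, Lt.a, Lt.b, Lt.a, Lt.bi, Lt.a, Lt.b, Lt.a, Lt.b, Lt.a, Lt.bi, Lt.a, Lt.bi, Lt.a, Lt.b, Lt.a, Lt.b, Lt.a, Lt.bi, Lt.a, Lt.b, Lt.a, Lt.bi, Lt.a, Lt.b, Lt.a, Lt.bi, Lt.a, Lt.b, Lt.a, Lt.bi, Lt.a, Lt.b, Lt.a, Lt.bi, Lt.a, Lt.b, Lt.a, Lt.bi] (pair_rel hinv hr (by decide +kernel)) h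
    · rcases brec_true h with h | h
      · exact mRel_good (T := T) (by decide) [Lt.b, Lt.a, Lt.bi, Lt.a, Lt.b, Lt.a, Lt.bi, Lt.a, Lt.b, Lt.a, Lt.bi, Lt.a, Lt.b, Lt.a, Lt.bi, Lt.a, Lt.b, Lt.a, Lt.bi, Lt.a, Lt.b, Lt.a, Lt.b, Lt.a, Lt.bi, Lt.a, Lt.bi, Lt.a, Lt.b, Lt.a, Lt.b, Lt.a, Lt.bi, Lt.a, Lt.b, Lt.a, Lt.bi, Lt.a, Lt.b, Lt.a, Lt.bi, Lt.a, Lt.b, Lt.a, Lt.bi, Lt.a, Lt.b, Lt.a, Lt.bi, Lt.a, Lt.b, Lt.a, Lt.bi, Lt.a, Lt.b, Lt.a, Lt.b, Lt.a] [Lt.a, Lt.b, Lt.a, Lt.bi, Lt.a, Lt.bi, Lt.a, Lt.b, Lt.a, Lt.b] (pair_rel hinv hr (by decide +kernel)) h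
      · rcases brec_true h with h | h
        · exact mRel_good (T := T) (by decide) [Lt.b, Lt.a, Lt.b, Lt.a, Lt.bi, Lt.a, Lt.bi, Lt.a, Lt.b, Lt.a, Lt.b, Lt.a, Lt.bi, Lt.a, Lt.b, Lt.a, Lt.bi, Lt.a, Lt.b, Lt.a, Lt.bi, Lt.a, Lt.b, Lt.a, Lt.bi, Lt.a, Lt.b, Lt.a, Lt.bi, Lt.a, Lt.b, Lt.a, Lt.bi, Lt.a, Lt.b, Lt.a, Lt.b, Lt.a, Lt.bi, Lt.a, Lt.bi, Lt.a, Lt.b, Lt.a, Lt.b, Lt.a, Lt.bi, Lt.a, Lt.b, Lt.a, Lt.bi, Lt.a, Lt.b, Lt.a, Lt.bi, Lt.a, Lt.b, Lt.a, Lt.bi, Lt.a, Lt.b, Lt.a, Lt.bi, Lt.a] [Lt.a, Lt.b, Lt.a, Lt.bi] (pair_rel hinv hr (by decide +kernel)) h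
        · exact mRel_good (T := T) (by decide) [Lt.a, Lt.b, Lt.a, Lt.bi, Lt.a, Lt.b, Lt.a, Lt.bi, Lt.a, Lt.b, Lt.a, Lt.bi, Lt.a, Lt.b, Lt.a, Lt.bi, Lt.a, Lt.b, Lt.a, Lt.bi, Lt.a, Lt.bi, Lt.a, Lt.b, Lt.a, Lt.b, Lt.a, Lt.bi, Lt.a, Lt.bi, Lt.a, Lt.b, Lt.a, Lt.bi, Lt.a, Lt.b, Lt.a, Lt.bi, Lt.a, Lt.b, Lt.a, Lt.bi, Lt.a, Lt.b, Lt.a, Lt.bi, Lt.a, Lt.b, Lt.a, Lt.bi, Lt.a, Lt.b, Lt.a, Lt.bi, Lt.a, Lt.bi, Lt.a, Lt.b, Lt.a, Lt.b, Lt.a, Lt.bi, Lt.a, Lt.bi, Lt.a, Lt.b] [Lt.b, Lt.a] (pair_rel hinv hr (by decide +kernel)) h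
theorem dM_14_s (hinv : ∀ x, g (inv x) = (g x)⁻¹) (hr : ∀ r ∈ rels, (r.map g).prod = 1) (j z1 z2 u : ℕ) (h : dM_14 j z1 z2 u = true) : GoodM (fa g) T MG M (cP g H) u := by
  unfold dM_14 at h
  rcases brec_true h with h | h
  · exact dM_12_s hinv hr j z1 z2 u h
  · exact dM_13_s hinv hr j z1 z2 u h
theorem dM_15_s (hinv : ∀ x, g (inv x) = (g x)⁻¹) (hr : ∀ r ∈ rels, (r.map g).prod = 1) (j z1 z2 u : ℕ) (h : dM_15 j z1 z2 u = true) : GoodM (fa g) T MG M (cP g H) u := by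
  unfold dM_15 at h
  rcases brec_true h with h | h
  · exact dM_11_s hinv hr j z1 z2 u h
  · exact dM_14_s hinv hr j z1 z2 u h
theorem dM_16_s (hinv : ∀ x, g (inv x) = (g x)⁻¹) (hr : ∀ r ∈ rels, (r.map g).prod = 1) (j z1 z2 u : ℕ) (h : dM_16 j z1 z2 u = true) : GoodM (fa g) T MG M (cP g H) u := by
  unfold dM_16 at h
  rcases brec_true h with h | h
  · rcases brec_true h with h | h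
    · rcases brec_true h with h | h
      · exact mRel_good (T := T) (by decide) [Lt.bi, Lt.a, Lt.b, Lt.a, Lt.bi, Lt.a, Lt.b, Lt.a, Lt.bi, Lt.a, Lt.b, Lt.a, Lt.bi, Lt.a, Lt.b, Lt.a, Lt.bi, Lt.a, Lt.bi, Lt.a, Lt.b, Lt.a, Lt.b, Lt.a, Lt.bi, Lt.a, Lt.bi, Lt.a, Lt.b, Lt.a, Lt.bi, Lt.a, Lt.b, Lt.a] [Lt.a, Lt.bi, Lt.a, Lt.b, Lt.a, Lt.bi, Lt.a, Lt.b, Lt.a, Lt.b, Lt.a, Lt.bi, Lt.a, Lt.bi, Lt.a, Lt.b, Lt.a, Lt.b, Lt.a, Lt.bi, Lt.a, Lt.b, Lt.a, Lt.bi, Lt.a, Lt.b, Lt.a, Lt.bi, Lt.a, Lt.b, Lt.a, Lt.bi, Lt.a, Lt.b] (pair_rel hinv hr (by decide +kernel)) h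
      · exact mRel_good (T := T) (by decide) [Lt.bi, Lt.a, Lt.bi, Lt.a, Lt.b, Lt.a, Lt.b, Lt.a, Lt.bi, Lt.a, Lt.bi, Lt.a, Lt.b, Lt.a, Lt.bi, Lt.a, Lt.b, Lt.a, Lt.bi, Lt.a, Lt.b, Lt.a, Lt.bi, Lt.a, Lt.b, Lt.a, Lt.bi, Lt.a, Lt.b, Lt.a, Lt.bi, Lt.a, Lt.b, Lt.a, Lt.bi, Lt.a] [Lt.a, Lt.bi, Lt.a, Lt.b, Lt.a, Lt.bi, Lt.a, Lt.b, Lt.a, Lt.bi, Lt.a, Lt.b, Lt.a, Lt.bi, Lt.a, Lt.b, Lt.a, Lt.bi, Lt.a, Lt.b, Lt.a, Lt.bi, Lt.a, Lt.b, Lt.a, Lt.b, Lt.a, Lt.bi, Lt.a, Lt.bi, Lt.a, Lt.b] (pair_rel hinv hr (by decide +kernel)) h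
    · rcases brec_true h with h | h
      · exact mRel_good (T := T) (by decide) [Lt.b, Lt.a, Lt.bi, Lt.a, Lt.bi, Lt.a, Lt.b, Lt.a, Lt.b, Lt.a, Lt.bi, Lt.a, Lt.bi, Lt.a, Lt.b, Lt.a] [Lt.a, Lt.b, Lt.a, Lt.bi, Lt.a, Lt.b, Lt.a, Lt.bi, Lt.a, Lt.b, Lt.a, Lt.bi, Lt.a, Lt.b, Lt.a, Lt.bi, Lt.a, Lt.b, Lt.a, Lt.bi, Lt.a, Lt.b, Lt.a, Lt.b, Lt.a, Lt.bi, Lt.a, Lt.bi, Lt.a, Lt.b, Lt.a, Lt.b, Lt.a, Lt.bi, Lt.a, Lt.b, Lt.a, Lt.bi, Lt.a, Lt.b, Lt.a, Lt.bi, Lt.a, Lt.b, Lt.a, Lt.bi, Lt.a, Lt.b, Lt.a, Lt.bi, Lt.a, Lt.b] (pair_rel hinv hr (by decide +kernel)) h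
      · exact mRel_good (T := T) (by decide) [Lt.a, Lt.b, Lt.a, Lt.bi, Lt.a, Lt.b, Lt.a, Lt.bi, Lt.a, Lt.b, Lt.a, Lt.bi, Lt.a, Lt.b, Lt.a, Lt.bi, Lt.a] [Lt.b, Lt.a, Lt.bi, Lt.a, Lt.bi, Lt.a, Lt.b, Lt.a, Lt.b, Lt.a, Lt.bi, Lt.a, Lt.bi, Lt.a, Lt.b, Lt.a, Lt.bi, Lt.a, Lt.b, Lt.a, Lt.bi, Lt.a, Lt.b, Lt.a, Lt.bi, Lt.a, Lt.b, Lt.a, Lt.bi, Lt.a, Lt.b, Lt.a, Lt.bi, Lt.a, Lt.b, Lt.a, Lt.bi, Lt.a, Lt.bi, Lt.a, Lt.b, Lt.a, Lt.b, Lt.a, Lt.bi, Lt.a, Lt.bi, Lt.a, Lt.b, Lt.a, Lt.bi] (pair_rel hinv hr (by decide +kernel)) h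
  · rcases brec_true h with h | h
    · rcases brec_true h with h | h
      · exact mRel_good (T := T) (by decide) [Lt.a, Lt.bi, Lt.a, Lt.b, Lt.a, Lt.b, Lt.a, Lt.bi, Lt.a, Lt.bi, Lt.a, Lt.b, Lt.a, Lt.b, Lt.a, Lt.bi, Lt.a, Lt.b, Lt.a, Lt.bi, Lt.a, Lt.b, Lt.a, Lt.bi, Lt.a, Lt.b, Lt.a, Lt.bi, Lt.a, Lt.b, Lt.a] [Lt.bi, Lt.a, Lt.b, Lt.a, Lt.bi, Lt.a, Lt.b, Lt.a, Lt.bi, Lt.a, Lt.b, Lt.a, Lt.bi, Lt.a, Lt.b, Lt.a, Lt.bi, Lt.a, Lt.b, Lt.a, Lt.bi, Lt.a, Lt.bi, Lt.a, Lt.b, Lt.a, Lt.b, Lt.a, Lt.bi, Lt.a, Lt.bi, Lt.a, Lt.b, Lt.a, Lt.bi, Lt.a, Lt.b] (pair_rel hinv hr (by decide +kernel)) h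
      · exact mRel_good (T := T) (by decide) [Lt.b, Lt.a, Lt.bi, Lt.a, Lt.b, Lt.a, Lt.bi, Lt.a, Lt.b, Lt.a, Lt.bi, Lt.a, Lt.b, Lt.a, Lt.bi, Lt.a, Lt.bi, Lt.a, Lt.b, Lt.a, Lt.b, Lt.a, Lt.bi, Lt.a] [Lt.a, Lt.b, Lt.a, Lt.bi, Lt.a, Lt.b, Lt.a, Lt.bi, Lt.a, Lt.b, Lt.a, Lt.b, Lt.a, Lt.bi, Lt.a, Lt.bi, Lt.a, Lt.b, Lt.a, Lt.b, Lt.a, Lt.bi, Lt.a, Lt.b, Lt.a, Lt.bi, Lt.a, Lt.b, Lt.a, Lt.bi, Lt.a, Lt.b, Lt.a, Lt.bi, Lt.a, Lt.b, Lt.a, Lt.bi, Lt.a, Lt.b, Lt.a, Lt.bi, Lt.a, Lt.b] (pair_rel hinv hr (by decide +kernel)) h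
    · rcases brec_true h with h | h
      · exact mRel_good (T := T) (by decide) [Lt.b, Lt.a, Lt.bi, Lt.a, Lt.b, Lt.a, Lt.bi, Lt.a, Lt.bi, Lt.a, Lt.b, Lt.a, Lt.b, Lt.a, Lt.bi, Lt.a, Lt.bi, Lt.a, Lt.b, Lt.a, Lt.bi, Lt.a, Lt.b, Lt.a, Lt.bi, Lt.a, Lt.b, Lt.a, Lt.bi, Lt.a, Lt.b, Lt.a] [Lt.a, Lt.b, Lt.a, Lt.bi, Lt.a, Lt.b, Lt.a, Lt.bi, Lt.a, Lt.b, Lt.a, Lt.bi, Lt.a, Lt.b, Lt.a, Lt.bi, Lt.a, Lt.b, Lt.a, Lt.b, Lt.a, Lt.bi, Lt.a, Lt.bi, Lt.a, Lt.b, Lt.a, Lt.b, Lt.a, Lt.bi, Lt.a, Lt.b, Lt.a, Lt.bi, Lt.a, Lt.b] (pair_rel hinv hr (by decide +kernel)) h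
      · exact mRel_good (T := T) (by decide) [Lt.a, Lt.bi, Lt.a, Lt.b, Lt.a, Lt.bi, Lt.a, Lt.b, Lt.a, Lt.bi, Lt.a, Lt.b, Lt.a, Lt.bi, Lt.a, Lt.b, Lt.a, Lt.bi, Lt.a, Lt.b, Lt.a, Lt.bi, Lt.a, Lt.bi, Lt.a, Lt.b, Lt.a, Lt.b, Lt.a, Lt.bi, Lt.a, Lt.bi, Lt.a, Lt.b, Lt.a, Lt.bi, Lt.a, Lt.b, Lt.a, Lt.bi, Lt.a, Lt.b, Lt.a] [Lt.bi, Lt.a, Lt.b, Lt.a, Lt.b, Lt.a, Lt.bi, Lt.a, Lt.bi, Lt.a, Lt.b, Lt.a, Lt.b, Lt.a, Lt.bi, Lt.a, Lt.b, Lt.a, Lt.bi, Lt.a, Lt.b, Lt.a, Lt.bi, Lt.a, Lt.b] (pair_rel hinv hr (by decide +kernel)) h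
theorem dM_17_s (hinv : ∀ x, g (inv x) = (g x)⁻¹) (hr : ∀ r ∈ rels, (r.map g).prod = 1) (j z1 z2 u : ℕ) (h : dM_17 j z1 z2 u = true) : GoodM (fa g) T MG M (cP g H) u := by
  unfold dM_17 at h
  rcases brec_true h with h | h
  · rcases brec_true h with h | h
    · rcases brec_true h with h | h
      · exact mRel_good (T := T) (by decide) [Lt.a, Lt.b, Lt.a, Lt.b, Lt.a, Lt.bi, Lt.a, Lt.bi, Lt.a, Lt.b, Lt.a, Lt.bi, Lt.a, Lt.b, Lt.a, Lt.bi, Lt.a, Lt.b, Lt.a, Lt.bi, Lt.a, Lt.b, Lt.a, Lt.bi, Lt.a, Lt.b, Lt.a, Lt.bi, Lt.a, Lt.b, Lt.a, Lt.bi, Lt.a, Lt.bi, Lt.a, Lt.b, Lt.a, Lt.b, Lt.a, Lt.bi, Lt.a, Lt.bi, Lt.a, Lt.b, Lt.a, Lt.bi, Lt.a, Lt.b, Lt.a, Lt.bi, Lt.a, Lt.b, Lt.a, Lt.bi, Lt.a] [Lt.b, Lt.a, Lt.b, Lt.a, Lt.bi, Lt.a, Lt.b, Lt.a, Lt.bi,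 Lt.a, Lt.b, Lt.a, Lt.bi] (pair_rel hinv hr (by decide +kernel)) h
      · exact mRel_good (T := T) (by decide) [Lt.bi, Lt.a, Lt.b, Lt.a, Lt.bi, Lt.a, Lt.b, Lt.a, Lt.bi, Lt.a, Lt.b, Lt.a, Lt.bi, Lt.a, Lt.b, Lt.a, Lt.bi, Lt.a, Lt.b, Lt.a, Lt.bi, Lt.a, Lt.b, Lt.a, Lt.bi, Lt.a, Lt.bi, Lt.a, Lt.b, Lt.a, Lt.b, Lt.a, Lt.bi, Lt.a, Lt.bi] [Lt.a, Lt.b, Lt.a, Lt.bi, Lt.a, Lt.bi, Lt.a, Lt.b, Lt.a, Lt.b, Lt.a, Lt.bi, Lt.a, Lt.b, Lt.a, Lt.bi, Lt.a, Lt.b, Lt.a, Lt.bi, Lt.a, Lt.b, Lt.a, Lt.bi, Lt.a, Lt.b, Lt.a, Lt.bi, Lt.a, Lt.b, Lt.a, Lt.bi, Lt.a] (pair_rel hinv hr (by decide +kernel)) h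
    · rcases brec_true h with h | h
      · exact mRel_good (T := T) (by decide) [Lt.b, Lt.a, Lt.bi, Lt.a, Lt.b, Lt.a, Lt.bi, Lt.a, Lt.b, Lt.a, Lt.bi, Lt.a, Lt.b, Lt.a, Lt.bi, Lt.a, Lt.bi, Lt.a, Lt.b, Lt.a, Lt.b, Lt.a, Lt.bi, Lt.a, Lt.bi, Lt.a, Lt.b, Lt.a, Lt.bi, Lt.a, Lt.b, Lt.a, Lt.bi, Lt.a, Lt.b, Lt.a, Lt.bi, Lt.a, Lt.b, Lt.a] [Lt.a, Lt.b, Lt.a, Lt.bi, Lt.a, Lt.b, Lt.a, Lt.bi, Lt.a, Lt.b, Lt.a, Lt.b, Lt.a, Lt.bi, Lt.a, Lt.bi, Lt.a, Lt.b, Lt.a, Lt.b, Lt.a, Lt.bi, Lt.a, Lt.b, Lt.a, Lt.bi, Lt.a, Lt.b] (pair_rel hinv hr (by decide +kernel)) h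
      · exact mRel_good (T := T) (by decide) [Lt.bi, Lt.a, Lt.b, Lt.a, Lt.bi, Lt.a, Lt.b, Lt.a, Lt.bi, Lt.a, Lt.b, Lt.a, Lt.bi, Lt.a, Lt.bi, Lt.a, Lt.b, Lt.a, Lt.b, Lt.a, Lt.bi, Lt.a, Lt.bi, Lt.a, Lt.b, Lt.a, Lt.bi, Lt.a, Lt.b, Lt.a, Lt.bi, Lt.a, Lt.b, Lt.a, Lt.bi, Lt.a, Lt.b, Lt.a, Lt.bi, Lt.a, Lt.b, Lt.a, Lt.bi, Lt.a] [Lt.a, Lt.bi, Lt.a, Lt.b, Lt.a, Lt.bi, Lt.a, Lt.b, Lt.a, Lt.bi, Lt.a, Lt.b, Lt.a, Lt.b, Lt.a, Lt.bi, Lt.a, Lt.bi, Lt.a, Lt.b, Lt.a, Lt.b, Lt.a, Lt.bi] (pair_rel hinv hr (by decide +kernel)) h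
  · rcases brec_true h with h | h
    · rcases brec_true h with h | h
      · exact mRel_good (T := T) (by decide) [Lt.a, Lt.b, Lt.a, Lt.bi, Lt.a, Lt.b, Lt.a, Lt.bi, Lt.a, Lt.b, Lt.a, Lt.bi, Lt.a, Lt.b, Lt.a, Lt.bi, Lt.a, Lt.b, Lt.a, Lt.bi, Lt.a, Lt.b, Lt.a, Lt.b, Lt.a, Lt.bi, Lt.a, Lt.bi, Lt.a, Lt.b, Lt.a, Lt.b, Lt.a, Lt.bi, Lt.a, Lt.b, Lt.a, Lt.bi, Lt.a] [Lt.b, Lt.a, Lt.bi, Lt.a, Lt.bi, Lt.a, Lt.b, Lt.a, Lt.b, Lt.a, Lt.bi, Lt.a, Lt.bi, Lt.a, Lt.b, Lt.a, Lt.bi, Lt.a, Lt.b, Lt.a, Lt.bi, Lt.a, Lt.b, Lt.a, Lt.bi, Lt.a, Lt.b, Lt.a, Lt.bi] (pair_rel hinv hr (by decide +kernel)) h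
      · exact mRel_good (T := T) (by decide) [Lt.b, Lt.a, Lt.bi, Lt.a, Lt.b, Lt.a, Lt.bi, Lt.a, Lt.b, Lt.a, Lt.bi, Lt.a, Lt.bi, Lt.a, Lt.b, Lt.a, Lt.b, Lt.a, Lt.bi, Lt.a, Lt.bi, Lt.a, Lt.b, Lt.a, Lt.bi, Lt.a, Lt.b, Lt.a, Lt.bi, Lt.a, Lt.b, Lt.a, Lt.bi, Lt.a, Lt.b, Lt.a, Lt.bi, Lt.a, Lt.b, Lt.a, Lt.bi, Lt.a, Lt.b, Lt.a, Lt.bi, Lt.a, Lt.bi, Lt.a] [Lt.a, Lt.b, Lt.a, Lt.bi, Lt.a, Lt.b, Lt.a, Lt.bi, Lt.a, Lt.b, Lt.a, Lt.bi, Lt.a, Lt.b, Lt.a, Lt.b, Lt.a, Lt.bi, Lt.a, Lt.bi] (pair_rel hinv hr (by decide +kernel)) h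
    · rcases brec_true h with h | h
      · exact mRel_good (T := T) (by decide) [Lt.a, Lt.bi, Lt.a, Lt.b, Lt.a, Lt.bi, Lt.a, Lt.b, Lt.a, Lt.b, Lt.a, Lt.bi, Lt.a, Lt.bi, Lt.a, Lt.b, Lt.a, Lt.b, Lt.a, Lt.bi, Lt.a, Lt.b, Lt.a, Lt.bi, Lt.a, Lt.b, Lt.a, Lt.bi, Lt.a, Lt.b, Lt.a, Lt.bi, Lt.a, Lt.b, Lt.a] [Lt.bi, Lt.a, Lt.b, Lt.a, Lt.bi, Lt.a, Lt.b, Lt.a, Lt.bi, Lt.a, Lt.b, Lt.a, Lt.bi, Lt.a, Lt.b, Lt.a, Lt.bi, Lt.a, Lt.bi, Lt.a, Lt.b, Lt.a, Lt.b, Lt.a, Lt.bi, Lt.a, Lt.bi, Lt.a, Lt.b, Lt.a, Lt.bi, Lt.a, Lt.b] (pair_rel hinv hr (by decide +kernel)) h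
      · rcases brec_true h with h | h
        · exact mRel_good (T := T) (by decide) [Lt.b, Lt.a, Lt.b, Lt.a, Lt.bi, Lt.a, Lt.b, Lt.a, Lt.bi, Lt.a, Lt.b, Lt.a, Lt.bi, Lt.a, Lt.b, Lt.a, Lt.bi, Lt.a, Lt.b, Lt.a, Lt.bi, Lt.a, Lt.b, Lt.a, Lt.bi, Lt.a, Lt.b, Lt.a] [Lt.a, Lt.b, Lt.a, Lt.b, Lt.a, Lt.bi, Lt.a, Lt.bi, Lt.a, Lt.b, Lt.a, Lt.bi, Lt.a, Lt.b, Lt.a, Lt.bi, Lt.a, Lt.b, Lt.a, Lt.bi, Lt.a, Lt.b, Lt.a, Lt.bi, Lt.a, Lt.b, Lt.a, Lt.bi, Lt.a, Lt.b, Lt.a, Lt.bi, Lt.a, Lt.bi, Lt.a, Lt.b, Lt.a, Lt.b, Lt.a, Lt.bi] (pair_rel hinv hr (by decide +kernel)) h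
        · exact mRel_good (T := T) (by decide) [Lt.b, Lt.a, Lt.bi, Lt.a, Lt.b, Lt.a, Lt.bi, Lt.a, Lt.b, Lt.a, Lt.bi, Lt.a, Lt.b, Lt.a, Lt.bi, Lt.a, Lt.b, Lt.a, Lt.b, Lt.a, Lt.bi, Lt.a, Lt.bi, Lt.a, Lt.b, Lt.a, Lt.b, Lt.a, Lt.bi, Lt.a, Lt.b, Lt.a, Lt.bi, Lt.a, Lt.b, Lt.a, Lt.bi, Lt.a, Lt.b, Lt.a, Lt.bi, Lt.a, Lt.b, Lt.a, Lt.bi, Lt.a, Lt.b, Lt.a, Lt.bi, Lt.a, Lt.b, Lt.a, Lt.b, Lt.a, Lt.bi, Lt.a] [Lt.a, Lt.b, Lt.a, Lt.bi, Lt.a, Lt.b, Lt.a, Lt.bi, Lt.a, Lt.bi, Lt.a, Lt.b] (pair_rel hinv hr (by decide +kernel)) h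
theorem dM_18_s (hinv : ∀ x, g (inv x) = (g x)⁻¹) (hr : ∀ r ∈ rels, (r.map g).prod = 1) (j z1 z2 u : ℕ) (h : dM_18 j z1 z2 u = true) : GoodM (fa g) T MG M (cP g H) u := by
  unfold dM_18 at h
  rcases brec_true h with h | h
  · exact dM_16_s hinv hr j z1 z2 u h
  · exact dM_17_s hinv hr j z1 z2 u h
theorem dM_19_s (hinv : ∀ x, g (inv x) = (g x)⁻¹) (hr : ∀ r ∈ rels, (r.map g).prod = 1) (j z1 z2 u : ℕ) (h : dM_19 j z1 z2 u = true) : GoodM (fa g) T MG M (cP g H) u := by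
  unfold dM_19 at h
  rcases brec_true h with h | h
  · rcases brec_true h with h | h
    · rcases brec_true h with h | h
      · exact mRel_good (T := T) (by decide) [Lt.a, Lt.bi, Lt.a, Lt.bi, Lt.a, Lt.b, Lt.a, Lt.b, Lt.a, Lt.bi, Lt.a, Lt.b, Lt.a, Lt.bi, Lt.a, Lt.b, Lt.a, Lt.bi, Lt.a, Lt.b, Lt.a, Lt.bi, Lt.a, Lt.b, Lt.a, Lt.bi, Lt.a, Lt.b, Lt.a, Lt.bi, Lt.a, Lt.b, Lt.a, Lt.b, Lt.a, Lt.bi, Lt.a, Lt.bi, Lt.a, Lt.b, Lt.a] [Lt.bi, Lt.a, Lt.bi, Lt.a, Lt.b, Lt.a, Lt.bi, Lt.a, Lt.b, Lt.a, Lt.bi, Lt.a, Lt.b, Lt.a, Lt.bi, Lt.a, Lt.b, Lt.a, Lt.bi, Lt.a, Lt.b, Lt.a, Lt.bi, Lt.a, Lt.b, Lt.a, Lt.bi] (pair_rel hinv hr (by decide +kernel)) h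
      · exact mRel_good (T := T) (by decide) [Lt.a, Lt.bi, Lt.a, Lt.b, Lt.a, Lt.bi, Lt.a, Lt.b, Lt.a, Lt.bi, Lt.a, Lt.b, Lt.a, Lt.bi, Lt.a, Lt.b, Lt.a, Lt.bi, Lt.a, Lt.b, Lt.a, Lt.bi, Lt.a, Lt.b, Lt.a, Lt.b, Lt.a, Lt.bi, Lt.a, Lt.bi, Lt.a, Lt.b, Lt.a, Lt.b, Lt.a, Lt.bi, Lt.a, Lt.b, Lt.a, Lt.bi, Lt.a, Lt.b, Lt.a, Lt.bi, Lt.a, Lt.b, Lt.a, Lt.bi, Lt.a] [Lt.bi, Lt.a, Lt.bi, Lt.a, Lt.b, Lt.a, Lt.b, Lt.a, Lt.bi, Lt.a, Lt.bi, Lt.a, Lt.b, Lt.a, Lt.bi, Lt.a, Lt.b, Lt.a, Lt.bi] (pair_rel hinv hr (by decide +kernel)) h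
    · rcases brec_true h with h | h
      · exact mRel_good (T := T) (by decide) [Lt.bi, Lt.a, Lt.bi, Lt.a, Lt.b, Lt.a, Lt.b, Lt.a, Lt.bi, Lt.a, Lt.bi, Lt.a, Lt.b, Lt.a, Lt.bi, Lt.a, Lt.b, Lt.a, Lt.bi, Lt.a, Lt.b, Lt.a, Lt.bi, Lt.a, Lt.b, Lt.a, Lt.bi, Lt.a, Lt.b, Lt.a, Lt.bi, Lt.a, Lt.b, Lt.a] [Lt.a, Lt.bi, Lt.a, Lt.b, Lt.a, Lt.bi, Lt.a, Lt.b, Lt.a, Lt.bi, Lt.a, Lt.b, Lt.a, Lt.bi, Lt.a, Lt.b, Lt.a, Lt.bi, Lt.a, Lt.b, Lt.a, Lt.bi, Lt.a, Lt.b, Lt.a, Lt.b, Lt.a, Lt.bi, Lt.a, Lt.bi, Lt.a, Lt.b, Lt.a, Lt.b] (pair_rel hinv hr (by decide +kernel)) h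
      · exact mRel_good (T := T) (by decide) [Lt.b, Lt.a, Lt.b, Lt.a, Lt.bi, Lt.a, Lt.bi, Lt.a, Lt.b, Lt.a, Lt.bi, Lt.a, Lt.b, Lt.a, Lt.bi, Lt.a, Lt.b, Lt.a, Lt.bi, Lt.a, Lt.b, Lt.a, Lt.bi, Lt.a, Lt.b, Lt.a, Lt.bi, Lt.a, Lt.b, Lt.a, Lt.bi, Lt.a, Lt.bi, Lt.a] [Lt.a, Lt.b, Lt.a, Lt.b, Lt.a, Lt.bi, Lt.a, Lt.b, Lt.a, Lt.bi, Lt.a, Lt.b, Lt.a, Lt.bi, Lt.a, Lt.b, Lt.a, Lt.bi, Lt.a, Lt.b, Lt.a, Lt.bi, Lt.a, Lt.b, Lt.a, Lt.bi, Lt.a, Lt.b, Lt.a, Lt.b, Lt.a, Lt.bi, Lt.a, Lt.bi] (pair_rel hinv hr (by decide +kernel)) h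
  · rcases brec_true h with h | h
    · rcases brec_true h with h | h
      · exact mRel_good (T := T) (by decide) [Lt.b, Lt.a, Lt.bi, Lt.a, Lt.b, Lt.a, Lt.bi, Lt.a, Lt.bi, Lt.a, Lt.b, Lt.a, Lt.b, Lt.a, Lt.bi, Lt.a, Lt.bi, Lt.a, Lt.b, Lt.a, Lt.bi, Lt.a] [Lt.a, Lt.b, Lt.a, Lt.bi, Lt.a, Lt.b, Lt.a, Lt.bi, Lt.a, Lt.b, Lt.a, Lt.bi, Lt.a, Lt.b, Lt.a, Lt.bi, Lt.a, Lt.b, Lt.a, Lt.b, Lt.a, Lt.bi, Lt.a, Lt.bi, Lt.a, Lt.b, Lt.a, Lt.b, Lt.a, Lt.bi, Lt.a, Lt.b, Lt.a, Lt.bi, Lt.a, Lt.b, Lt.a, Lt.bi, Lt.a, Lt.b, Lt.a, Lt.bi, Lt.a, Lt.b, Lt.a, Lt.bi] (pair_rel hinv hr (by decide +kernel)) h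
      · exact mRel_good (T := T) (by decide) [Lt.b, Lt.a, Lt.bi, Lt.a, Lt.b, Lt.a, Lt.bi, Lt.a, Lt.b, Lt.a, Lt.bi, Lt.a, Lt.b, Lt.a, Lt.b, Lt.a, Lt.bi, Lt.a, Lt.bi, Lt.a, Lt.b, Lt.a, Lt.b, Lt.a, Lt.bi, Lt.a, Lt.b, Lt.a, Lt.bi, Lt.a, Lt.b, Lt.a, Lt.bi, Lt.a, Lt.b, Lt.a, Lt.bi, Lt.a, Lt.b, Lt.a, Lt.bi, Lt.a, Lt.b, Lt.a, Lt.bi, Lt.a, Lt.b, Lt.a, Lt.b, Lt.a, Lt.bi, Lt.a, Lt.bi, Lt.a, Lt.b, Lt.a, Lt.b, Lt.a, Lt.bi, Lt.a, Lt.b, Lt.a] [Lt.a, Lt.b, Lt.a, Lt.bi, Lt.a, Lt.b] (pair_rel hinv hr (by decide +kernel)) h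
    · rcases brec_true h with h | h
      · exact mRel_good (T := T) (by decide) [Lt.b, Lt.a, Lt.b, Lt.a, Lt.b, Lt.a, Lt.b] [Lt.a, Lt.bi, Lt.a, Lt.bi, Lt.a, Lt.bi, Lt.a] (pair_rel hinv hr (by decide +kernel)) h
      · exact mRel_good (T := T) (by decide) [Lt.a, Lt.bi, Lt.a, Lt.b, Lt.a, Lt.b, Lt.a, Lt.bi, Lt.a, Lt.b, Lt.a, Lt.bi, Lt.a, Lt.b, Lt.a, Lt.bi, Lt.a] [Lt.b, Lt.a, Lt.bi, Lt.a, Lt.bi, Lt.a, Lt.b, Lt.a, Lt.bi, Lt.a, Lt.b, Lt.a, Lt.bi, Lt.a, Lt.b, Lt.a, Lt.bi, Lt.a, Lt.b, Lt.a, Lt.bi, Lt.a, Lt.b, Lt.a, Lt.bi, Lt.a, Lt.b, Lt.a, Lt.bi, Lt.a, Lt.bi, Lt.a, Lt.b, Lt.a, Lt.b, Lt.a, Lt.bi, Lt.a, Lt.bi, Lt.a, Lt.b, Lt.a, Lt.bi, Lt.a, Lt.b, Lt.a, Lt.bi, Lt.a, Lt.b, Lt.a, Lt.bi] (pair_rel hinv hr (by decide +kernel)) h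
theorem dM_20_s (hinv : ∀ x, g (inv x) = (g x)⁻¹) (hr : ∀ r ∈ rels, (r.map g).prod = 1) (j z1 z2 u : ℕ) (h : dM_20 j z1 z2 u = true) : GoodM (fa g) T MG M (cP g H) u := by
  unfold dM_20 at h
  rcases brec_true h with h | h
  · rcases brec_true h with h | h
    · rcases brec_true h with h | h
      · exact mRel_good (T := T) (by decide) [Lt.a, Lt.bi, Lt.a, Lt.b, Lt.a, Lt.bi, Lt.a, Lt.b, Lt.a, Lt.bi, Lt.a, Lt.b, Lt.a, Lt.bi, Lt.a, Lt.b, Lt.a, Lt.bi, Lt.a, Lt.b, Lt.a] [Lt.b, Lt.a, Lt.bi, Lt.a, Lt.bi, Lt.a, Lt.b, Lt.a, Lt.b, Lt.a, Lt.bi, Lt.a, Lt.b, Lt.a, Lt.bi, Lt.a, Lt.b, Lt.a, Lt.bi, Lt.a, Lt.b, Lt.a, Lt.bi, Lt.a, Lt.b, Lt.a, Lt.bi, Lt.a, Lt.b, Lt.a, Lt.bi, Lt.a, Lt.b, Lt.a, Lt.b, Lt.a, Lt.bi, Lt.a, Lt.bi, Lt.a, Lt.b, Lt.a, Lt.b,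 Lt.a, Lt.bi, Lt.a, Lt.b] (pair_rel hinv hr (by decide +kernel)) h
      · exact mRel_good (T := T) (by decide) [Lt.b, Lt.a, Lt.bi, Lt.a, Lt.b, Lt.a, Lt.bi, Lt.a, Lt.b, Lt.a, Lt.bi, Lt.a, Lt.b, Lt.a, Lt.bi, Lt.a, Lt.b, Lt.a, Lt.b, Lt.a, Lt.bi, Lt.a, Lt.bi, Lt.a, Lt.b, Lt.a, Lt.b, Lt.a, Lt.bi, Lt.a, Lt.b, Lt.a, Lt.bi, Lt.a] [Lt.a, Lt.b, Lt.a, Lt.bi, Lt.a, Lt.b, Lt.a, Lt.bi, Lt.a, Lt.bi, Lt.a, Lt.b, Lt.a, Lt.b, Lt.a, Lt.bi, Lt.a, Lt.bi, Lt.a, Lt.b, Lt.a, Lt.bi, Lt.a, Lt.b, Lt.a, Lt.bi, Lt.a, Lt.b, Lt.a, Lt.bi, Lt.a, Lt.b, Lt.a, Lt.bi] (pair_rel hinv hr (by decide +kernel)) h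
    · rcases brec_true h with h | h
      · exact mRel_good (T := T) (by decide) [Lt.a, Lt.bi, Lt.a] [Lt.bi, Lt.a, Lt.b, Lt.a, Lt.bi, Lt.a, Lt.bi, Lt.a, Lt.b, Lt.a, Lt.b, Lt.a, Lt.bi, Lt.a, Lt.bi, Lt.a, Lt.b, Lt.a, Lt.bi, Lt.a, Lt.b, Lt.a, Lt.bi, Lt.a, Lt.b, Lt.a, Lt.bi, Lt.a, Lt.b, Lt.a, Lt.bi, Lt.a, Lt.b, Lt.a, Lt.bi, Lt.a, Lt.b, Lt.a, Lt.bi, Lt.a, Lt.bi, Lt.a, Lt.b, Lt.a, Lt.b, Lt.a, Lt.bi, Lt.a, Lt.bi, Lt.a, Lt.b, Lt.a, Lt.bi, Lt.a, Lt.b, Lt.a, Lt.bi, Lt.a, Lt.b, Lt.a, Lt.bi, Lt.a, Lt.b, Lt.a, Lt.bi] (pair_rel hinv hr (by decide +kernel)) h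
      · exact mRel_good (T := T) (by decide) [Lt.b, Lt.a, Lt.b, Lt.a, Lt.bi, Lt.a, Lt.bi, Lt.a, Lt.b, Lt.a, Lt.bi, Lt.a, Lt.b, Lt.a, Lt.bi, Lt.a] [Lt.a, Lt.b, Lt.a, Lt.b, Lt.a, Lt.bi, Lt.a, Lt.b, Lt.a, Lt.bi, Lt.a, Lt.b, Lt.a, Lt.bi, Lt.a, Lt.b, Lt.a, Lt.bi, Lt.a, Lt.b, Lt.a, Lt.bi, Lt.a, Lt.b, Lt.a, Lt.bi, Lt.a, Lt.b, Lt.a, Lt.b, Lt.a, Lt.bi, Lt.a, Lt.bi, Lt.a, Lt.b, Lt.a, Lt.b, Lt.a, Lt.bi, Lt.a, Lt.b, Lt.a, Lt.bi, Lt.a, Lt.b, Lt.a, Lt.bi, Lt.a, Lt.b, Lt.a, Lt.bi] (pair_rel hinv hr (by decide +kernel)) h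
  · rcases brec_true h with h | h
    · rcases brec_true h with h | h
      · exact mRel_good (T := T) (by decide) [Lt.a, Lt.bi, Lt.a, Lt.b, Lt.a, Lt.b, Lt.a, Lt.bi, Lt.a, Lt.bi, Lt.a, Lt.b, Lt.a, Lt.b, Lt.a, Lt.bi, Lt.a, Lt.b, Lt.a, Lt.bi, Lt.a, Lt.b, Lt.a] [Lt.bi, Lt.a, Lt.b, Lt.a, Lt.bi, Lt.a, Lt.b, Lt.a, Lt.bi, Lt.a, Lt.b, Lt.a, Lt.bi, Lt.a, Lt.b, Lt.a, Lt.bi, Lt.a, Lt.b, Lt.a, Lt.bi, Lt.a, Lt.bi, Lt.a, Lt.b, Lt.a, Lt.b, Lt.a, Lt.bi, Lt.a, Lt.bi, Lt.a, Lt.b, Lt.a, Lt.bi, Lt.a, Lt.b, Lt.a, Lt.bi, Lt.a, Lt.b, Lt.a, Lt.bi, Lt.a, Lt.b] (pair_rel hinv hr (by decide +kernel)) h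
      · exact mRel_good (T := T) (by decide) [Lt.bi, Lt.a, Lt.bi, Lt.a, Lt.bi, Lt.a, Lt.bi, Lt.a, Lt.bi, Lt.a, Lt.bi] [Lt.a, Lt.b, Lt.a] (pair_rel hinv hr (by decide +kernel)) h
    · rcases brec_true h with h | h
      · exact mRel_good (T := T) (by decide) [Lt.a, Lt.b, Lt.a, Lt.bi, Lt.a, Lt.b, Lt.a, Lt.bi, Lt.a, Lt.b, Lt.a, Lt.bi, Lt.a, Lt.b, Lt.a, Lt.bi, Lt.a, Lt.b, Lt.a, Lt.bi, Lt.a, Lt.b, Lt.a, Lt.bi, Lt.a, Lt.b, Lt.a, Lt.b, Lt.a, Lt.bi, Lt.a, Lt.bi, Lt.a, Lt.b, Lt.a, Lt.b, Lt.a, Lt.bi, Lt.a, Lt.b, Lt.a, Lt.bi, Lt.a, Lt.b, Lt.a, Lt.bi] [Lt.bi, Lt.a, Lt.b, Lt.a, Lt.b, Lt.a, Lt.bi, Lt.a, Lt.bi, Lt.a, Lt.b, Lt.a, Lt.bi, Lt.a, Lt.b, Lt.a, Lt.bi, Lt.a, Lt.b, Lt.a, Lt.bi, Lt.a] (pair_rel hinv hr (by decide +kernel)) h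
      · rcases brec_true h with h | h
        · exact mRel_good (T := T) (by decide) [Lt.bi, Lt.a, Lt.bi, Lt.a, Lt.bi, Lt.a, Lt.bi, Lt.a, Lt.bi] [Lt.a, Lt.b, Lt.a, Lt.b, Lt.a] (pair_rel hinv hr (by decide +kernel)) h
        · exact mRel_good (T := T) (by decide) [Lt.a, Lt.b, Lt.a, Lt.b] [Lt.bi, Lt.a, Lt.bi, Lt.a, Lt.bi, Lt.a, Lt.bi, Lt.a, Lt.bi, Lt.a] (pair_rel hinv hr (by decide +kernel)) h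
theorem dM_21_s (hinv : ∀ x, g (inv x) = (g x)⁻¹) (hr : ∀ r ∈ rels, (r.map g).prod = 1) (j z1 z2 u : ℕ) (h : dM_21 j z1 z2 u = true) : GoodM (fa g) T MG M (cP g H) u := by
  unfold dM_21 at h
  rcases brec_true h with h | h
  · exact dM_19_s hinv hr j z1 z2 u h
  · exact dM_20_s hinv hr j z1 z2 u h
theorem dM_22_s (hinv : ∀ x, g (inv x) = (g x)⁻¹) (hr : ∀ r ∈ rels, (r.map g).prod = 1) (j z1 z2 u : ℕ) (h : dM_22 j z1 z2 u = true) : GoodM (fa g) T MG M (cP g H) u := by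
  unfold dM_22 at h
  rcases brec_true h with h | h
  · exact dM_18_s hinv hr j z1 z2 u h
  · exact dM_21_s hinv hr j z1 z2 u h
theorem dM_23_s (hinv : ∀ x, g (inv x) = (g x)⁻¹) (hr : ∀ r ∈ rels, (r.map g).prod = 1) (j z1 z2 u : ℕ) (h : dM_23 j z1 z2 u = true) : GoodM (fa g) T MG M (cP g H) u := by
  unfold dM_23 at h
  rcases brec_true h with h | h
  · exact dM_15_s hinv hr j z1 z2 u h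
  · exact dM_22_s hinv hr j z1 z2 u h
theorem dM_24_s (hinv : ∀ x, g (inv x) = (g x)⁻¹) (hr : ∀ r ∈ rels, (r.map g).prod = 1) (j z1 z2 u : ℕ) (h : dM_24 j z1 z2 u = true) : GoodM (fa g) T MG M (cP g H) u := by
  unfold dM_24 at h
  rcases brec_true h with h | h
  · exact dM_8_s hinv hr j z1 z2 u h
  · exact dM_23_s hinv hr j z1 z2 u h
theorem dM_25_s (hinv : ∀ x, g (inv x) = (g x)⁻¹) (hr : ∀ r ∈ rels, (r.map g).prod = 1) (j z1 z2 u : ℕ) (h : dM_25 j z1 z2 u = true) : GoodM (fa g) T MG M (cP g H) u := by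
  unfold dM_25 at h
  rcases brec_true h with h | h
  · exact dM_1_s hinv hr j z1 z2 u h
  · exact dM_24_s hinv hr j z1 z2 u h
theorem dM_26_s (hinv : ∀ x, g (inv x) = (g x)⁻¹) (hr : ∀ r ∈ rels, (r.map g).prod = 1) (j z1 z2 u : ℕ) (h : dM_26 j z1 z2 u = true) : GoodM (fa g) T MG M (cP g H) u := by
  unfold dM_26 at h
  rcases brec_true h with h | h
  · exact dM_0_s hinv hr j z1 z2 u h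
  · exact dM_25_s hinv hr j z1 z2 u h
theorem sndM (hinv : ∀ x, g (inv x) = (g x)⁻¹) (hr : ∀ r ∈ rels, (r.map g).prod = 1) (u : ℕ) (h : chkM u = true) :
    MG u < A → MG u % M < u ∧ GoodM (fa g) T MG M (cP g H) u := by
  intro hA
  unfold chkM at h
  cases hb : Nat.ble A (MG u) with
  | true => exact absurd (le_of_ble hb) (by omega)
  | false =>
    rw [hb] at h
    obtain ⟨h1, h2⟩ := band_eq_true.1 h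
    exact ⟨le_of_ble h1, dM_26_s hinv hr _ _ _ _ h2⟩
theorem sndN (hinv : ∀ x, g (inv x) = (g x)⁻¹) (hr : ∀ r ∈ rels, (r.map g).prod = 1) (hH : ∀ r ∈ subs, (r.map g).prod ∈ H)
    (u : ℕ) (hu : u < M) (h : chkP u = true) : (∀ x, (T x u < A ∧ Good (fa g) T MG M (cP g H) x u) ∨ (A ≤ T x u ∧ MG u < A)) ∧ (MG u < A → MG u % M < u ∧ GoodM (fa g) T MG M (cP g H) u) := by
  unfold chkP at h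
  cases hb : Nat.ble M u with
  | true => exact absurd (le_of_ble hb) (by omega)
  | false =>
    rw [hb] at h
    change chkN u = true at h
    unfold chkN at h
    obtain ⟨h0, h⟩ := band_eq_true.1 h
    obtain ⟨h1, h⟩ := band_eq_true.1 h
    obtain ⟨h2, h⟩ := band_eq_true.1 h
    refine ⟨?_, sndM hinv hr u h⟩
    intro x
    cases x
    · exact snc_a hinv hr hH _ u hu h0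
    · exact snc_b hinv hr hH _ u hu h1
    · exact snc_bi hinv hr hH _ u hu h2
theorem final (hinv : ∀ x, g (inv x) = (g x)⁻¹) (hr : ∀ r ∈ rels, (r.map g).prod = 1) (hH : ∀ r ∈ subs, (r.map g).prod ∈ H)
    (hall : ∀ u, u < M → chkP u = true) (hc : cntB liveP 15 0 = 25080) :
    H.relIndex (Subgroup.closure (Set.range g)) ≤ 25080 ∧ H.relIndex (Subgroup.closure (Set.range g)) ≠ 0 := by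
  have hn := fun u hu => sndN hinv hr hH u hu (hall u hu)
  have h1 : ∀ x u, u < M → T x u < A → Good (fa g) T MG M (cP g H) x u := by
    intro x u hu hx
    rcases (hn u hu).1 x with h | h
    · exact h.2
    · exact absurd h.1 (by omega)
  have h2 : ∀ u, u < M → MG u < A → GoodM (fa g) T MG M (cP g H) u := fun u hu h => ((hn u hu).2 h).2
  refine relIndex_le (M := M) (A := A) (T := T) (MG := MG) (c := cP g H) (by decide) cc_zero (sound_of_good h1 h2) ?_ ?_ ?_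
  · intro u hu h
    exact ((hn u hu).2 h).1
  · intro x u hu h
    rcases (hn u hu).1 x with h' | h'
    · exact h'.1
    · exact absurd h'.2 (by omega)
  · rw [← hc, ← cntB_spec]
    apply Finset.card_le_card
    intro u
    simp only [Finset.mem_filter, Finset.mem_Ico]
    rintro ⟨⟨_, h3⟩, h4⟩
    refine ⟨⟨Nat.zero_le _, lt_of_lt_of_le h3 (by decide)⟩, ?_⟩
    unfold liveP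
    cases hb : Nat.ble M u with
    | true => exact absurd (le_of_ble hb) (by omega)
    | false => exact h4
end
end H63.TCJ1s
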